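import Mathlib
import Cfsg.Prelude.Def_Blocks
import Cfsg.Agent.Lib.CT.Orth
import Cfsg.Agent.Lib.CT.Ops
import Cfsg.Agent.Lib.CT.Kernel
import Cfsg.Agent.S0169
import Cfsg.Agent.S0154
import Cfsg.Agent.H41.Dicyclic
import Cfsg.Agent.Lib.Helper80.Schur

set_option autoImplicit false
set_option linter.unusedSimpArgs false
set_option linter.unusedSectionVars false
set_option linter.unusedVariables false
set_option linter.style.haveILetI false

namespace Cfsg.Agent.H41

open Cfsg Cfsg.Agent.Lib.CT Cfsg.Agent.Lib.CT.Wedderburn Cfsg.Agent.Lib.CT.Orth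
open scoped ComplexConjugate

/-- The number of irreducible characters of degree prime to `ℓ`. -/
noncomputable def cnt (ℓ : ℕ) (N : Type*) [Group N] : ℕ :=
  Nat.card {ψ : IrrCharacter N // ¬ ℓ ∣ charDegree (ψ : N → ℂ)}

theorem cnt_congr {H K : Type*} [Group H] [Group K] (ℓ : ℕ) (e : H ≃* K) : cnt ℓ H = cnt ℓ K := by
  apply Nat.card_congr
  refine ⟨fun ψ => ⟨⟨fun x => (ψ.1 : H → ℂ) (e.symm x),
      Ops.isIrrCharacter_comp_mulEquiv e.symm ψ.1.2⟩, ?_⟩,
    fun ψ => ⟨⟨fun x => (ψ.1 : K → ℂ) (e x), Ops.isIrrCharacter_comp_mulEquiv e ψ.1.2⟩, ?_⟩, ?_, ?_⟩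
  · have h : charDegree (fun x => (ψ.1 : H → ℂ) (e.symm x)) = charDegree (ψ.1 : H → ℂ) := by
      unfold charDegree
      simp
    show ¬ ℓ ∣ charDegree (fun x => (ψ.1 : H → ℂ) (e.symm x))
    rw [h]
    exact ψ.2
  · have h : charDegree (fun x => (ψ.1 : K → ℂ) (e x)) = charDegree (ψ.1 : K → ℂ) := by
      unfold charDegree
      simp
    show ¬ ℓ ∣ charDegree (fun x => (ψ.1 : K → ℂ) (e x))
    rw [h]
    exact ψ.2
  · intro ψ
    apply Subtype.ext
    apply Subtype.ext
    funext x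
    simp
  · intro ψ
    apply Subtype.ext
    apply Subtype.ext
    funext x
    simp

theorem charDegree_dvd_index {N : Type*} [Group N] [Finite N] (A : Subgroup N) [A.Normal]
    (hab : ∀ a ∈ A, ∀ b ∈ A, a * b = b * a) (ψ : IrrCharacter N) :
    charDegree (ψ : N → ℂ) ∣ A.index := by
  obtain ⟨n, ρ, hirr, hρ⟩ := ψ.2
  have h1 : (ψ : N → ℂ) 1 = n := by
    rw [← hρ]
    simp
  rw [charDegree_eq_of_apply_one h1]
  exact Cfsg.Agent.S0169.ito ρ hirr A hab

/-- If `N` has an abelian normal subgroup of index prime to `ℓ`, all irreducible characters have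
degree prime to `ℓ`. -/
theorem cnt_eq_card_conjClasses {N : Type*} [Group N] [Finite N] (ℓ : ℕ) (hℓ : ℓ.Prime)
    (A : Subgroup N) [A.Normal]
    (hab : ∀ a ∈ A, ∀ b ∈ A, a * b = b * a) (hidx : ¬ ℓ ∣ A.index) :
    cnt ℓ N = Nat.card (ConjClasses N) := by
  rw [← card_irrCharacter]
  unfold cnt
  apply Nat.card_congr
  exact Equiv.subtypeUnivEquiv
    (fun ψ h => hidx (dvd_trans h (charDegree_dvd_index A hab ψ)))

theorem cnt_eq_card_filter {N : Type*} [Group N] [Fintype (IrrCharacter N)] (ℓ : ℕ) :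
    cnt ℓ N = (Finset.univ.filter
      (fun ψ : IrrCharacter N => ¬ ℓ ∣ charDegree (ψ : N → ℂ))).card := by
  classical
  unfold cnt
  rw [Nat.card_eq_fintype_card, Fintype.card_subtype]

/-- Groups of dicyclic type have exactly four irreducible characters of odd degree. -/
theorem cnt_two_dicyclic {G : Type*} [Group G] [Finite G] (A : Subgroup G)
    (hidx : A.index = 2)
    (hinv : ∀ g, g ∉ A → ∀ a ∈ A, g * a * g⁻¹ = a⁻¹)
    (hcomm : ∀ a ∈ A, ∀ b ∈ A, a * b = b * a)
    (z : G) (hzA : z ∈ A) (hz1 : z ≠ 1) (hzz : z * z = 1)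
    (hsq : ∀ a ∈ A, a * a = 1 → a = 1 ∨ a = z) : cnt 2 G = 4 := by
  classical
  have hk := card_conjClasses_dicyclic A hidx hinv hcomm z hzA hz1 hzz hsq
  haveI : A.Normal := Subgroup.normal_of_index_eq_two hidx
  haveI := finite_irrCharacter G
  haveI := Fintype.ofFinite (IrrCharacter G)
  haveI := Fintype.ofFinite G
  have hdeg : ∀ ψ : IrrCharacter G, charDegree (ψ : G → ℂ) = 1 ∨ charDegree (ψ : G → ℂ) = 2 := by
    intro ψ
    have h := charDegree_dvd_index A hcomm ψ
    rw [hidx] at h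
    have h2 := Nat.le_of_dvd (by norm_num) h
    have h3 : charDegree (ψ : G → ℂ) ≠ 0 := by
      intro h0
      rw [h0] at h
      simp at h
    omega
  have hcardG : Nat.card G = 2 * Nat.card A := by
    have h := A.card_mul_index
    rw [hidx] at h
    omega
  have hsum := sum_charDegree_sq_sum (G := G)
  have hcard : Fintype.card (IrrCharacter G) = Nat.card (ConjClasses G) := by
    rw [← Nat.card_eq_fintype_card, card_irrCharacter]
  rw [cnt_eq_card_filter]
  have key : ∑ ψ : IrrCharacter G, (charDegree (ψ : G → ℂ) ^ 2 +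
      (if ¬ 2 ∣ charDegree (ψ : G → ℂ) then 3 else 0)) = ∑ ψ : IrrCharacter G, 4 := by
    apply Finset.sum_congr rfl
    intro ψ _
    rcases hdeg ψ with h | h
    · rw [h]
      norm_num
    · rw [h]
      norm_num
  rw [Finset.sum_add_distrib, hsum, sum_ite_const_card, Finset.sum_const, Finset.card_univ,
    hcard, smul_eq_mul] at key
  omega

/-- A central involution acts on an irreducible character by a sign; when the sign is `-1` and
some element squaring to the involution is conjugate to its inverse, the degree is even. -/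
theorem even_or_of_central {N : Type*} [Group N] [Finite N] (z s w : N)
    (hzc : ∀ g : N, g * z = z * g) (hzz : z * z = 1) (hss : s * s = z)
    (hws : w * s * w⁻¹ = s⁻¹) (ψ : IrrCharacter N) :
    (ψ : N → ℂ) z = (ψ : N → ℂ) 1 ∨
      ((ψ : N → ℂ) z = - (ψ : N → ℂ) 1 ∧ Even (charDegree (ψ : N → ℂ))) := by
  obtain ⟨n, ρ, hirr, hρ⟩ := ψ.2
  haveI := hirr
  have h1 : (ψ : N → ℂ) 1 = n := by
    rw [← hρ]
    simp
  have hn0 : (n : ℂ) ≠ 0 := by
    rw [← h1]
    exact irr_apply_one_ne_zero ψ.2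
  obtain ⟨c, hc⟩ := Cfsg.Agent.Lib.Helper80.Schur.schur_scalar ρ (ρ z) (fun g => by
    rw [← map_mul, ← map_mul, hzc])
  have hψz : (ψ : N → ℂ) z = c * n := by
    rw [← hρ]
    unfold Representation.character
    rw [hc, map_smul, LinearMap.trace_one]
    simp
  have hcc : c * c = 1 := by
    have h2 : ρ z * ρ z = 1 := by rw [← map_mul, hzz, map_one]
    rw [hc] at h2
    have h3 := congrArg (LinearMap.trace ℂ (Fin n → ℂ)) h2
    rw [smul_mul_smul_comm, mul_one, map_smul, LinearMap.trace_one] at h3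
    simp only [Module.finrank_fin_fun, smul_eq_mul] at h3
    have h4 : (c * c - 1) * (n : ℂ) = 0 := by linear_combination h3
    rcases mul_eq_zero.1 h4 with h | h
    · linear_combination h
    · exact absurd h hn0
  rcases mul_self_eq_one_iff.1 hcc with h | h
  · left
    rw [hψz, h, one_mul, h1]
  · right
    refine ⟨by rw [hψz, h, h1]; ring, ?_⟩
    rw [charDegree_eq_of_apply_one h1]
    have hs2 : ρ s * ρ s = (-1 : ℂ) • (1 : Module.End ℂ (Fin n → ℂ)) := by
      rw [← map_mul, hss, hc, h]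
    have hsinv : ρ s⁻¹ = (-1 : ℂ) • ρ s := by
      have e1 : ρ s⁻¹ * (ρ s * ρ s) = ρ s := by
        rw [← map_mul, ← map_mul]
        congr 1
        group
      rw [hs2, mul_smul_comm, mul_one] at e1
      rw [← e1, smul_smul]
      norm_num
    have hconj : ρ w * ρ s * ρ w⁻¹ = (-1 : ℂ) • ρ s := by
      rw [← map_mul, ← map_mul, hws, hsinv]
    have hdet := congrArg LinearMap.det hconj
    rw [map_mul, map_mul] at hdet
    have hw1 : LinearMap.det (ρ w) * LinearMap.det (ρ w⁻¹) = 1 := by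
      rw [← map_mul, ← map_mul, mul_inv_cancel, map_one, map_one]
    have hs1 : LinearMap.det (ρ s) * LinearMap.det (ρ s⁻¹) = 1 := by
      rw [← map_mul, ← map_mul, mul_inv_cancel, map_one, map_one]
    have hsne : LinearMap.det (ρ s) ≠ 0 := left_ne_zero_of_mul_eq_one hs1
    have hneg : LinearMap.det ((-1 : ℂ) • ρ s) = (-1) ^ n * LinearMap.det (ρ s) := by
      rw [LinearMap.det_smul, Module.finrank_fin_fun]
    rw [hneg] at hdet
    have h5 : ((-1 : ℂ)) ^ n = 1 := by
      have e4 : LinearMap.det (ρ w) * LinearMap.det (ρ s) * LinearMap.det (ρ w⁻¹) =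
          LinearMap.det (ρ s) := by
        calc LinearMap.det (ρ w) * LinearMap.det (ρ s) * LinearMap.det (ρ w⁻¹)
            = (LinearMap.det (ρ w) * LinearMap.det (ρ w⁻¹)) * LinearMap.det (ρ s) := by ring
          _ = LinearMap.det (ρ s) := by rw [hw1, one_mul]
      rw [e4] at hdet
      have e5 : (1 : ℂ) * LinearMap.det (ρ s) = (-1) ^ n * LinearMap.det (ρ s) := by
        rw [one_mul]
        exact hdet
      exact (mul_right_cancel₀ hsne e5).symm
    exact (neg_one_pow_eq_one_iff_even (by norm_num)).1 h5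

theorem sum_sq_plus {N : Type*} [Group N] [Fintype N] [Fintype (IrrCharacter N)]
    [DecidableEq N] (z : N) (hz1 : z ≠ 1)
    (hsign : ∀ ψ : IrrCharacter N, (ψ : N → ℂ) z = (ψ : N → ℂ) 1 ∨
      (ψ : N → ℂ) z = - (ψ : N → ℂ) 1) :
    2 * ∑ ψ ∈ Finset.univ.filter (fun ψ : IrrCharacter N => (ψ : N → ℂ) z = (ψ : N → ℂ) 1),
      charDegree (ψ : N → ℂ) ^ 2 = Nat.card N := by
  classical
  have h1 := sum_apply_one_mul_of_ne_sum z hz1
  have h2 := sum_apply_one_sq_sum (G := N)
  have h3 : ∑ ψ : IrrCharacter N, ((ψ : N → ℂ) 1 * (ψ : N → ℂ) z + (ψ : N → ℂ) 1 ^ 2) =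
      (Nat.card N : ℂ) := by
    rw [Finset.sum_add_distrib, h1, h2, zero_add]
  have h4 : ∀ ψ : IrrCharacter N, (ψ : N → ℂ) 1 * (ψ : N → ℂ) z + (ψ : N → ℂ) 1 ^ 2 =
      if (ψ : N → ℂ) z = (ψ : N → ℂ) 1 then 2 * ((charDegree (ψ : N → ℂ) ^ 2 : ℕ) : ℂ) else 0 := by
    intro ψ
    have hd := char_natCast_charDegree (isCharacter_of_irr ψ.2)
    by_cases h : (ψ : N → ℂ) z = (ψ : N → ℂ) 1
    · rw [if_pos h, h]
      push_cast
      rw [hd]
      ring
    · rw [if_neg h]
      rcases hsign ψ with h' | h'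
      · exact absurd h' h
      · rw [h']
        ring
  rw [Finset.sum_congr rfl (fun ψ _ => h4 ψ), ← Finset.sum_filter, ← Finset.mul_sum] at h3
  have h5 : ((2 * ∑ ψ ∈ Finset.univ.filter
      (fun ψ : IrrCharacter N => (ψ : N → ℂ) z = (ψ : N → ℂ) 1),
      charDegree (ψ : N → ℂ) ^ 2 : ℕ) : ℂ) = (Nat.card N : ℂ) := by
    rw [← h3]
    push_cast
    rfl
  exact_mod_cast h5

theorem sq_mod_four (d : ℕ) : d ^ 2 % 4 = (if ¬ 2 ∣ d then 1 else 0) % 4 := by
  rcases Nat.even_or_odd d with ⟨j, hj⟩ | ⟨j, hj⟩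
  · have h2 : 2 ∣ d := ⟨j, by omega⟩
    rw [if_neg (not_not.2 h2), hj]
    have : (j + j) ^ 2 = 4 * (j * j) := by ring
    rw [this]
    simp
  · have h2 : ¬ 2 ∣ d := by omega
    rw [if_pos h2, hj]
    have : (2 * j + 1) ^ 2 = 4 * (j * j + j) + 1 := by ring
    rw [this]
    omega

/-- A group of order `24` of the shape of the normalizer of a quaternion Sylow `2`-subgroup in
`SL₂(q)` has exactly four irreducible characters of odd degree. -/
theorem cnt_two_24 {N : Type*} [Group N] [Finite N] (hcard : Nat.card N = 24)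
    (z s w : N) (hzc : ∀ g : N, g * z = z * g) (hz1 : z ≠ 1) (hzz : z * z = 1)
    (hss : s * s = z) (hws : w * s * w⁻¹ = s⁻¹)
    (S : Subgroup N) [S.Normal] (hidx : S.index = 3)
    (hcent : ∀ g : N, g ^ 3 = 1 → (∀ x ∈ S, g * x = x * g) → g = 1) : cnt 2 N = 4 := by
  classical
  haveI := finite_irrCharacter N
  haveI := Fintype.ofFinite (IrrCharacter N)
  haveI := Fintype.ofFinite N
  have hA := even_or_of_central z s w hzc hzz hss hws
  have hB : 2 * ∑ ψ ∈ Finset.univ.filter
      (fun ψ : IrrCharacter N => (ψ : N → ℂ) z = (ψ : N → ℂ) 1),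
      charDegree (ψ : N → ℂ) ^ 2 = 24 := by
    rw [← hcard]
    exact sum_sq_plus z hz1 (fun ψ => (hA ψ).imp id And.left)
  have hL : (Finset.univ.filter
      (fun ψ : IrrCharacter N => charDegree (ψ : N → ℂ) = 1)).card = (commutator N).index := by
    rw [← Cfsg.Agent.S0154.result, Nat.card_eq_fintype_card, Fintype.card_subtype]
    congr 1
    ext ψ
    simp only [Finset.mem_filter, Finset.mem_univ, true_and]
    have hd := char_natCast_charDegree (isCharacter_of_irr ψ.2)
    constructor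
    · intro h
      rw [← hd, h]
      simp
    · intro h
      rw [h] at hd
      exact_mod_cast hd
  have h3 : 3 ∣ (commutator N).index := by
    have hle : commutator N ≤ S := by
      rw [← Subgroup.Normal.quotient_commutative_iff_commutator_le]
      have hc3 : Nat.card (N ⧸ S) = 3 := by
        rw [← Subgroup.index_eq_card]
        exact hidx
      haveI : Fact (Nat.Prime 3) := ⟨by norm_num⟩
      haveI := isCyclic_of_prime_card hc3
      exact IsCyclic.isMulCommutative
    rw [← hidx]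
    exact Subgroup.index_dvd_of_le hle
  have h12 : (commutator N).index ≠ 12 := by
    intro h12
    have hC2 : Nat.card (commutator N) = 2 := by
      have := (commutator N).card_mul_index
      rw [h12, hcard] at this
      omega
    have huniq : ∀ a ∈ commutator N, ∀ b ∈ commutator N, a ≠ 1 → b ≠ 1 → a = b := by
      intro a ha b hb ha1 hb1
      obtain ⟨c, hc1, hc2⟩ := (Nat.card_eq_two_iff' (1 : commutator N)).1 hC2
      have ea := hc2 ⟨a, ha⟩ (fun h => ha1 (congrArg Subtype.val h))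
      have eb := hc2 ⟨b, hb⟩ (fun h => hb1 (congrArg Subtype.val h))
      exact congrArg Subtype.val (ea.trans eb.symm)
    have hcomm_mem : ∀ g x : N, g * x * g⁻¹ * x⁻¹ ∈ commutator N := by
      intro g x
      have := Subgroup.commutator_mem_commutator (Subgroup.mem_top g) (Subgroup.mem_top x)
      rw [commutatorElement_def] at this
      exact this
    haveI : Fact (Nat.Prime 3) := ⟨by norm_num⟩
    obtain ⟨g, hg⟩ := exists_prime_orderOf_dvd_card 3
      (by rw [← Nat.card_eq_fintype_card, hcard]; norm_num : 3 ∣ Fintype.card N)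
    have hg3 : g ^ 3 = 1 := by
      rw [← hg]
      exact pow_orderOf_eq_one g
    have hg1 : g ≠ 1 := by
      rintro rfl
      rw [orderOf_one] at hg
      norm_num at hg
    apply hg1
    apply hcent g hg3
    intro x hx
    by_contra hne
    obtain ⟨t, ht⟩ : ∃ t, t = g * x * g⁻¹ * x⁻¹ := ⟨_, rfl⟩
    have htC : t ∈ commutator N := by
      rw [ht]
      exact hcomm_mem g x
    have ht1 : t ≠ 1 := by
      intro h
      apply hne
      have e : g * x = (g * x * g⁻¹ * x⁻¹) * (x * g) := by group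
      rw [e, ← ht, h, one_mul]
    have hnorm : (commutator N).Normal := inferInstance
    have htc : ∀ y : N, y * t * y⁻¹ = t := by
      intro y
      apply huniq _ (hnorm.conj_mem t htC y) _ htC
      · intro h
        apply ht1
        have e : t = y⁻¹ * (y * t * y⁻¹) * y := by group
        rw [e, h]
        group
      · exact ht1
    have htt : t * t = 1 := by
      by_contra h
      have e := huniq _ ((commutator N).mul_mem htC htC) _ htC h ht1
      apply ht1
      calc t = t⁻¹ * (t * t) := by group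
        _ = t⁻¹ * t := by rw [e]
        _ = 1 := inv_mul_cancel t
    have hgx : g * x * g⁻¹ = t * x := by
      rw [ht]
      group
    have hgt : g * t * g⁻¹ = t := htc g
    have hg3' : g * g * g = 1 := by
      rw [← hg3]
      simp [pow_succ]
    have e : x = g * (g * (g * x * g⁻¹) * g⁻¹) * g⁻¹ := by
      have e' : g * (g * (g * x * g⁻¹) * g⁻¹) * g⁻¹ = (g * g * g) * x * (g * g * g)⁻¹ := by group
      rw [e', hg3']
      group
    rw [hgx] at e
    have e2 : g * (t * x) * g⁻¹ = (g * t * g⁻¹) * (g * x * g⁻¹) := by group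
    rw [e2, hgt, hgx] at e
    have e4 : t * (t * x) = x := by rw [← mul_assoc, htt, one_mul]
    rw [e4, hgx] at e
    apply ht1
    have e3 : t = (t * x) * x⁻¹ := by group
    rw [e3, ← e, mul_inv_cancel]
  rw [cnt_eq_card_filter]
  obtain ⟨O, hO⟩ : ∃ O, O = Finset.univ.filter
    (fun ψ : IrrCharacter N => ¬ 2 ∣ charDegree (ψ : N → ℂ)) := ⟨_, rfl⟩
  obtain ⟨L, hLdef⟩ : ∃ L, L = Finset.univ.filter
    (fun ψ : IrrCharacter N => charDegree (ψ : N → ℂ) = 1) := ⟨_, rfl⟩
  obtain ⟨P, hP⟩ : ∃ P, P = Finset.univ.filter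
    (fun ψ : IrrCharacter N => (ψ : N → ℂ) z = (ψ : N → ℂ) 1) := ⟨_, rfl⟩
  rw [← hO]
  rw [← hLdef] at hL
  rw [← hP] at hB
  have hmemO : ∀ ψ : IrrCharacter N, ψ ∈ O ↔ ¬ 2 ∣ charDegree (ψ : N → ℂ) := by
    intro ψ
    rw [hO]
    simp
  have hmemL : ∀ ψ : IrrCharacter N, ψ ∈ L ↔ charDegree (ψ : N → ℂ) = 1 := by
    intro ψ
    rw [hLdef]
    simp
  have hmemP : ∀ ψ : IrrCharacter N, ψ ∈ P ↔ (ψ : N → ℂ) z = (ψ : N → ℂ) 1 := by
    intro ψ
    rw [hP]
    simp
  have hOP : O ⊆ P := by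
    intro ψ hψ
    rw [hmemO] at hψ
    rw [hmemP]
    rcases hA ψ with h | ⟨-, h⟩
    · exact h
    · exact absurd (even_iff_two_dvd.1 h) hψ
  have hLO : L ⊆ O := by
    intro ψ hψ
    rw [hmemL] at hψ
    rw [hmemO, hψ]
    norm_num
  have hD2 : ∑ ψ ∈ O, charDegree (ψ : N → ℂ) ^ 2 ≤ ∑ ψ ∈ P, charDegree (ψ : N → ℂ) ^ 2 :=
    Finset.sum_le_sum_of_subset hOP
  have hD3 : 9 * O.card ≤ ∑ ψ ∈ O, charDegree (ψ : N → ℂ) ^ 2 + 8 * L.card := by
    have e1 : ∑ ψ ∈ O, (if charDegree (ψ : N → ℂ) = 1 then 8 else 0) = 8 * L.card := by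
      rw [Finset.sum_ite, Finset.sum_const, Finset.sum_const_zero, add_zero, smul_eq_mul,
        mul_comm]
      congr 2
      ext ψ
      rw [Finset.mem_filter, hmemL, hmemO]
      constructor
      · exact fun h => h.2
      · intro h
        exact ⟨by rw [h]; norm_num, h⟩
    rw [← e1, ← Finset.sum_add_distrib]
    have e2 : 9 * O.card = ∑ ψ ∈ O, 9 := by
      rw [Finset.sum_const, smul_eq_mul, mul_comm]
    rw [e2]
    apply Finset.sum_le_sum
    intro ψ hψ
    rw [hmemO] at hψ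
    by_cases h1 : charDegree (ψ : N → ℂ) = 1
    · rw [if_pos h1, h1]
      norm_num
    · rw [if_neg h1, add_zero]
      have h3' : 3 ≤ charDegree (ψ : N → ℂ) := by omega
      nlinarith
  have hD4 : (∑ ψ ∈ P, charDegree (ψ : N → ℂ) ^ 2) % 4 = O.card % 4 := by
    rw [Finset.sum_nat_mod, Finset.sum_congr rfl (fun ψ _ => sq_mod_four _), ← Finset.sum_nat_mod,
      ← Finset.card_filter]
    congr 2
    ext ψ
    rw [Finset.mem_filter, hmemO]
    constructor
    · exact fun h => h.2
    · intro h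
      exact ⟨hOP ((hmemO ψ).2 h), h⟩
  have hLO' := Finset.card_le_card hLO
  rw [hL] at hD3 hLO'
  have hidx0 : (commutator N).index ≠ 0 := Subgroup.index_ne_zero_of_finite
  obtain ⟨j, hj⟩ := h3
  have hP12 : ∑ ψ ∈ P, charDegree (ψ : N → ℂ) ^ 2 = 12 := by omega
  rw [hP12] at hD4 hD2
  obtain ⟨c, hc⟩ : ∃ c, O.card = 4 * c := ⟨O.card / 4, by omega⟩
  rw [hj] at hD3 hLO' h12 hidx0
  rw [hc] at hD3 hLO'
  rw [hc]
  have hj4 : j ≤ 4 := by omega
  have hj1 : 1 ≤ j := by omega
  interval_cases j <;> omega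

theorem cnt_map_conj {G : Type*} [Group G] (ℓ : ℕ) (H : Subgroup G) (g : G) :
    cnt ℓ (H.map (MulAut.conj g).toMonoidHom) = cnt ℓ H :=
  (cnt_congr ℓ (H.equivMapOfInjective _ (MulAut.conj g).injective)).symm

/-- The count for the normalizer does not depend on the Sylow subgroup. -/
theorem cnt_normalizer_sylow {G : Type*} [Group G] [Finite G] (ℓ p : ℕ) [Fact p.Prime]
    (P₀ P : Sylow p G) :
    cnt ℓ (Subgroup.normalizer ((P : Subgroup G) : Set G)) =
      cnt ℓ (Subgroup.normalizer ((P₀ : Subgroup G) : Set G)) := by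
  obtain ⟨g, hg⟩ := MulAction.exists_smul_eq G P₀ P
  have hP : (P : Subgroup G) = (P₀ : Subgroup G).map (MulAut.conj g).toMonoidHom := by
    rw [← hg, Sylow.coe_subgroup_smul]
    rfl
  rw [hP, ← Subgroup.map_equiv_normalizer_eq]
  exact cnt_map_conj ℓ _ g

theorem cnt_of_eq {G : Type*} [Group G] (ℓ : ℕ) {H K : Subgroup G} (h : H = K) :
    cnt ℓ H = cnt ℓ K := by
  subst h
  rfl

theorem cnt_top {G : Type*} [Group G] (ℓ : ℕ) : cnt ℓ (⊤ : Subgroup G) = cnt ℓ G :=
  cnt_congr ℓ Subgroup.topEquiv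

end Cfsg.Agent.H41
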