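import Mathlib
import Cfsg.Agent.H41.McKayAbs
import Cfsg.Agent.Lib.Helper77.LocalRing
import Cfsg.Agent.Lib.Helper16.PSection
import Cfsg.Agent.Lib.Helper75.BlockOrth2
import Cfsg.Agent.Lib.Helper80.Integrality
import Cfsg.Agent.Lib.CT.Kernel

set_option autoImplicit false
set_option linter.unusedSimpArgs false
set_option linter.unusedSectionVars false
set_option linter.unusedVariables false
set_option linter.style.haveILetI false

namespace Cfsg.Agent.H41

open Cfsg Cfsg.Agent.Lib.CT Cfsg.Agent.Lib.CT.Wedderburn Cfsg.Agent.Lib.CT.Orth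
  Cfsg.Agent.Lib.Helper77.LocalRing
open scoped ComplexConjugate

section blocksAbs

variable {G : Type*} [Group G] [Finite G]

/-- An irreducible character takes the value `± χ 1` at a central involution. -/
theorem central_sign (z : G) (hz : z ∈ Subgroup.center G) (hzz : z * z = 1)
    (χ : G → ℂ) (hχ : IsIrrCharacter G χ) : χ z = χ 1 ∨ χ z = - χ 1 := by
  have h1 := Kernel.norm_eq_of_mem_center hχ hz
  obtain ⟨ω, hω, -, hω1⟩ := Kernel.exists_scalar_of_norm_eq (isCharacter_of_irr hχ) h1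
  have h2 := hω z
  rw [hzz, hω1] at h2
  have h3 : χ 1 ≠ 0 := irr_apply_one_ne_zero hχ
  have h4 : (ω - 1) * (ω + 1) = 0 := by
    have h5 : χ 1 * ((ω - 1) * (ω + 1)) = 0 := by linear_combination -h2
    rcases mul_eq_zero.1 h5 with h6 | h6
    · exact absurd h6 h3
    · exact h6
  rcases mul_eq_zero.1 h4 with h | h
  · left; rw [hω1]; linear_combination χ 1 * h
  · right; rw [hω1]; linear_combination χ 1 * h

omit [Finite G] in
theorem centralChar_central (z : G) (hz : z ∈ Subgroup.center G) (χ : G → ℂ) :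
    centralChar χ z = χ z / χ 1 := by
  unfold centralChar
  have h : Subgroup.centralizer ({z} : Set G) = ⊤ := by
    rw [eq_top_iff]
    intro g _
    rw [Subgroup.mem_centralizer_singleton_iff]
    exact Subgroup.mem_center_iff.1 hz g
  rw [h, Subgroup.index_top, Nat.cast_one, one_mul]

omit [Finite G] in
theorem centralChar_one (χ : G → ℂ) (h : χ 1 ≠ 0) : centralChar χ 1 = 1 := by
  rw [centralChar_central 1 (Subgroup.one_mem _), div_self h]

omit [Finite G] in
theorem sameBlock_symm (M : Ideal AlgInt) (χ ψ : G → ℂ) (h : SameBlock M χ ψ) :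
    SameBlock M ψ χ := fun g => memLocalIdeal_sub_comm (h g)

omit [Finite G] in
theorem sameBlock_refl (M : Ideal AlgInt) (hM : M.IsPrime) (χ : G → ℂ) : SameBlock M χ χ := by
  intro g
  rw [sub_self]
  exact memLocalIdeal_zero hM

/-- The hypotheses describing the `p`-blocks of a group like `SL₂(q)` in defining
characteristic. -/
structure BData (p : ℕ) (M : Ideal AlgInt) (G : Type*) [Group G] (q m : ℕ) (z u : G)
    (St : IrrCharacter G) : Prop where
  hM : IsPModular p M
  hp2 : p ≠ 2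
  hq : p ∣ q
  hm : ¬ p ∣ m
  hcard : Nat.card G = q * m
  hz : z ∈ Subgroup.center G
  hz1 : z ≠ 1
  hzz : z * z = 1
  hSt1 : (St : G → ℂ) 1 = q
  hStz : (St : G → ℂ) z = (St : G → ℂ) 1
  hStu : (St : G → ℂ) u = 0
  hdeg : ∀ χ : IrrCharacter G, χ ≠ St → ¬ p ∣ charDegree (χ : G → ℂ)
  hup : u ^ p = 1
  hui : ¬ p ∣ (Subgroup.centralizer ({u} : Set G)).index
  hreg : ∀ g : G, ¬ p ∣ orderOf g → g ≠ 1 → g ≠ z →
    p ∣ (Subgroup.centralizer ({g} : Set G)).index

variable {p : ℕ} [Fact p.Prime] {M : Ideal AlgInt} {q m : ℕ} {z u : G} {St : IrrCharacter G}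

theorem BData.prime (D : BData p M G q m z u St) : M.IsPrime := isPrime_of_isPModular D.hM

theorem BData.eq_St (D : BData p M G q m z u St) (χ : IrrCharacter G)
    (h : (χ : G → ℂ) 1 = q) : χ = St := by
  by_contra hne
  apply D.hdeg χ hne
  rw [charDegree_eq_of_apply_one h]
  exact D.hq

theorem BData.one_ne_zero (χ : IrrCharacter G) : (χ : G → ℂ) 1 ≠ 0 :=
  irr_apply_one_ne_zero χ.2

theorem BData.inv_mem (D : BData p M G q m z u St) (χ : IrrCharacter G) (hne : χ ≠ St) :
    MemLocalRing M ((χ : G → ℂ) 1)⁻¹ := by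
  rw [← char_natCast_charDegree (isCharacter_of_irr χ.2)]
  apply memLocalRing_inv (memLocalRing_natCast D.prime _)
  rw [memLocalIdeal_natCast_iff D.hM]
  exact D.hdeg χ hne

theorem BData.one_not_mem (D : BData p M G q m z u St) (χ : IrrCharacter G) (hne : χ ≠ St) :
    ¬ MemLocalIdeal M ((χ : G → ℂ) 1) := by
  rw [← char_natCast_charDegree (isCharacter_of_irr χ.2)]
  rw [memLocalIdeal_natCast_iff D.hM]
  exact D.hdeg χ hne

theorem BData.same (D : BData p M G q m z u St) (χ ψ : IrrCharacter G) (hχ : χ ≠ St)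
    (hψ : ψ ≠ St)
    (h : (χ : G → ℂ) z / (χ : G → ℂ) 1 = (ψ : G → ℂ) z / (ψ : G → ℂ) 1) :
    SameBlock M (χ : G → ℂ) (ψ : G → ℂ) := by
  apply Cfsg.Agent.Lib.Helper75.BlockOrth2.sameBlock_of_pRegular p M D.hM χ ψ
  intro g hg
  by_cases h1 : g = 1
  · rw [h1, centralChar_one _ (BData.one_ne_zero χ), centralChar_one _ (BData.one_ne_zero ψ),
      sub_self]
    exact memLocalIdeal_zero D.prime
  by_cases hz : g = z
  · rw [hz, centralChar_central z D.hz, centralChar_central z D.hz, h, sub_self]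
    exact memLocalIdeal_zero D.prime
  have hdvd := D.hreg g hg h1 hz
  have key : ∀ φ : IrrCharacter G, φ ≠ St → MemLocalIdeal M (centralChar (φ : G → ℂ) g) := by
    intro φ hφ
    unfold centralChar
    rw [mul_div_assoc, div_eq_mul_inv]
    apply memLocalIdeal_mul_right D.prime (memLocalIdeal_natCast_of_dvd D.hM hdvd)
    apply memLocalRing_mul D.prime
    · exact memLocalRing_of_isIntegral D.prime (Cfsg.Agent.Lib.Helper80.Integrality.isIntegral_irrCharacter φ g)
    · exact D.inv_mem φ hφ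
  exact memLocalIdeal_sub D.prime (key χ hχ) (key ψ hψ)

theorem BData.two_not_mem (D : BData p M G q m z u St) : ¬ MemLocalIdeal M (2 : ℂ) := by
  have h : (2 : ℂ) = ((2 : ℕ) : ℂ) := by norm_num
  rw [h, memLocalIdeal_natCast_iff D.hM]
  intro hdvd
  exact D.hp2 ((Nat.prime_dvd_prime_iff_eq Fact.out Nat.prime_two).1 hdvd)

theorem BData.diff (D : BData p M G q m z u St) (χ ψ : IrrCharacter G)
    (hχ : (χ : G → ℂ) z = (χ : G → ℂ) 1) (hψ : (ψ : G → ℂ) z = - (ψ : G → ℂ) 1) :
    ¬ SameBlock M (χ : G → ℂ) (ψ : G → ℂ) := by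
  intro h
  have h1 := h z
  rw [centralChar_central z D.hz, centralChar_central z D.hz, hχ, hψ,
    div_self (BData.one_ne_zero χ), neg_div, div_self (BData.one_ne_zero ψ)] at h1
  apply D.two_not_mem
  have e : (1 : ℂ) - -1 = 2 := by norm_num
  rw [e] at h1
  exact h1

theorem BData.st_alone (D : BData p M G q m z u St) (χ : IrrCharacter G) (hχ : χ ≠ St) :
    ¬ SameBlock M (St : G → ℂ) (χ : G → ℂ) := by
  intro h
  have h1 := h u
  have e : centralChar (St : G → ℂ) u = 0 := by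
    unfold centralChar
    rw [D.hStu, mul_zero, zero_div]
  rw [e, zero_sub] at h1
  have h2 := memLocalIdeal_neg_iff.1 h1
  unfold centralChar at h2
  have h3 : MemLocalIdeal M (((Subgroup.centralizer ({u} : Set G)).index : ℂ) *
      (χ : G → ℂ) u) := by
    have := memLocalIdeal_mul_right D.prime h2
      (memLocalRing_of_isIntegral D.prime (Cfsg.Agent.Lib.Helper80.Integrality.isIntegral_irrCharacter χ 1))
    rwa [div_mul_cancel₀ _ (BData.one_ne_zero χ)] at this
  have h4 : MemLocalIdeal M ((χ : G → ℂ) u) := by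
    rcases memLocalIdeal_or_of_mul D.prime (memLocalRing_natCast D.prime _) h3 with h | h
    · rw [memLocalIdeal_natCast_iff D.hM] at h
      exact absurd h D.hui
    · exact h
  have h5 := Cfsg.Agent.Lib.Helper16.PSection.char_mul_sub_mem D.hM (isCharacter_of_irr χ.2) u 1 (Commute.one_right u) 1
    (by rw [pow_one]; exact D.hup)
  rw [mul_one] at h5
  have h6 : MemLocalIdeal M ((χ : G → ℂ) 1) := by
    have := memLocalIdeal_sub D.prime h4 h5
    rwa [sub_sub_cancel] at this
  exact D.one_not_mem χ hχ h6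

theorem BData.St_ne_of_neg (D : BData p M G q m z u St) (χ : IrrCharacter G)
    (hχ : (χ : G → ℂ) z = - (χ : G → ℂ) 1) : χ ≠ St := by
  rintro rfl
  have h := D.hStz
  rw [hχ] at h
  have h0 : (χ : G → ℂ) 1 = 0 := by linear_combination (-1 / 2 : ℂ) * h
  exact BData.one_ne_zero χ h0

theorem BData.St_ne_of_ne (D : BData p M G q m z u St) (χ : IrrCharacter G)
    (hχ : (χ : G → ℂ) 1 ≠ q) : χ ≠ St := by
  rintro rfl
  exact hχ D.hSt1

theorem BData.block_St (D : BData p M G q m z u St) :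
    blockOf M (St : G → ℂ) = {χ : IrrCharacter G | (χ : G → ℂ) 1 = (q : ℂ)} := by
  ext ψ
  simp only [blockOf, Set.mem_ofPred_eq]
  constructor
  · intro h
    by_contra hne
    exact D.st_alone ψ (fun e => hne (by rw [e]; exact D.hSt1)) h
  · intro h
    rw [D.eq_St ψ h]
    exact sameBlock_refl M D.prime _

theorem BData.block_plus (D : BData p M G q m z u St) (χ : IrrCharacter G)
    (hχ : (χ : G → ℂ) z = (χ : G → ℂ) 1) (hne : χ ≠ St) :
    blockOf M (χ : G → ℂ) = {ψ : IrrCharacter G | (ψ : G → ℂ) z = (ψ : G → ℂ) 1 ∧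
      (ψ : G → ℂ) 1 ≠ (q : ℂ)} := by
  ext ψ
  simp only [blockOf, Set.mem_ofPred_eq]
  constructor
  · intro h
    have hψ : ψ ≠ St := by
      rintro rfl
      exact D.st_alone χ hne (sameBlock_symm M _ _ h)
    refine ⟨?_, fun e => hψ (D.eq_St ψ e)⟩
    rcases central_sign z D.hz D.hzz (ψ : G → ℂ) ψ.2 with h' | h'
    · exact h'
    · exact absurd h (D.diff χ ψ hχ h')
  · rintro ⟨h1, h2⟩
    apply D.same χ ψ hne (D.St_ne_of_ne ψ h2)
    rw [hχ, h1, div_self (BData.one_ne_zero χ), div_self (BData.one_ne_zero ψ)]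

theorem BData.block_minus (D : BData p M G q m z u St) (χ : IrrCharacter G)
    (hχ : (χ : G → ℂ) z = - (χ : G → ℂ) 1) :
    blockOf M (χ : G → ℂ) = {ψ : IrrCharacter G | (ψ : G → ℂ) z = - (ψ : G → ℂ) 1} := by
  ext ψ
  simp only [blockOf, Set.mem_ofPred_eq]
  constructor
  · intro h
    rcases central_sign z D.hz D.hzz (ψ : G → ℂ) ψ.2 with h' | h'
    · exact absurd (sameBlock_symm M _ _ h) (D.diff ψ χ h' hχ)
    · exact h'
  · intro h1
    apply D.same χ ψ (D.St_ne_of_neg χ hχ) (D.St_ne_of_neg ψ h1)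
    rw [hχ, h1, neg_div, neg_div, div_self (BData.one_ne_zero χ),
      div_self (BData.one_ne_zero ψ)]

/-- Twice the sum of the squared degrees of the characters negative at `z`. -/
theorem BData.sum_minus (D : BData p M G q m z u St) [Fintype (IrrCharacter G)] :
    2 * ∑ ψ ∈ Finset.univ.filter (fun ψ : IrrCharacter G => ¬ (ψ : G → ℂ) z = (ψ : G → ℂ) 1),
      charDegree (ψ : G → ℂ) ^ 2 = Nat.card G := by
  classical
  haveI := Fintype.ofFinite G
  have h1 := sum_sq_plus z D.hz1 (fun ψ => central_sign z D.hz D.hzz (ψ : G → ℂ) ψ.2)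
  have h2 := sum_charDegree_sq_sum (G := G)
  have h3 := Finset.sum_filter_add_sum_filter_not (Finset.univ : Finset (IrrCharacter G))
    (fun ψ : IrrCharacter G => (ψ : G → ℂ) z = (ψ : G → ℂ) 1)
    (fun ψ => charDegree (ψ : G → ℂ) ^ 2)
  omega

theorem BData.exists_minus (D : BData p M G q m z u St) :
    ∃ χ : IrrCharacter G, (χ : G → ℂ) z = - (χ : G → ℂ) 1 := by
  classical
  haveI := finite_irrCharacter G
  haveI := Fintype.ofFinite (IrrCharacter G)
  by_contra hcon
  push Not at hcon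
  have h := D.sum_minus
  have hempty : Finset.univ.filter
      (fun ψ : IrrCharacter G => ¬ (ψ : G → ℂ) z = (ψ : G → ℂ) 1) = ∅ := by
    apply Finset.filter_eq_empty_iff.2
    intro ψ _
    rw [not_not]
    rcases central_sign z D.hz D.hzz (ψ : G → ℂ) ψ.2 with h' | h'
    · exact h'
    · exact absurd h' (hcon ψ)
  rw [hempty, Finset.sum_empty, mul_zero] at h
  exact Nat.card_pos.ne h

/-- The trivial character as an irreducible character. -/
def trivIrr (G : Type*) [Group G] : IrrCharacter G := ⟨fun _ => 1, Ops.isIrrCharacter_one⟩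

theorem BData.triv_ne (D : BData p M G q m z u St) : trivIrr G ≠ St := by
  intro h
  apply D.hdeg (trivIrr G)
  · intro e
    have h1 := D.hStu
    rw [← e] at h1
    simp [trivIrr] at h1
  · have : Fact p.Prime := inferInstance
    exfalso
    have h1 := D.hStu
    rw [← h] at h1
    simp [trivIrr] at h1

theorem BData.isPBlock_iff (D : BData p M G q m z u St) (B : Set (IrrCharacter G)) :
    IsPBlock M B ↔
      (B = {χ : IrrCharacter G | (χ : G → ℂ) 1 = (q : ℂ)} ∨
       B = {ψ : IrrCharacter G | (ψ : G → ℂ) z = (ψ : G → ℂ) 1 ∧ (ψ : G → ℂ) 1 ≠ (q : ℂ)} ∨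
       B = {ψ : IrrCharacter G | (ψ : G → ℂ) z = - (ψ : G → ℂ) 1}) := by
  constructor
  · rintro ⟨χ, rfl⟩
    by_cases hχ : χ = St
    · left
      rw [hχ]
      exact D.block_St
    · rcases central_sign z D.hz D.hzz (χ : G → ℂ) χ.2 with h' | h'
      · right; left
        exact D.block_plus χ h' hχ
      · right; right
        exact D.block_minus χ h'
  · rintro (h | h | h)
    · exact ⟨St, by rw [h, D.block_St]⟩
    · refine ⟨trivIrr G, ?_⟩
      rw [h, D.block_plus (trivIrr G) rfl D.triv_ne]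
    · obtain ⟨χ, hχ⟩ := D.exists_minus
      exact ⟨χ, by rw [h, D.block_minus χ hχ]⟩

theorem BData.card_blocks (D : BData p M G q m z u St) :
    Nat.card {B : Set (IrrCharacter G) // IsPBlock M B} = 3 := by
  have hset : {B : Set (IrrCharacter G) | IsPBlock M B} =
      {{χ : IrrCharacter G | (χ : G → ℂ) 1 = (q : ℂ)},
       {ψ : IrrCharacter G | (ψ : G → ℂ) z = (ψ : G → ℂ) 1 ∧ (ψ : G → ℂ) 1 ≠ (q : ℂ)},
       {ψ : IrrCharacter G | (ψ : G → ℂ) z = - (ψ : G → ℂ) 1}} := by
    ext B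
    simp only [Set.mem_ofPred_eq, Set.mem_insert_iff, Set.mem_singleton_iff]
    exact D.isPBlock_iff B
  have hcard : Nat.card {B : Set (IrrCharacter G) // IsPBlock M B} =
      Set.ncard {B : Set (IrrCharacter G) | IsPBlock M B} := rfl
  rw [hcard, hset, Set.ncard_eq_three]
  refine ⟨_, _, _, ?_, ?_, ?_, rfl⟩
  · intro h
    have h1 : St ∈ {χ : IrrCharacter G | (χ : G → ℂ) 1 = (q : ℂ)} := D.hSt1
    rw [h] at h1
    exact h1.2 D.hSt1
  · intro h
    have h1 : St ∈ {χ : IrrCharacter G | (χ : G → ℂ) 1 = (q : ℂ)} := D.hSt1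
    rw [h] at h1
    exact D.St_ne_of_neg St h1 rfl
  · intro h
    have h1 : trivIrr G ∈ {ψ : IrrCharacter G | (ψ : G → ℂ) z = (ψ : G → ℂ) 1 ∧
        (ψ : G → ℂ) 1 ≠ (q : ℂ)} := by
      refine ⟨rfl, fun e => D.triv_ne (D.eq_St _ e)⟩
    rw [h] at h1
    have h2 : (1 : ℂ) = -1 := h1
    norm_num at h2

theorem blockCoeff_one_eq [Fintype (IrrCharacter G)] (B : Set (IrrCharacter G))
    [DecidablePred (fun χ : IrrCharacter G => χ ∈ B)] :
    blockCoeff B 1 = (Nat.card G : ℂ)⁻¹ *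
      ((∑ χ ∈ Finset.univ.filter (fun χ : IrrCharacter G => χ ∈ B),
        charDegree (χ : G → ℂ) ^ 2 : ℕ) : ℂ) := by
  unfold blockCoeff
  congr 1
  rw [finsum_mem_eq_sum_of_inter_support_eq (t := Finset.univ.filter
    (fun χ : IrrCharacter G => χ ∈ B))]
  · push_cast
    apply Finset.sum_congr rfl
    intro χ _
    rw [← char_natCast_charDegree (isCharacter_of_irr χ.2), Complex.conj_natCast, sq]
  · ext χ
    simp

omit [Finite G] in
theorem defectGroup_of_one (p : ℕ) (M : Ideal AlgInt) (B : Set (IrrCharacter G))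
    (h : IsDefectClass M B 1) (P : Sylow p G) : IsDefectGroup p M B (P : Subgroup G) := by
  have hle : (P : Subgroup G) ≤ Subgroup.centralizer ({1} : Set G) := by
    intro g _
    rw [Subgroup.mem_centralizer_singleton_iff]
    simp
  refine ⟨1, h, P.subtype hle, ?_⟩
  rw [Sylow.coe_subtype, Subgroup.map_subgroupOf_eq_of_le hle]

theorem BData.centralChar_one_not_mem (D : BData p M G q m z u St) (χ : IrrCharacter G) :
    ¬ MemLocalIdeal M (centralChar (χ : G → ℂ) 1) := by
  rw [centralChar_one _ (BData.one_ne_zero χ)]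
  exact not_memLocalIdeal_one D.prime

theorem BData.defect_minus (D : BData p M G q m z u St) :
    IsDefectClass M {ψ : IrrCharacter G | (ψ : G → ℂ) z = - (ψ : G → ℂ) 1} 1 := by
  classical
  haveI := finite_irrCharacter G
  haveI := Fintype.ofFinite (IrrCharacter G)
  have hsum := D.sum_minus
  have hfil : Finset.univ.filter (fun χ : IrrCharacter G =>
      χ ∈ {ψ : IrrCharacter G | (ψ : G → ℂ) z = - (ψ : G → ℂ) 1}) =
      Finset.univ.filter (fun ψ : IrrCharacter G => ¬ (ψ : G → ℂ) z = (ψ : G → ℂ) 1) := by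
    apply Finset.filter_congr
    intro ψ _
    simp only [Set.mem_ofPred_eq]
    constructor
    · intro h h'
      exact D.St_ne_of_neg ψ h (by
        exfalso
        rw [h] at h'
        have h0 : (ψ : G → ℂ) 1 = 0 := by linear_combination (-1 / 2 : ℂ) * h'
        exact BData.one_ne_zero ψ h0)
    · intro h
      rcases central_sign z D.hz D.hzz (ψ : G → ℂ) ψ.2 with h' | h'
      · exact absurd h' h
      · exact h'
  have hcoeff : blockCoeff {ψ : IrrCharacter G | (ψ : G → ℂ) z = - (ψ : G → ℂ) 1} 1 =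
      (2 : ℂ)⁻¹ := by
    rw [blockCoeff_one_eq]
    have hfil' : (∑ χ ∈ Finset.univ.filter (fun χ : IrrCharacter G =>
        χ ∈ {ψ : IrrCharacter G | (ψ : G → ℂ) z = - (ψ : G → ℂ) 1}),
        charDegree (χ : G → ℂ) ^ 2) =
        ∑ ψ ∈ Finset.univ.filter (fun ψ : IrrCharacter G => ¬ (ψ : G → ℂ) z = (ψ : G → ℂ) 1),
        charDegree (ψ : G → ℂ) ^ 2 := by
      apply Finset.sum_congr _ (fun _ _ => rfl)
      convert hfil using 2
    rw [hfil', ← hsum]
    have hne : ((∑ ψ ∈ Finset.univ.filter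
        (fun ψ : IrrCharacter G => ¬ (ψ : G → ℂ) z = (ψ : G → ℂ) 1),
        charDegree (ψ : G → ℂ) ^ 2 : ℕ) : ℂ) ≠ 0 := by
      intro h0
      have h0' := Nat.cast_eq_zero.1 h0
      rw [h0', mul_zero] at hsum
      exact Nat.card_pos.ne hsum
    push_cast
    push_cast at hne
    field_simp
  have h2r : MemLocalRing M (2 : ℂ) := by
    have h : (2 : ℂ) = ((2 : ℕ) : ℂ) := by norm_num
    rw [h]
    exact memLocalRing_natCast D.prime 2
  refine ⟨?_, ?_, fun χ _ => D.centralChar_one_not_mem χ⟩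
  · rw [hcoeff]
    exact memLocalRing_inv h2r D.two_not_mem
  · rw [hcoeff]
    exact not_memLocalIdeal_inv D.prime h2r D.two_not_mem

theorem BData.defect_plus (D : BData p M G q m z u St) :
    IsDefectClass M {ψ : IrrCharacter G | (ψ : G → ℂ) z = (ψ : G → ℂ) 1 ∧
      (ψ : G → ℂ) 1 ≠ (q : ℂ)} 1 := by
  classical
  haveI := finite_irrCharacter G
  haveI := Fintype.ofFinite (IrrCharacter G)
  haveI := Fintype.ofFinite G
  have hplus := sum_sq_plus z D.hz1 (fun ψ => central_sign z D.hz D.hzz (ψ : G → ℂ) ψ.2)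
  have hins : Finset.univ.filter (fun ψ : IrrCharacter G => (ψ : G → ℂ) z = (ψ : G → ℂ) 1) =
      insert St (Finset.univ.filter (fun χ : IrrCharacter G =>
      χ ∈ {ψ : IrrCharacter G | (ψ : G → ℂ) z = (ψ : G → ℂ) 1 ∧ (ψ : G → ℂ) 1 ≠ (q : ℂ)})) := by
    ext ψ
    simp only [Finset.mem_filter, Finset.mem_univ, true_and, Finset.mem_insert,
      Set.mem_ofPred_eq]
    constructor
    · intro h
      by_cases hψ : ψ = St
      · left; exact hψ
      · right
        exact ⟨h, fun e => hψ (D.eq_St ψ e)⟩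
    · rintro (h | h)
      · rw [h]; exact D.hStz
      · exact h.1
  have hnot : St ∉ Finset.univ.filter (fun χ : IrrCharacter G =>
      χ ∈ {ψ : IrrCharacter G | (ψ : G → ℂ) z = (ψ : G → ℂ) 1 ∧ (ψ : G → ℂ) 1 ≠ (q : ℂ)}) := by
    simp only [Finset.mem_filter, Finset.mem_univ, true_and, Set.mem_ofPred_eq]
    intro h
    exact h.2 D.hSt1
  obtain ⟨S, hS⟩ : ∃ S : ℕ, S = ∑ χ ∈ Finset.univ.filter (fun χ : IrrCharacter G =>
      χ ∈ {ψ : IrrCharacter G | (ψ : G → ℂ) z = (ψ : G → ℂ) 1 ∧ (ψ : G → ℂ) 1 ≠ (q : ℂ)}),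
      charDegree (χ : G → ℂ) ^ 2 := ⟨_, rfl⟩
  have hsum : 2 * (q ^ 2 + S) = q * m := by
    have h1 : ∑ ψ ∈ Finset.univ.filter
        (fun ψ : IrrCharacter G => (ψ : G → ℂ) z = (ψ : G → ℂ) 1),
        charDegree (ψ : G → ℂ) ^ 2 = q ^ 2 + S := by
      have hdSt : q ^ 2 = charDegree (St : G → ℂ) ^ 2 := by
        rw [charDegree_eq_of_apply_one D.hSt1]
      have h' := Finset.sum_insert
        (f := fun ψ : IrrCharacter G => charDegree (ψ : G → ℂ) ^ 2) hnot
      rw [hS, hdSt]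
      refine Eq.trans ?_ h'
      apply Finset.sum_congr _ (fun _ _ => rfl)
      convert hins using 2
    rw [← h1, ← D.hcard]
    exact hplus
  have hq0 : (q : ℂ) ≠ 0 := by
    rw [← D.hSt1]
    exact BData.one_ne_zero St
  have hm0 : (m : ℂ) ≠ 0 := by
    intro h0
    have h0' := Nat.cast_eq_zero.1 h0
    apply D.hm
    rw [h0']
    exact dvd_zero p
  have hsumC : 2 * ((q : ℂ) ^ 2 + (S : ℂ)) = (q : ℂ) * (m : ℂ) := by exact_mod_cast hsum
  have hcoeff : blockCoeff {ψ : IrrCharacter G | (ψ : G → ℂ) z = (ψ : G → ℂ) 1 ∧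
      (ψ : G → ℂ) 1 ≠ (q : ℂ)} 1 = ((m : ℂ) - ((2 * q : ℕ) : ℂ)) * (((2 * m : ℕ) : ℕ) : ℂ)⁻¹ := by
    rw [blockCoeff_one_eq, ← hS, D.hcard]
    push_cast
    field_simp
    linear_combination hsumC
  have h2m : ¬ MemLocalIdeal M (((2 * m : ℕ) : ℕ) : ℂ) := by
    rw [memLocalIdeal_natCast_iff D.hM]
    intro hdvd
    rcases (Nat.Prime.dvd_mul (Fact.out : p.Prime)).1 hdvd with h | h
    · exact D.hp2 ((Nat.prime_dvd_prime_iff_eq Fact.out Nat.prime_two).1 h)
    · exact D.hm h
  have hnum : MemLocalRing M ((m : ℂ) - ((2 * q : ℕ) : ℂ)) :=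
    memLocalRing_sub D.prime (memLocalRing_natCast D.prime _) (memLocalRing_natCast D.prime _)
  refine ⟨?_, ?_, fun χ _ => D.centralChar_one_not_mem χ⟩
  · rw [hcoeff]
    exact memLocalRing_mul D.prime hnum (memLocalRing_inv (memLocalRing_natCast D.prime _) h2m)
  · rw [hcoeff]
    intro hmem
    have h1 := memLocalIdeal_mul_right D.prime hmem (memLocalRing_natCast D.prime (2 * m))
    have h2m0 : (((2 * m : ℕ) : ℕ) : ℂ) ≠ 0 := by
      push_cast
      exact mul_ne_zero two_ne_zero hm0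
    rw [inv_mul_cancel_right₀ h2m0] at h1
    have h2 : MemLocalIdeal M (((2 * q : ℕ) : ℕ) : ℂ) :=
      memLocalIdeal_natCast_of_dvd D.hM (Dvd.dvd.mul_left D.hq 2)
    have h3 := memLocalIdeal_add D.prime h1 h2
    rw [sub_add_cancel, memLocalIdeal_natCast_iff D.hM] at h3
    exact D.hm h3

/-- The full description of the blocks. -/
theorem BData.main (D : BData p M G q m z u St) :
    (∀ B : Set (IrrCharacter G), IsPBlock M B ↔
      (B = {χ : IrrCharacter G | (χ : G → ℂ) 1 = (q : ℂ)} ∨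
       B = {ψ : IrrCharacter G | (ψ : G → ℂ) z = (ψ : G → ℂ) 1 ∧ (ψ : G → ℂ) 1 ≠ (q : ℂ)} ∨
       B = {ψ : IrrCharacter G | (ψ : G → ℂ) z = - (ψ : G → ℂ) 1})) ∧
    Nat.card {B : Set (IrrCharacter G) // IsPBlock M B} = 3 ∧
    ∀ P : Sylow p G,
      IsDefectGroup p M {ψ : IrrCharacter G | (ψ : G → ℂ) z = (ψ : G → ℂ) 1 ∧
        (ψ : G → ℂ) 1 ≠ (q : ℂ)} (P : Subgroup G) ∧
      IsDefectGroup p M {ψ : IrrCharacter G | (ψ : G → ℂ) z = - (ψ : G → ℂ) 1}
        (P : Subgroup G) :=
  ⟨D.isPBlock_iff, D.card_blocks, fun P =>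
    ⟨defectGroup_of_one p M _ D.defect_plus P, defectGroup_of_one p M _ D.defect_minus P⟩⟩

end blocksAbs

end Cfsg.Agent.H41
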