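import Mathlib
import Cfsg.Agent.H41.McKayAbs
import Cfsg.Agent.H41.SylowTorus
import Cfsg.Agent.Lib.Helper39.SL2Half
import Cfsg.Agent.Lib.Helper39.SL2Deg
import Cfsg.Agent.Lib.Helper39.MulCharOrth
import Cfsg.Agent.S2325

set_option autoImplicit false
set_option linter.unusedSimpArgs false
set_option linter.unusedSectionVars false
set_option linter.unusedVariables false
set_option linter.style.haveILetI false

namespace Cfsg.Agent.H41

open Matrix Cfsg Cfsg.Agent.Lib.CT Cfsg.Agent.Lib.CT.Wedderburn Cfsg.Agent.Lib.CT.Orth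
  Cfsg.Agent.Lib.Helper39.GL2Inst Cfsg.Agent.Lib.Helper39.PSInst Cfsg.Agent.Lib.Helper39.SL2PS
  Cfsg.Agent.Lib.Helper39.SL2T1 Cfsg.Agent.Lib.Helper39.SL2Tri Cfsg.Agent.Lib.Helper39.UMult
  Cfsg.Agent.Lib.Helper39.GL2T1 Cfsg.Agent.Lib.Helper39.SL2Half
  Cfsg.Agent.Lib.Helper39.SL2Odd Cfsg.Agent.Lib.Helper39.SL2Deg
  Cfsg.Agent.Lib.Helper39.MulCharOrth
open scoped ComplexConjugate

variable {F : Type*} [Field F] [Fintype F] [DecidableEq F]

theorem exists_steinberg :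
    ∃ St : Matrix.SpecialLinearGroup (Fin 2) F → ℂ,
      IsIrrCharacter (Matrix.SpecialLinearGroup (Fin 2) F) St ∧ St ≠ (fun _ => 1) ∧
      slPS (1 : MulChar F ℂ) = (fun _ => 1) + St := by
  obtain ⟨χ, χ', hχ, hχ', hne, hdec⟩ := exists_half (1 : MulChar F ℂ) (by simp)
  have h1 : classInner (fun _ : Matrix.SpecialLinearGroup (Fin 2) F => (1 : ℂ))
      (slPS (1 : MulChar F ℂ)) ≠ 0 := by
    rw [Clifford.classInner_conj_symm, slPS_inner_one, if_pos rfl]
    simp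
  rcases mem_of_decomp Ops.isIrrCharacter_one hχ hχ' hdec h1 with h | h
  · exact ⟨χ', hχ', by rw [h]; exact hne, by rw [hdec, h]⟩
  · exact ⟨χ, hχ, by rw [h]; exact hne.symm, by rw [hdec, h, add_comm]⟩

theorem sl_a_eq_one (χ : Matrix.SpecialLinearGroup (Fin 2) F → ℂ)
    (hχ : IsIrrCharacter (Matrix.SpecialLinearGroup (Fin 2) F) χ) (α : MulChar F ℂ)
    (hin : classInner χ (slPS α) ≠ 0) (hdeg : χ 1 ≠ (Fintype.card F : ℂ) + 1) :
    (Fintype.card F : ℂ)⁻¹ * ∑ x : F, χ (uSL x) = 1 := by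
  obtain ⟨a, ha, htri⟩ := sl_trichotomy χ hχ
  rcases htri with ⟨-, hall⟩ | ⟨h1, -⟩ | ⟨-, β, -, rfl⟩
  · exact absurd (hall α) hin
  · rw [ha, h1]
    simp
  · exact absurd (slPS_one β) hdeg

theorem sl_degree_class (hodd : Odd (Fintype.card F))
    (St χp χm : Matrix.SpecialLinearGroup (Fin 2) F → ℂ)
    (hSt : IsIrrCharacter (Matrix.SpecialLinearGroup (Fin 2) F) St)
    (hdecSt : slPS (1 : MulChar F ℂ) = (fun _ => 1) + St)
    (hχp : IsIrrCharacter (Matrix.SpecialLinearGroup (Fin 2) F) χp)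
    (hχm : IsIrrCharacter (Matrix.SpecialLinearGroup (Fin 2) F) χm)
    (hdecq : slPS (qc F) = χp + χm)
    (χ : Matrix.SpecialLinearGroup (Fin 2) F → ℂ)
    (hχ : IsIrrCharacter (Matrix.SpecialLinearGroup (Fin 2) F) χ) :
    ((Fintype.card F : ℂ)⁻¹ * ∑ x : F, χ (uSL x) = 0 ∧
        (χ 1 = (((Fintype.card F - 1) / 2 : ℕ) : ℂ) ∨ χ 1 = ((Fintype.card F - 1 : ℕ) : ℂ))) ∨
      (χ = (fun _ => 1) ∨ χ = St ∨ χ = χp ∨ χ = χm) ∨
      ((Fintype.card F : ℂ)⁻¹ * ∑ x : F, χ (uSL x) = 2 ∧ χ 1 = ((Fintype.card F + 1 : ℕ) : ℂ)) := by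
  have hF := ringChar_ne_two_of_odd hodd
  obtain ⟨a, ha, htri⟩ := sl_trichotomy χ hχ
  rcases htri with ⟨h0, hall⟩ | ⟨h1, α, χ', hα, hχ', hne, hdec⟩ | ⟨h2, β, -, rfl⟩
  · left
    refine ⟨by rw [ha, h0]; simp, ?_⟩
    obtain ⟨ψ₀, hψ₀⟩ := exists_primitive (F := F)
    obtain ⟨ν₀, hν₀⟩ := FiniteField.exists_nonsquare hF
    obtain ⟨a', bp, bm, hbp, hbm, ha', -, -, hdeg, -, htriv, -⟩ := sl_type hodd ψ₀ hψ₀ hν₀ χ hχ
    have haa : a' = 0 := by
      have := ha'.symm.trans ha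
      rw [h0] at this
      exact_mod_cast this
    rw [haa] at hdeg
    have hb0 : bp + bm ≠ 0 := by
      intro hb
      have h1 := htriv hb
      have h2 := hall 1
      rw [h1, Clifford.classInner_conj_symm, slPS_inner_one, if_pos rfl] at h2
      simp at h2
    obtain ⟨k, hk⟩ := hodd
    have hk2 : (Fintype.card F - 1) / 2 = k := by omega
    have hb : bp + bm = 1 ∨ bp + bm = 2 := by omega
    rcases hb with hb | hb
    · left
      rw [hdeg, hb]
      congr 1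
      omega
    · right
      rw [hdeg, hb]
      congr 1
      omega
  · right; left
    have hin := (inner_of_decomp hχ hχ' hne hdec).2
    by_cases hα1 : α = 1
    · rw [hα1] at hin
      rcases mem_of_decomp hχ Ops.isIrrCharacter_one hSt hdecSt
        (by rw [hin]; exact one_ne_zero) with h | h
      · exact Or.inl h
      · exact Or.inr (Or.inl h)
    · have hαq := quad_unique hF α hα hα1
      rw [hαq] at hin
      rcases mem_of_decomp hχ hχp hχm hdecq (by rw [hin]; exact one_ne_zero) with h | h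
      · exact Or.inr (Or.inr (Or.inl h))
      · exact Or.inr (Or.inr (Or.inr h))
  · right; right
    refine ⟨by rw [ha, h2]; simp, ?_⟩
    rw [slPS_one]
    push_cast
    ring

theorem sum_a_mul_deg [Fintype (IrrCharacter (Matrix.SpecialLinearGroup (Fin 2) F))] :
    ∑ χ : IrrCharacter (Matrix.SpecialLinearGroup (Fin 2) F),
      ((Fintype.card F : ℂ)⁻¹ * ∑ x : F, (χ : Matrix.SpecialLinearGroup (Fin 2) F → ℂ) (uSL x)) *
        (χ : Matrix.SpecialLinearGroup (Fin 2) F → ℂ) 1 =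
      ((Fintype.card F : ℂ) - 1) * ((Fintype.card F : ℂ) + 1) := by
  classical
  haveI : Fintype (MulChar F ℂ) := Fintype.ofFinite _
  have h1 : ∀ α : MulChar F ℂ, slPS α (1 : Matrix.SpecialLinearGroup (Fin 2) F) =
      ∑ χ : IrrCharacter (Matrix.SpecialLinearGroup (Fin 2) F),
        classInner (slPS α) (χ : Matrix.SpecialLinearGroup (Fin 2) F → ℂ) *
          (χ : Matrix.SpecialLinearGroup (Fin 2) F → ℂ) 1 :=
    fun α => classFunction_expand_sum (slPS α) (char_isClassFunction (isCharacter_slPS α)) 1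
  have h2 : ∑ α : MulChar F ℂ, slPS α (1 : Matrix.SpecialLinearGroup (Fin 2) F) =
      ((Fintype.card F : ℂ) - 1) * ((Fintype.card F : ℂ) + 1) := by
    simp_rw [slPS_one]
    rw [Finset.sum_const, Finset.card_univ, card_mulChar, Fintype.card_units, nsmul_eq_mul]
    have hq : 1 ≤ Fintype.card F := Fintype.card_pos
    push_cast [Nat.cast_sub hq]
    ring
  rw [← h2]
  simp_rw [h1]
  rw [Finset.sum_comm]
  apply Finset.sum_congr rfl
  intro χ _
  rw [← Finset.sum_mul]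
  congr 1
  rw [← sl_jacquet_one (χ : Matrix.SpecialLinearGroup (Fin 2) F → ℂ)
    (char_isClassFunction (isCharacter_of_irr χ.2))]
  apply Finset.sum_congr rfl
  intro α _
  obtain ⟨n, hn⟩ := Clifford.classInner_char_nat (isCharacter_of_irr χ.2) (isCharacter_slPS α)
  rw [Clifford.classInner_conj_symm (slPS α), hn, Complex.conj_natCast]

/-- The distribution of the degrees of the irreducible characters of `SL₂(q)`, `q` odd. -/
theorem global_sum (hodd : Odd (Fintype.card F))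
    [Fintype (IrrCharacter (Matrix.SpecialLinearGroup (Fin 2) F))] (f : ℕ → ℕ) :
    ∑ χ : IrrCharacter (Matrix.SpecialLinearGroup (Fin 2) F),
      f (charDegree (χ : Matrix.SpecialLinearGroup (Fin 2) F → ℂ)) =
      f 1 + f (Fintype.card F) + 2 * f ((Fintype.card F + 1) / 2) +
        ((Fintype.card F - 1) / 2 - 1) * f (Fintype.card F + 1) +
        ((Fintype.card F - 1) / 2) * f (Fintype.card F - 1) +
        2 * f ((Fintype.card F - 1) / 2) := by
  classical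
  have hF := ringChar_ne_two_of_odd hodd
  obtain ⟨St, hSt, hSt1, hdecSt⟩ := exists_steinberg (F := F)
  obtain ⟨χp, χm, hχp, hχm, hpm, hdecq⟩ := exists_half (qc F) qc_sq
  obtain ⟨ψ₀, hψ₀⟩ := exists_primitive (F := F)
  obtain ⟨ν₀, hν₀⟩ := FiniteField.exists_nonsquare hF
  have hν0 : ν₀ ≠ 0 := ne_zero_of_not_isSquare hν₀
  have hodd' := hodd
  obtain ⟨k, hk⟩ := hodd
  have hk1 : 1 ≤ k := by
    have := Fintype.one_lt_card (α := F)
    omega
  have hcq : (Fintype.card F : ℂ) = 2 * k + 1 := by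
    rw [hk]
    push_cast
    ring
  have hq0 : (Fintype.card F : ℂ) ≠ 0 := by
    exact_mod_cast (Fintype.card_pos (α := F)).ne'
  have hdegSt : St 1 = ((2 * k + 1 : ℕ) : ℂ) := by
    have h := congrFun hdecSt 1
    rw [slPS_one, hcq] at h
    simp only [Pi.add_apply] at h
    push_cast
    linear_combination -h
  have hp := half_props hodd' ψ₀ hψ₀ (Units.mk0 ν₀ hν0) hν₀ (qc F) (qc_ne_one hF) χp χm hχp hχm
    hpm hdecq
  have hm := half_props hodd' ψ₀ hψ₀ (Units.mk0 ν₀ hν0) hν₀ (qc F) (qc_ne_one hF) χm χp hχm hχp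
    hpm.symm (by rw [hdecq, add_comm])
  have hk2 : (Fintype.card F + 1) / 2 = k + 1 := by omega
  have hdegp : χp 1 = ((k + 1 : ℕ) : ℂ) := by rw [hp.2.2.1, hk2]
  have hdegm : χm 1 = ((k + 1 : ℕ) : ℂ) := by rw [hm.2.2.1, hk2]
  have haSt : (Fintype.card F : ℂ)⁻¹ * ∑ x : F, St (uSL x) = 1 := by
    apply sl_a_eq_one St hSt 1
    · rw [(inner_of_decomp Ops.isIrrCharacter_one hSt hSt1 hdecSt).1]
      exact one_ne_zero
    · rw [hdegSt, hcq]
      push_cast
      intro h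
      have : (1 : ℂ) = 0 := by linear_combination -h
      exact one_ne_zero this
  obtain ⟨e₁, he₁⟩ : ∃ e : IrrCharacter (Matrix.SpecialLinearGroup (Fin 2) F),
      (e : Matrix.SpecialLinearGroup (Fin 2) F → ℂ) = fun _ => 1 :=
    ⟨⟨_, Ops.isIrrCharacter_one⟩, rfl⟩
  obtain ⟨e₂, he₂⟩ : ∃ e : IrrCharacter (Matrix.SpecialLinearGroup (Fin 2) F),
      (e : Matrix.SpecialLinearGroup (Fin 2) F → ℂ) = St := ⟨⟨_, hSt⟩, rfl⟩
  obtain ⟨e₃, he₃⟩ : ∃ e : IrrCharacter (Matrix.SpecialLinearGroup (Fin 2) F),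
      (e : Matrix.SpecialLinearGroup (Fin 2) F → ℂ) = χp := ⟨⟨_, hχp⟩, rfl⟩
  obtain ⟨e₄, he₄⟩ : ∃ e : IrrCharacter (Matrix.SpecialLinearGroup (Fin 2) F),
      (e : Matrix.SpecialLinearGroup (Fin 2) F → ℂ) = χm := ⟨⟨_, hχm⟩, rfl⟩
  have hv₁ : (e₁ : Matrix.SpecialLinearGroup (Fin 2) F → ℂ) 1 = ((1 : ℕ) : ℂ) := by
    rw [he₁]
    simp
  have hv₂ : (e₂ : Matrix.SpecialLinearGroup (Fin 2) F → ℂ) 1 = ((2 * k + 1 : ℕ) : ℂ) := by
    rw [he₂]
    exact hdegSt
  have hv₃ : (e₃ : Matrix.SpecialLinearGroup (Fin 2) F → ℂ) 1 = ((k + 1 : ℕ) : ℂ) := by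
    rw [he₃]
    exact hdegp
  have hv₄ : (e₄ : Matrix.SpecialLinearGroup (Fin 2) F → ℂ) 1 = ((k + 1 : ℕ) : ℂ) := by
    rw [he₄]
    exact hdegm
  have hA₁ : (Fintype.card F : ℂ)⁻¹ *
      ∑ x : F, (e₁ : Matrix.SpecialLinearGroup (Fin 2) F → ℂ) (uSL x) = 1 := by
    rw [he₁]
    simp only [Finset.sum_const, Finset.card_univ, nsmul_eq_mul, mul_one]
    exact inv_mul_cancel₀ hq0
  have hA₂ : (Fintype.card F : ℂ)⁻¹ *
      ∑ x : F, (e₂ : Matrix.SpecialLinearGroup (Fin 2) F → ℂ) (uSL x) = 1 := by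
    rw [he₂]
    exact haSt
  have hA₃ : (Fintype.card F : ℂ)⁻¹ *
      ∑ x : F, (e₃ : Matrix.SpecialLinearGroup (Fin 2) F → ℂ) (uSL x) = 1 := by
    rw [he₃]
    exact hp.1
  have hA₄ : (Fintype.card F : ℂ)⁻¹ *
      ∑ x : F, (e₄ : Matrix.SpecialLinearGroup (Fin 2) F → ℂ) (uSL x) = 1 := by
    rw [he₄]
    exact hm.1
  have hd₁ : charDegree (e₁ : Matrix.SpecialLinearGroup (Fin 2) F → ℂ) = 1 :=
    charDegree_eq_of_apply_one hv₁
  have hd₂ : charDegree (e₂ : Matrix.SpecialLinearGroup (Fin 2) F → ℂ) = 2 * k + 1 :=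
    charDegree_eq_of_apply_one hv₂
  have hd₃ : charDegree (e₃ : Matrix.SpecialLinearGroup (Fin 2) F → ℂ) = k + 1 :=
    charDegree_eq_of_apply_one hv₃
  have hd₄ : charDegree (e₄ : Matrix.SpecialLinearGroup (Fin 2) F → ℂ) = k + 1 :=
    charDegree_eq_of_apply_one hv₄
  have h12 : e₁ ≠ e₂ := by
    intro h
    rw [h] at hd₁
    omega
  have h13 : e₁ ≠ e₃ := by
    intro h
    rw [h] at hd₁
    omega
  have h14 : e₁ ≠ e₄ := by
    intro h
    rw [h] at hd₁
    omega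
  have h23 : e₂ ≠ e₃ := by
    intro h
    rw [h] at hd₂
    omega
  have h24 : e₂ ≠ e₄ := by
    intro h
    rw [h] at hd₂
    omega
  have h34 : e₃ ≠ e₄ := by
    intro h
    apply hpm
    rw [← he₃, ← he₄, h]
  obtain ⟨R, hR⟩ : ∃ R : Finset (IrrCharacter (Matrix.SpecialLinearGroup (Fin 2) F)),
      R = Finset.univ.filter (fun χ => χ ≠ e₁ ∧ χ ≠ e₂ ∧ χ ≠ e₃ ∧ χ ≠ e₄) := ⟨_, rfl⟩
  have hsplit : ∀ {M : Type} [AddCommMonoid M]
      (g : IrrCharacter (Matrix.SpecialLinearGroup (Fin 2) F) → M),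
      ∑ χ, g χ = g e₁ + g e₂ + g e₃ + g e₄ + ∑ χ ∈ R, g χ := by
    intro M _ g
    have hu : (Finset.univ : Finset (IrrCharacter (Matrix.SpecialLinearGroup (Fin 2) F))) =
        insert e₁ (insert e₂ (insert e₃ (insert e₄ R))) := by
      ext χ
      simp only [Finset.mem_univ, Finset.mem_insert, hR, Finset.mem_filter, true_and, true_iff]
      tauto
    rw [hu, Finset.sum_insert, Finset.sum_insert, Finset.sum_insert, Finset.sum_insert]
    · simp only [add_assoc]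
    · rw [hR]
      simp
    · simp [hR, h34]
    · simp [hR, h23, h24]
    · simp [hR, h12, h13, h14]
  have hclass : ∀ χ ∈ R,
      ((Fintype.card F : ℂ)⁻¹ * ∑ x : F, (χ : Matrix.SpecialLinearGroup (Fin 2) F → ℂ) (uSL x) = 2 ∧
        charDegree (χ : Matrix.SpecialLinearGroup (Fin 2) F → ℂ) = 2 * k + 2) ∨
      ((Fintype.card F : ℂ)⁻¹ * ∑ x : F, (χ : Matrix.SpecialLinearGroup (Fin 2) F → ℂ) (uSL x) = 0 ∧
        charDegree (χ : Matrix.SpecialLinearGroup (Fin 2) F → ℂ) = 2 * k) ∨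
      ((Fintype.card F : ℂ)⁻¹ * ∑ x : F, (χ : Matrix.SpecialLinearGroup (Fin 2) F → ℂ) (uSL x) = 0 ∧
        charDegree (χ : Matrix.SpecialLinearGroup (Fin 2) F → ℂ) = k) := by
    intro χ hχR
    rw [hR, Finset.mem_filter] at hχR
    obtain ⟨-, n1, n2, n3, n4⟩ := hχR
    rcases sl_degree_class hodd' St χp χm hSt hdecSt hχp hχm hdecq χ χ.2 with
      ⟨h0, hd | hd⟩ | hsp | ⟨h2, hd⟩
    · right; right
      exact ⟨h0, charDegree_eq_of_apply_one (n := k) (by rw [hd]; congr 1; omega)⟩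
    · right; left
      exact ⟨h0, charDegree_eq_of_apply_one (n := 2 * k) (by rw [hd]; congr 1; omega)⟩
    · exfalso
      rcases hsp with h | h | h | h
      · exact n1 (Subtype.ext (h.trans he₁.symm))
      · exact n2 (Subtype.ext (h.trans he₂.symm))
      · exact n3 (Subtype.ext (h.trans he₃.symm))
      · exact n4 (Subtype.ext (h.trans he₄.symm))
    · left
      exact ⟨h2, charDegree_eq_of_apply_one (n := 2 * k + 2) (by rw [hd]; congr 1; omega)⟩
  obtain ⟨x, hx⟩ : ∃ x, x = (R.filter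
      (fun χ : IrrCharacter (Matrix.SpecialLinearGroup (Fin 2) F) =>
      charDegree (χ : Matrix.SpecialLinearGroup (Fin 2) F → ℂ) = 2 * k + 2)).card := ⟨_, rfl⟩
  obtain ⟨y, hy⟩ : ∃ y, y = (R.filter
      (fun χ : IrrCharacter (Matrix.SpecialLinearGroup (Fin 2) F) =>
      charDegree (χ : Matrix.SpecialLinearGroup (Fin 2) F → ℂ) = 2 * k)).card := ⟨_, rfl⟩
  obtain ⟨w, hw⟩ : ∃ w, w = (R.filter
      (fun χ : IrrCharacter (Matrix.SpecialLinearGroup (Fin 2) F) =>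
      charDegree (χ : Matrix.SpecialLinearGroup (Fin 2) F → ℂ) = k)).card := ⟨_, rfl⟩
  have hgen : ∀ f : ℕ → ℕ, ∑ χ : IrrCharacter (Matrix.SpecialLinearGroup (Fin 2) F),
      f (charDegree (χ : Matrix.SpecialLinearGroup (Fin 2) F → ℂ)) =
      f 1 + f (2 * k + 1) + 2 * f (k + 1) + x * f (2 * k + 2) + y * f (2 * k) + w * f k := by
    intro f
    rw [hsplit (fun χ => f (charDegree (χ : Matrix.SpecialLinearGroup (Fin 2) F → ℂ))), hd₁, hd₂,
      hd₃, hd₄]
    have hR' : ∑ χ ∈ R, f (charDegree (χ : Matrix.SpecialLinearGroup (Fin 2) F → ℂ)) =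
        ∑ χ ∈ R, ((if charDegree (χ : Matrix.SpecialLinearGroup (Fin 2) F → ℂ) = 2 * k + 2
            then f (2 * k + 2) else 0) +
          (if charDegree (χ : Matrix.SpecialLinearGroup (Fin 2) F → ℂ) = 2 * k
            then f (2 * k) else 0) +
          (if charDegree (χ : Matrix.SpecialLinearGroup (Fin 2) F → ℂ) = k then f k else 0)) := by
      apply Finset.sum_congr rfl
      intro χ hχ
      rcases hclass χ hχ with ⟨-, h⟩ | ⟨-, h⟩ | ⟨-, h⟩
      · rw [h, if_pos rfl, if_neg (by omega), if_neg (by omega)]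
        simp
      · rw [h, if_neg (by omega), if_pos rfl, if_neg (by omega)]
        simp
      · rw [h, if_neg (by omega), if_neg (by omega), if_pos rfl]
        simp
    rw [hR', Finset.sum_add_distrib, Finset.sum_add_distrib, Finset.sum_ite, Finset.sum_ite,
      Finset.sum_ite]
    simp only [Finset.sum_const, Finset.sum_const_zero, add_zero, smul_eq_mul]
    rw [← hx, ← hy, ← hw]
    ring
  have hE3 : (1 : ℂ) + (2 * k + 1) + 2 * (k + 1) + 2 * (2 * k + 2) * x = 2 * k * (2 * k + 2) := by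
    have h := sum_a_mul_deg (F := F)
    rw [hsplit (fun χ => ((Fintype.card F : ℂ)⁻¹ *
      ∑ x : F, (χ : Matrix.SpecialLinearGroup (Fin 2) F → ℂ) (uSL x)) *
        (χ : Matrix.SpecialLinearGroup (Fin 2) F → ℂ) 1)] at h
    rw [hA₁, hA₂, hA₃, hA₄, hv₁, hv₂, hv₃, hv₄] at h
    have hR' : ∑ χ ∈ R, ((Fintype.card F : ℂ)⁻¹ *
        ∑ x : F, (χ : Matrix.SpecialLinearGroup (Fin 2) F → ℂ) (uSL x)) *
          (χ : Matrix.SpecialLinearGroup (Fin 2) F → ℂ) 1 =
        ∑ χ ∈ R, (if charDegree (χ : Matrix.SpecialLinearGroup (Fin 2) F → ℂ) = 2 * k + 2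
          then (2 * (2 * k + 2) : ℂ) else 0) := by
      apply Finset.sum_congr rfl
      intro χ hχ
      have hd := char_natCast_charDegree (isCharacter_of_irr χ.2)
      rcases hclass χ hχ with ⟨ha, h⟩ | ⟨ha, h⟩ | ⟨ha, h⟩
      · rw [ha, ← hd, h, if_pos rfl]
        push_cast
        ring
      · rw [ha, zero_mul, h, if_neg (by omega)]
      · rw [ha, zero_mul, h, if_neg (by omega)]
    rw [hR', Finset.sum_ite, Finset.sum_const, Finset.sum_const_zero, add_zero, ← hx,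
      nsmul_eq_mul, hcq] at h
    push_cast at h
    linear_combination h
  have hE1 : 4 + x + y + w = 2 * k + 5 := by
    have h := hgen (fun _ => 1)
    simp only [Finset.sum_const, Finset.card_univ, smul_eq_mul, mul_one] at h
    have hcard : Fintype.card (IrrCharacter (Matrix.SpecialLinearGroup (Fin 2) F)) = 2 * k + 5 := by
      rw [← Nat.card_eq_fintype_card, card_irrCharacter, Cfsg.Agent.S2325.result hodd', hk]
    omega
  have hE2 : 1 + (2 * k + 1) ^ 2 + 2 * (k + 1) ^ 2 + x * (2 * k + 2) ^ 2 + y * (2 * k) ^ 2 +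
      w * k ^ 2 = (2 * k + 1) * (4 * k ^ 2 + 4 * k) := by
    have h := hgen (fun d => d ^ 2)
    rw [sum_charDegree_sq_sum, card_SL2_eq, hk] at h
    have h' : (2 * k + 1) ^ 2 - 1 = 4 * k ^ 2 + 4 * k := by
      have : (2 * k + 1) ^ 2 = 4 * k ^ 2 + 4 * k + 1 := by ring
      omega
    rw [h'] at h
    rw [h]
    ring
  have hx1 : x + 1 = k := by
    have h4 : 4 * ((k + 1) * (x + 1)) = 4 * ((k + 1) * k) := by
      have : ((4 * ((k + 1) * (x + 1)) : ℕ) : ℂ) = ((4 * ((k + 1) * k) : ℕ) : ℂ) := by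
        push_cast
        linear_combination hE3
      exact_mod_cast this
    have h5 := Nat.eq_of_mul_eq_mul_left (by norm_num) h4
    exact Nat.eq_of_mul_eq_mul_left (by omega) h5
  have hyw : y = k ∧ w = 2 := by
    have hE1' : (x : ℤ) + y + w = 2 * k + 1 := by omega
    have hE2' : (1 : ℤ) + (2 * k + 1) ^ 2 + 2 * (k + 1) ^ 2 + x * (2 * k + 2) ^ 2 + y * (2 * k) ^ 2 +
        w * k ^ 2 = (2 * k + 1) * (4 * k ^ 2 + 4 * k) := by exact_mod_cast hE2
    have hx' : (x : ℤ) = k - 1 := by omega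
    have hw' : (w : ℤ) = k + 2 - y := by omega
    have h3 : (3 : ℤ) * k ^ 2 * y = 3 * k ^ 2 * k := by
      rw [hx', hw'] at hE2'
      linear_combination hE2'
    have hk0 : (3 : ℤ) * k ^ 2 ≠ 0 := by
      have : (0 : ℤ) < k := by exact_mod_cast hk1
      positivity
    have hy' : (y : ℤ) = k := mul_left_cancel₀ hk0 h3
    constructor <;> omega
  rw [hgen f, hk]
  have e1 : (2 * k + 1 + 1) / 2 = k + 1 := by omega
  have e2 : (2 * k + 1 - 1) / 2 = k := by omega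
  have e3 : 2 * k + 1 - 1 = 2 * k := by omega
  have e4 : 2 * k + 1 + 1 = 2 * k + 2 := by omega
  have e5 : x = k - 1 := by omega
  rw [e1, e2, e3, e4, hyw.1, hyw.2, e5]

/-- The number of irreducible characters of `SL₂(q)` of degree prime to `ℓ`. -/
theorem global_cnt (hodd : Odd (Fintype.card F)) (ℓ : ℕ) :
    cnt ℓ (Matrix.SpecialLinearGroup (Fin 2) F) =
      (if ¬ ℓ ∣ 1 then 1 else 0) + (if ¬ ℓ ∣ Fintype.card F then 1 else 0) +
        2 * (if ¬ ℓ ∣ (Fintype.card F + 1) / 2 then 1 else 0) +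
        ((Fintype.card F - 1) / 2 - 1) * (if ¬ ℓ ∣ Fintype.card F + 1 then 1 else 0) +
        ((Fintype.card F - 1) / 2) * (if ¬ ℓ ∣ Fintype.card F - 1 then 1 else 0) +
        2 * (if ¬ ℓ ∣ (Fintype.card F - 1) / 2 then 1 else 0) := by
  haveI := finite_irrCharacter (Matrix.SpecialLinearGroup (Fin 2) F)
  haveI := Fintype.ofFinite (IrrCharacter (Matrix.SpecialLinearGroup (Fin 2) F))
  rw [cnt_eq_card_filter, Finset.card_filter]
  exact global_sum hodd (fun d => if ¬ ℓ ∣ d then 1 else 0)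

end Cfsg.Agent.H41
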