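import Mathlib

set_option autoImplicit false
open scoped Pointwise

namespace Cfsg.Agent.H41

variable {G : Type*} [Group G]

/-- Abstract data of a "torus" `A` with dicyclic normalizer, as in `SL₂(q)`. -/
structure TorusData (A : Subgroup G) (z : G) : Prop where
  comm : ∀ a ∈ A, ∀ b ∈ A, a * b = b * a
  cent : ∀ a ∈ A, a * a ≠ 1 → ∀ g : G, g * a = a * g → g ∈ A
  inv : ∀ w ∈ Subgroup.normalizer (A : Set G), w ∉ A → ∀ a ∈ A, w * a * w⁻¹ = a⁻¹
  sqz : ∀ w ∈ Subgroup.normalizer (A : Set G), w ∉ A → w * w = z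
  z_central : ∀ g : G, g * z = z * g
  z_ne : z ≠ 1
  z_sq : z * z = 1
  sq : ∀ a ∈ A, a * a = 1 → a = 1 ∨ a = z

theorem TorusData.mem_normalizer_of_conj_mem {A : Subgroup G} {z : G} (hT : TorusData A z)
    (a : G) (ha : a ∈ A) (haa : a * a ≠ 1) (g : G) (hg : g * a * g⁻¹ ∈ A) :
    g ∈ Subgroup.normalizer (A : Set G) := by
  rw [Subgroup.mem_normalizer_iff]
  have haa' : (g * a * g⁻¹) * (g * a * g⁻¹) ≠ 1 := by
    intro h
    apply haa
    have : g * (a * a) * g⁻¹ = 1 := by rw [← h]; group
    have h2 : a * a = g⁻¹ * (g * (a * a) * g⁻¹) * g := by group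
    rw [h2, this]
    group
  intro b
  constructor
  · intro hb
    apply hT.cent _ hg haa'
    have := hT.comm a ha b hb
    have e1 : g * b * g⁻¹ * (g * a * g⁻¹) = g * (b * a) * g⁻¹ := by group
    have e2 : g * a * g⁻¹ * (g * b * g⁻¹) = g * (a * b) * g⁻¹ := by group
    rw [e1, e2, this]
  · intro hb
    apply hT.cent a ha haa
    have := hT.comm _ hg _ hb
    have e1 : b * a = g⁻¹ * ((g * b * g⁻¹) * (g * a * g⁻¹)) * g := by group
    have e2 : a * b = g⁻¹ * ((g * a * g⁻¹) * (g * b * g⁻¹)) * g := by group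
    rw [e1, e2, this]

/-- A Sylow 2-subgroup in good position with respect to the torus. -/
structure GoodSylow (A : Subgroup G) (S : Sylow 2 G) (s w : G) (k : ℕ) : Prop where
  le : (S : Subgroup G) ≤ Subgroup.normalizer (A : Set G)
  sS : s ∈ S
  sA : s ∈ A
  ord : orderOf s = 2 ^ k
  wS : w ∈ S
  wA : w ∉ A

theorem exists_goodSylow [Finite G] (A : Subgroup G) (hcyc : IsCyclic A) (m : ℕ)
    (hm : Nat.card A = m) (hN : Nat.card (Subgroup.normalizer (A : Set G)) = 2 * m)
    (hG : (Nat.card G).factorization 2 = (2 * m).factorization 2) (k : ℕ) (hk : 2 ^ k ∣ m) :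
    ∃ (S : Sylow 2 G) (s w : G), GoodSylow A S s w k := by
  classical
  have hm0 : m ≠ 0 := by
    rw [← hm]
    exact Nat.card_pos.ne'
  obtain ⟨g₀, hg₀⟩ := IsCyclic.exists_ofOrder_eq_natCard (α := A)
  rw [hm] at hg₀
  obtain ⟨c, hc⟩ := hk
  have hc0 : c ≠ 0 := by
    rintro rfl
    simp at hc
    exact hm0 hc
  set s' : A := g₀ ^ c with hs'
  have hords' : orderOf s' = 2 ^ k := by
    rw [hs', orderOf_pow_of_dvd hc0 (by rw [hg₀, hc]; exact Dvd.intro_left _ rfl), hg₀, hc,
      Nat.mul_div_cancel _ (Nat.pos_of_ne_zero hc0)]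
  set N := Subgroup.normalizer (A : Set G) with hNdef
  have hAN : A ≤ N := Subgroup.le_normalizer
  set s : G := (s' : G) with hs
  have hsA : s ∈ A := s'.2
  have hords : orderOf s = 2 ^ k := by rw [hs, Subgroup.orderOf_coe, hords']
  set sN : N := ⟨s, hAN hsA⟩ with hsN
  have hordsN : orderOf sN = 2 ^ k := by
    rw [← hords, ← Subgroup.orderOf_coe sN]
  have hpg : IsPGroup 2 (Subgroup.zpowers sN) := by
    apply IsPGroup.of_card (n := k)
    rw [Nat.card_zpowers, hordsN]
  obtain ⟨P, hP⟩ := hpg.exists_le_sylow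
  set S₁ : Subgroup G := (P : Subgroup N).map N.subtype with hS₁
  have hcard : Nat.card S₁ = 2 ^ (Nat.card G).factorization 2 := by
    rw [hG, ← hN, ← Sylow.card_eq_multiplicity P]
    exact (Nat.card_congr
      ((P : Subgroup N).equivMapOfInjective N.subtype N.subtype_injective).toEquiv).symm
  refine ⟨Sylow.ofCard S₁ hcard, s, ?_⟩
  have hsS : s ∈ S₁ := ⟨sN, hP (Subgroup.mem_zpowers sN), rfl⟩
  have hle : S₁ ≤ N := Subgroup.map_subtype_le _
  have hex : ∃ w ∈ S₁, w ∉ A := by
    by_contra hcon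
    push Not at hcon
    have hSA : S₁ ≤ A := hcon
    have hdvd := Subgroup.card_dvd_of_le hSA
    rw [hcard, hG, hm] at hdvd
    have h2m : (2 * m).factorization 2 = m.factorization 2 + 1 := by
      rw [Nat.factorization_mul (by norm_num) hm0]
      simp [Nat.Prime.factorization_self Nat.prime_two]
      ring
    rw [h2m] at hdvd
    exact Nat.pow_succ_factorization_not_dvd hm0 Nat.prime_two hdvd
  obtain ⟨w, hwS, hwA⟩ := hex
  exact ⟨w, ⟨hle, hsS, hsA, hords, hwS, hwA⟩⟩

section claims

variable {A : Subgroup G} {z : G} {S : Sylow 2 G} {s w : G} {k : ℕ}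

theorem GoodSylow.s_sq_ne (hS : GoodSylow A S s w k) (hk : 2 ≤ k) : s * s ≠ 1 := by
  intro h
  have h2 : s ^ 2 = 1 := by rw [pow_two]; exact h
  have h3 := orderOf_dvd_of_pow_eq_one h2
  rw [hS.ord] at h3
  have h4 := Nat.le_of_dvd (by norm_num) h3
  have h5 : 2 ^ 2 ≤ 2 ^ k := Nat.pow_le_pow_right (by norm_num) hk
  omega

/-- The centralizer of a Sylow 2-subgroup in good position is the centre. -/
theorem centralizer_goodSylow (hT : TorusData A z) (hS : GoodSylow A S s w k) (hk : 2 ≤ k) :
    Subgroup.centralizer ((S : Subgroup G) : Set G) = Subgroup.center G := by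
  apply le_antisymm
  · intro g hg
    rw [Subgroup.mem_centralizer_iff] at hg
    have hgs : g * s = s * g := (hg s hS.sS).symm
    have hgA : g ∈ A := hT.cent s hS.sA (hS.s_sq_ne hk) g hgs
    have hw := hT.inv w (hS.le hS.wS) hS.wA g hgA
    have hgw : w * g = g * w := hg w hS.wS
    have hgg : g * g = 1 := by
      have h1 : g = g⁻¹ := by
        rw [← hw, hgw]
        group
      calc g * g = g * g⁻¹ := by rw [← h1]
        _ = 1 := mul_inv_cancel g
    rcases hT.sq g hgA hgg with rfl | rfl
    · exact Subgroup.one_mem _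
    · rw [Subgroup.mem_center_iff]
      intro x
      exact hT.z_central x
  · exact Subgroup.center_le_centralizer _

/-- An element normalizing both `S` and `A` lies in `S`. -/
theorem mem_goodSylow_of_normalizes (hT : TorusData A z) (hS : GoodSylow A S s w k) (g : G)
    (hg : g ∈ Subgroup.normalizer ((S : Subgroup G) : Set G))
    (hgN : g ∈ Subgroup.normalizer (A : Set G)) : g ∈ S := by
  have hpow : ∃ j : ℕ, g ^ 2 ^ j = 1 := by
    by_cases hgA : g ∈ A
    · have hmem : g * g ∈ (S : Subgroup G) := by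
        have e : g * g = (g * w * g⁻¹) * w⁻¹ := by
          have h1 := hT.inv w (hS.le hS.wS) hS.wA g⁻¹ (A.inv_mem hgA)
          rw [inv_inv] at h1
          calc g * g = g * (w * g⁻¹ * w⁻¹) := by rw [h1]
            _ = (g * w * g⁻¹) * w⁻¹ := by group
        rw [e]
        exact (S : Subgroup G).mul_mem ((Subgroup.mem_normalizer_iff.1 hg w).1 hS.wS)
          ((S : Subgroup G).inv_mem hS.wS)
      obtain ⟨j, hj⟩ := S.isPGroup' ⟨g * g, hmem⟩
      refine ⟨j + 1, ?_⟩
      have hj' : (g * g) ^ 2 ^ j = 1 := by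
        have := congrArg Subtype.val hj
        simpa using this
      rw [pow_succ, pow_mul', pow_two]
      exact hj'
    · refine ⟨2, ?_⟩
      have h1 := hT.sqz g hgN hgA
      calc g ^ 2 ^ 2 = (g * g) * (g * g) := by
            show g ^ 4 = _
            rw [show (4 : ℕ) = 2 + 2 from rfl, pow_add, pow_two]
        _ = 1 := by rw [h1, hT.z_sq]
  obtain ⟨j, hj⟩ := hpow
  have hpg : IsPGroup 2 (Subgroup.zpowers g) := by
    obtain ⟨i, -, hi⟩ := (Nat.dvd_prime_pow Nat.prime_two).1 (orderOf_dvd_of_pow_eq_one hj)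
    apply IsPGroup.of_card (n := i)
    rw [Nat.card_zpowers, hi]
  have hle : Subgroup.zpowers g ≤ Subgroup.normalizer ((S : Subgroup G) : Set G) := by
    rw [Subgroup.zpowers_le]
    exact hg
  have hsup := IsPGroup.to_sup_of_normal_right' hpg S.isPGroup' hle
  have heq := S.is_maximal' hsup le_sup_right
  have hmem : g ∈ Subgroup.zpowers g ⊔ (S : Subgroup G) :=
    (le_sup_left : Subgroup.zpowers g ≤ _) (Subgroup.mem_zpowers g)
  rw [heq] at hmem
  exact hmem

/-- A Sylow 2-subgroup in good position is self-normalizing when `8` divides the order of the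
torus. -/
theorem normalizer_goodSylow (hT : TorusData A z) (hS : GoodSylow A S s w k) (hk : 3 ≤ k) :
    Subgroup.normalizer ((S : Subgroup G) : Set G) = S := by
  apply le_antisymm _ Subgroup.le_normalizer
  intro g hg
  have h1 : g * s * g⁻¹ ∈ (S : Subgroup G) := (Subgroup.mem_normalizer_iff.1 hg s).1 hS.sS
  have h2 : g * s * g⁻¹ ∈ A := by
    by_contra hn
    have h3 := hT.sqz _ (hS.le h1) hn
    have h4 : s * s = z := by
      have e : s * s = g⁻¹ * ((g * s * g⁻¹) * (g * s * g⁻¹)) * g := by group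
      rw [e, h3, mul_assoc, ← hT.z_central g, ← mul_assoc, inv_mul_cancel, one_mul]
    have h5 : s ^ 4 = 1 := by
      calc s ^ 4 = (s * s) * (s * s) := by
            rw [show (4 : ℕ) = 2 + 2 from rfl, pow_add, pow_two]
        _ = 1 := by rw [h4, hT.z_sq]
    have h6 := orderOf_dvd_of_pow_eq_one h5
    rw [hS.ord] at h6
    have h7 := Nat.le_of_dvd (by norm_num) h6
    have h8 : 2 ^ 3 ≤ 2 ^ k := Nat.pow_le_pow_right (by norm_num) hk
    omega
  have hgN := hT.mem_normalizer_of_conj_mem s hS.sA (hS.s_sq_ne (by omega)) g h2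
  exact mem_goodSylow_of_normalizes hT hS g hg hgN

/-- When the 2-part of the torus is `4` and all elements of square `z` are conjugate, the
normalizer of a Sylow 2-subgroup in good position has order `24`. -/
theorem card_normalizer_goodSylow [Finite G] (hT : TorusData A z) (hS : GoodSylow A S s w 2)
    (m : ℕ) (hm : Nat.card A = m) (h8 : ¬ 8 ∣ m)
    (hG : (Nat.card G).factorization 2 = 3)
    (hconj : ∀ x y : G, x * x = z → y * y = z → IsConj x y) :
    Nat.card (Subgroup.normalizer ((S : Subgroup G) : Set G)) = 3 * Nat.card S := by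
  classical
  have hs2 : s * s ≠ 1 := hS.s_sq_ne le_rfl
  have hs4 : (s * s) * (s * s) = 1 := by
    have h1 : s ^ 4 = 1 := by
      have := pow_orderOf_eq_one s
      rw [hS.ord] at this
      exact this
    rw [← h1, show (4 : ℕ) = 2 + 2 from rfl, pow_add, pow_two]
  have hss : s * s = z := by
    rcases hT.sq (s * s) (A.mul_mem hS.sA hS.sA) hs4 with h | h
    · exact absurd h hs2
    · exact h
  have hzA : z ∈ A := by rw [← hss]; exact A.mul_mem hS.sA hS.sA
  have hzS : z ∈ (S : Subgroup G) := by rw [← hss]; exact (S : Subgroup G).mul_mem hS.sS hS.sS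
  have hww : w * w = z := hT.sqz w (hS.le hS.wS) hS.wA
  have hcardS : Nat.card (S : Subgroup G) = 8 := by
    rw [Sylow.card_eq_multiplicity, hG]
    norm_num
  have hm0 : m ≠ 0 := by
    rw [← hm]
    exact Nat.card_pos.ne'
  -- elements of `S ∩ A` have square `1` or `z`
  have hSA : ∀ y ∈ (S : Subgroup G), y ∈ A → y * y = 1 ∨ y * y = z := by
    intro y hyS hyA
    obtain ⟨j, hj⟩ := S.isPGroup' ⟨y, hyS⟩
    have hj' : y ^ 2 ^ j = 1 := by
      have := congrArg Subtype.val hj
      simpa using this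
    obtain ⟨i, -, hi⟩ := (Nat.dvd_prime_pow Nat.prime_two).1 (orderOf_dvd_of_pow_eq_one hj')
    have hdvd : orderOf y ∣ m := by
      rw [← hm]
      have := orderOf_dvd_natCard (⟨y, hyA⟩ : A)
      rwa [Subgroup.orderOf_mk] at this
    rw [hi] at hdvd
    have hi2 : i ≤ 2 := by
      by_contra hcon
      push Not at hcon
      apply h8
      exact dvd_trans (pow_dvd_pow 2 (show 3 ≤ i by omega)) hdvd
    have hy4 : y ^ 4 = 1 := by
      have h1 : orderOf y ∣ 4 := by
        rw [hi]
        exact pow_dvd_pow 2 hi2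
      exact orderOf_dvd_iff_pow_eq_one.1 h1
    have hy4' : (y * y) * (y * y) = 1 := by
      rw [← hy4, show (4 : ℕ) = 2 + 2 from rfl, pow_add, pow_two]
    exact hT.sq (y * y) (A.mul_mem hyA hyA) hy4'
  -- conjugates of `w` under `S`
  have hconjw : ∀ y ∈ (S : Subgroup G), y * w * y⁻¹ = w ∨ y * w * y⁻¹ = z * w := by
    have key : ∀ y ∈ (S : Subgroup G), y ∈ A → y * w * y⁻¹ = w ∨ y * w * y⁻¹ = z * w := by
      intro y hyS hyA
      have h1 := hT.inv w (hS.le hS.wS) hS.wA y⁻¹ (A.inv_mem hyA)
      rw [inv_inv] at h1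
      have e : y * w * y⁻¹ = (y * y) * w := by
        calc y * w * y⁻¹ = y * (w * y⁻¹ * w⁻¹) * w := by group
          _ = (y * y) * w := by rw [h1]
      rcases hSA y hyS hyA with h | h
      · left; rw [e, h, one_mul]
      · right; rw [e, h]
    intro y hyS
    by_cases hyA : y ∈ A
    · exact key y hyS hyA
    · have haS : y * w⁻¹ ∈ (S : Subgroup G) :=
        (S : Subgroup G).mul_mem hyS ((S : Subgroup G).inv_mem hS.wS)
      have haA : y * w⁻¹ ∈ A := by
        apply hT.cent s hS.sA hs2
        have h1 := hT.inv w (hS.le hS.wS) hS.wA s hS.sA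
        have h2 := hT.inv y (hS.le hyS) hyA s⁻¹ (A.inv_mem hS.sA)
        rw [inv_inv] at h2
        have h3 : w⁻¹ * s * w = s⁻¹ := by
          have : s = w⁻¹ * s⁻¹ * w := by rw [← h1]; group
          calc w⁻¹ * s * w = (w⁻¹ * s⁻¹ * w)⁻¹ := by group
            _ = s⁻¹ := by rw [← this]
        calc y * w⁻¹ * s = y * (w⁻¹ * s * w) * w⁻¹ := by group
          _ = (y * s⁻¹ * y⁻¹) * (y * w⁻¹) := by rw [h3]; group
          _ = s * (y * w⁻¹) := by rw [h2]
      have e : y * w * y⁻¹ = (y * w⁻¹) * w * (y * w⁻¹)⁻¹ := by group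
      rw [e]
      exact key _ haS haA
  -- an element of the normalizer outside `S`
  obtain ⟨g, hgM, hgS⟩ : ∃ g ∈ Subgroup.normalizer ((S : Subgroup G) : Set G),
      g ∉ (S : Subgroup G) := by
    obtain ⟨c, hc⟩ := isConj_iff.1 (hconj w s hww hss)
    have hc' : c⁻¹ * s * c = w := by rw [← hc]; group
    have h₂ : ((c • S : Sylow 2 G) : Subgroup G) ≤ Subgroup.normalizer (A : Set G) := by
      intro x hx
      rw [Sylow.coe_subgroup_smul, Subgroup.mem_pointwise_smul_iff_inv_smul_mem] at hx
      have hx' : c⁻¹ * x * c ∈ (S : Subgroup G) := by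
        simpa [MulAut.smul_def] using hx
      apply hT.mem_normalizer_of_conj_mem s hS.sA hs2
      have e : x * s * x⁻¹ = c * ((c⁻¹ * x * c) * (c⁻¹ * s * c) * (c⁻¹ * x * c)⁻¹) * c⁻¹ := by
        group
      rw [e, hc']
      rcases hconjw _ hx' with h | h
      · rw [h, hc]
        exact hS.sA
      · have e2 : c * (z * w) * c⁻¹ = z * (c * w * c⁻¹) := by
          calc c * (z * w) * c⁻¹ = (c * z) * w * c⁻¹ := by group
            _ = (z * c) * w * c⁻¹ := by rw [hT.z_central c]
            _ = z * (c * w * c⁻¹) := by group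
        rw [h, e2, hc]
        exact A.mul_mem hzA hS.sA
    obtain ⟨n, hn⟩ := MulAction.exists_smul_eq (Subgroup.normalizer (A : Set G))
      ((c • S : Sylow 2 G).subtype h₂) (S.subtype hS.le)
    rw [Sylow.smul_subtype] at hn
    have hn' : (n : G) • (c • S : Sylow 2 G) = S := Sylow.subtype_injective hn
    rw [← mul_smul] at hn'
    have hgM : (n : G) * c ∈ Subgroup.normalizer ((S : Subgroup G) : Set G) :=
      Sylow.smul_eq_iff_mem_normalizer.1 hn'
    refine ⟨(n : G) * c, hgM, ?_⟩
    intro hgS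
    have hA : (n : G) * c * w * ((n : G) * c)⁻¹ ∈ A := by
      have e : (n : G) * c * w * ((n : G) * c)⁻¹ = (n : G) * (c * w * c⁻¹) * (n : G)⁻¹ := by group
      rw [e, hc]
      exact (Subgroup.mem_normalizer_iff.1 n.2 s).1 hS.sA
    rcases hconjw _ hgS with h | h
    · rw [h] at hA
      exact hS.wA hA
    · rw [h] at hA
      apply hS.wA
      have : w = z⁻¹ * (z * w) := by group
      rw [this]
      exact A.mul_mem (A.inv_mem hzA) hA
  -- counting
  set M := Subgroup.normalizer ((S : Subgroup G) : Set G) with hM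
  have hSM : (S : Subgroup G) ≤ M := Subgroup.le_normalizer
  have hcardC : Nat.card ((S : Subgroup G) ⊓ A : Subgroup G) ≤ 4 := by
    obtain ⟨i, hi⟩ := (S.isPGroup'.to_le (inf_le_left : (S : Subgroup G) ⊓ A ≤ S)).exists_card_eq
    have hdvd := Subgroup.card_dvd_of_le (inf_le_right : (S : Subgroup G) ⊓ A ≤ A)
    rw [hm, hi] at hdvd
    have hi2 : i ≤ 2 := by
      by_contra hcon
      push Not at hcon
      apply h8
      exact dvd_trans (pow_dvd_pow 2 (show 3 ≤ i by omega)) hdvd
    rw [hi]
    calc 2 ^ i ≤ 2 ^ 2 := Nat.pow_le_pow_right (by norm_num) hi2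
      _ = 4 := by norm_num
  have hle24 : Nat.card M ≤ 24 := by
    haveI : Fintype G := Fintype.ofFinite G
    set Ms : Finset G := Finset.univ.filter (fun h => h ∈ M) with hMs
    set T : Finset G := (Finset.univ.filter (fun x => x ∈ (S : Subgroup G))) \ {1, z} with hTdef
    set Cf : Finset G := Finset.univ.filter (fun x => x ∈ ((S : Subgroup G) ⊓ A : Subgroup G))
      with hCf
    have hMs_card : Ms.card = Nat.card M := by
      rw [Nat.card_eq_fintype_card, Fintype.card_subtype]
    have hS_card : (Finset.univ.filter (fun x => x ∈ (S : Subgroup G))).card = 8 := by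
      rw [← hcardS, Nat.card_eq_fintype_card, Fintype.card_subtype]
    have hCf_card : Cf.card ≤ 4 := by
      have : Cf.card = Nat.card ((S : Subgroup G) ⊓ A : Subgroup G) := by
        rw [Nat.card_eq_fintype_card, Fintype.card_subtype]
      rw [this]
      exact hcardC
    have hT_card : T.card = 6 := by
      rw [hTdef, Finset.card_sdiff_of_subset, hS_card, Finset.card_pair hT.z_ne.symm]
      intro x hx
      simp only [Finset.mem_insert, Finset.mem_singleton] at hx
      simp only [Finset.mem_filter, Finset.mem_univ, true_and]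
      rcases hx with rfl | rfl
      · exact Subgroup.one_mem _
      · exact hzS
    have hmaps : ∀ h ∈ Ms, h * s * h⁻¹ ∈ T := by
      intro h hh
      simp only [hMs, Finset.mem_filter, Finset.mem_univ, true_and] at hh
      simp only [hTdef, Finset.mem_sdiff, Finset.mem_filter, Finset.mem_univ, true_and,
        Finset.mem_insert, Finset.mem_singleton]
      refine ⟨(Subgroup.mem_normalizer_iff.1 hh s).1 hS.sS, ?_⟩
      rintro (h1 | h1)
      · apply hs2
        have : s = h⁻¹ * (h * s * h⁻¹) * h := by group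
        rw [this, h1]
        group
      · apply hs2
        have : s = h⁻¹ * (h * s * h⁻¹) * h := by group
        have hsz : s = z := by
          rw [this, h1, mul_assoc, ← hT.z_central h, ← mul_assoc, inv_mul_cancel, one_mul]
        rw [hsz, hT.z_sq]
    have hfib : ∀ b ∈ T, (Ms.filter (fun a => a * s * a⁻¹ = b)).card ≤ 4 := by
      intro b _
      by_cases hne : (Ms.filter (fun a => a * s * a⁻¹ = b)).Nonempty
      · obtain ⟨h₀, hh₀⟩ := hne
        simp only [hMs, Finset.mem_filter, Finset.mem_univ, true_and] at hh₀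
        obtain ⟨hh₀M, hh₀b⟩ := hh₀
        have hsub : Ms.filter (fun a => a * s * a⁻¹ = b) ⊆ Cf.image (fun u => h₀ * u) := by
          intro h hh
          simp only [hMs, Finset.mem_filter, Finset.mem_univ, true_and] at hh
          obtain ⟨hhM, hhb⟩ := hh
          simp only [Finset.mem_image, hCf, Finset.mem_filter, Finset.mem_univ, true_and]
          refine ⟨h₀⁻¹ * h, ?_, by group⟩
          have hcomm : (h₀⁻¹ * h) * s = s * (h₀⁻¹ * h) := by
            have h1 : h * s * h⁻¹ = h₀ * s * h₀⁻¹ := by rw [hhb, hh₀b]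
            calc (h₀⁻¹ * h) * s = h₀⁻¹ * (h * s * h⁻¹) * h := by group
              _ = h₀⁻¹ * (h₀ * s * h₀⁻¹) * h := by rw [h1]
              _ = s * (h₀⁻¹ * h) := by group
          have huA : h₀⁻¹ * h ∈ A := hT.cent s hS.sA hs2 _ hcomm
          have huM : h₀⁻¹ * h ∈ M := M.mul_mem (M.inv_mem hh₀M) hhM
          have huS : h₀⁻¹ * h ∈ (S : Subgroup G) :=
            mem_goodSylow_of_normalizes hT hS _ huM (Subgroup.le_normalizer huA)
          exact Subgroup.mem_inf.2 ⟨huS, huA⟩
        calc (Ms.filter (fun a => a * s * a⁻¹ = b)).card ≤ (Cf.image (fun u => h₀ * u)).card :=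
              Finset.card_le_card hsub
          _ ≤ Cf.card := Finset.card_image_le
          _ ≤ 4 := hCf_card
      · rw [Finset.not_nonempty_iff_eq_empty] at hne
        rw [hne]
        simp
    have := Finset.card_le_mul_card_image_of_maps_to hmaps 4 hfib
    rw [hMs_card, hT_card] at this
    omega
  have h8dvd : 8 ∣ Nat.card M := by
    rw [← hcardS]
    exact Subgroup.card_dvd_of_le hSM
  have h16 : ¬ 16 ∣ Nat.card M := by
    intro h
    have h1 : 16 ∣ Nat.card G := dvd_trans h (Subgroup.card_subgroup_dvd_card M)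
    have h2 := Nat.pow_succ_factorization_not_dvd (Nat.card_pos (α := G)).ne' Nat.prime_two
    rw [hG] at h2
    exact h2 h1
  have hne8 : Nat.card M ≠ 8 := by
    intro h
    have : (S : Subgroup G) = M := Subgroup.eq_of_le_of_card_ge hSM (by rw [h, hcardS])
    apply hgS
    rw [this]
    exact hgM
  rw [hcardS]
  obtain ⟨j, hj⟩ := h8dvd
  have hpos : 0 < Nat.card M := Nat.card_pos
  have hj3 : j = 1 ∨ j = 2 ∨ j = 3 := by omega
  rcases hj3 with rfl | rfl | rfl
  · omega
  · exfalso
    apply h16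
    rw [hj]
  · omega

end claims

section transport

variable [Finite G]

theorem mem_normalizer_smul_sylow (c g : G) (S₁ : Sylow 2 G) :
    g ∈ Subgroup.normalizer (((c • S₁ : Sylow 2 G) : Subgroup G) : Set G) ↔
      c⁻¹ * g * c ∈ Subgroup.normalizer ((S₁ : Subgroup G) : Set G) := by
  have h1 : g ∈ Subgroup.normalizer (((c • S₁ : Sylow 2 G) : Subgroup G) : Set G) ↔
      g • (c • S₁) = c • S₁ := Sylow.smul_eq_iff_mem_normalizer.symm
  have h2 : c⁻¹ * g * c ∈ Subgroup.normalizer ((S₁ : Subgroup G) : Set G) ↔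
      (c⁻¹ * g * c) • S₁ = S₁ := Sylow.smul_eq_iff_mem_normalizer.symm
  rw [h1, h2, mul_smul, mul_smul]
  constructor
  · intro h
    rw [h, inv_smul_smul]
  · intro h
    rw [inv_smul_eq_iff] at h
    exact h

theorem sylow2_centralizer {A : Subgroup G} {z : G} (hT : TorusData A z) (hcyc : IsCyclic A)
    (m : ℕ) (hm : Nat.card A = m) (hN : Nat.card (Subgroup.normalizer (A : Set G)) = 2 * m)
    (hG : (Nat.card G).factorization 2 = (2 * m).factorization 2) (h4 : 4 ∣ m) (S : Sylow 2 G) :
    Subgroup.centralizer ((S : Subgroup G) : Set G) = Subgroup.center G := by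
  obtain ⟨S₁, s, w, hS₁⟩ := exists_goodSylow A hcyc m hm hN hG 2 (by simpa using h4)
  have h := centralizer_goodSylow hT hS₁ le_rfl
  obtain ⟨c, rfl⟩ := MulAction.exists_smul_eq G S₁ S
  apply le_antisymm _ (Subgroup.center_le_centralizer _)
  intro g hg
  rw [Subgroup.mem_centralizer_iff] at hg
  have h1 : c⁻¹ * g * c ∈ Subgroup.centralizer ((S₁ : Subgroup G) : Set G) := by
    rw [Subgroup.mem_centralizer_iff]
    intro y hy
    have hy' : c * y * c⁻¹ ∈ ((c • S₁ : Sylow 2 G) : Subgroup G) := by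
      rw [Sylow.coe_subgroup_smul, Subgroup.mem_pointwise_smul_iff_inv_smul_mem]
      have : (MulAut.conj c)⁻¹ • (c * y * c⁻¹) = y := by
        simp [MulAut.smul_def, mul_assoc]
      rw [this]
      exact hy
    have h2 := hg _ hy'
    calc y * (c⁻¹ * g * c) = c⁻¹ * ((c * y * c⁻¹) * g) * c := by group
      _ = c⁻¹ * (g * (c * y * c⁻¹)) * c := by rw [h2]
      _ = c⁻¹ * g * c * y := by group
  rw [h] at h1
  have h3 : g = c * (c⁻¹ * g * c) * c⁻¹ := by group
  rw [h3]
  exact Subgroup.Normal.conj_mem inferInstance _ h1 c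

theorem sylow2_normalizer {A : Subgroup G} {z : G} (hT : TorusData A z) (hcyc : IsCyclic A)
    (m : ℕ) (hm : Nat.card A = m) (hN : Nat.card (Subgroup.normalizer (A : Set G)) = 2 * m)
    (hG : (Nat.card G).factorization 2 = (2 * m).factorization 2) (h8 : 8 ∣ m) (S : Sylow 2 G) :
    Subgroup.normalizer ((S : Subgroup G) : Set G) = S := by
  obtain ⟨S₁, s, w, hS₁⟩ := exists_goodSylow A hcyc m hm hN hG 3 (by simpa using h8)
  have h := normalizer_goodSylow hT hS₁ le_rfl
  obtain ⟨c, rfl⟩ := MulAction.exists_smul_eq G S₁ S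
  apply le_antisymm _ Subgroup.le_normalizer
  intro g hg
  rw [mem_normalizer_smul_sylow, h] at hg
  rw [Sylow.coe_subgroup_smul, Subgroup.mem_pointwise_smul_iff_inv_smul_mem]
  have : (MulAut.conj c)⁻¹ • g = c⁻¹ * g * c := by
    simp [MulAut.smul_def]
  rw [this]
  exact hg

theorem sylow2_card_normalizer {A : Subgroup G} {z : G} (hT : TorusData A z) (hcyc : IsCyclic A)
    (m : ℕ) (hm : Nat.card A = m) (hN : Nat.card (Subgroup.normalizer (A : Set G)) = 2 * m)
    (hG : (Nat.card G).factorization 2 = (2 * m).factorization 2) (h4 : 4 ∣ m) (h8 : ¬ 8 ∣ m)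
    (hconj : ∀ x y : G, x * x = z → y * y = z → IsConj x y) (S : Sylow 2 G) :
    Nat.card (Subgroup.normalizer ((S : Subgroup G) : Set G)) = 3 * Nat.card S := by
  have hm0 : m ≠ 0 := by
    rw [← hm]
    exact Nat.card_pos.ne'
  have hv : m.factorization 2 = 2 := by
    have h1 : 2 ≤ m.factorization 2 :=
      (Nat.Prime.pow_dvd_iff_le_factorization Nat.prime_two hm0).1 (by simpa using h4)
    have h2 : ¬ 3 ≤ m.factorization 2 := by
      intro h
      apply h8
      have := (Nat.Prime.pow_dvd_iff_le_factorization Nat.prime_two hm0).2 h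
      simpa using this
    omega
  have hG3 : (Nat.card G).factorization 2 = 3 := by
    rw [hG, Nat.factorization_mul (by norm_num) hm0]
    simp [Nat.Prime.factorization_self Nat.prime_two, hv]
  obtain ⟨S₁, s, w, hS₁⟩ := exists_goodSylow A hcyc m hm hN hG 2 (by simpa using h4)
  have h := card_normalizer_goodSylow hT hS₁ m hm h8 hG3 hconj
  obtain ⟨c, rfl⟩ := MulAction.exists_smul_eq G S₁ S
  have hcard : Nat.card (Subgroup.normalizer (((c • S₁ : Sylow 2 G) : Subgroup G) : Set G)) =
      Nat.card (Subgroup.normalizer ((S₁ : Subgroup G) : Set G)) := by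
    apply Nat.card_congr
    refine ⟨fun x => ⟨c⁻¹ * x * c, (mem_normalizer_smul_sylow c x S₁).1 x.2⟩,
      fun y => ⟨c * y * c⁻¹, (mem_normalizer_smul_sylow c _ S₁).2 ?_⟩, ?_, ?_⟩
    · have : c⁻¹ * (c * (y : G) * c⁻¹) * c = y := by group
      rw [this]
      exact y.2
    · intro x
      apply Subtype.ext
      simp only
      group
    · intro y
      apply Subtype.ext
      simp only
      group
  rw [hcard, h, Sylow.card_eq_multiplicity, Sylow.card_eq_multiplicity]

end transport

end Cfsg.Agent.H41
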