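import Mathlib
import Cfsg.Agent.H41.McKayAbs
import Cfsg.Agent.H41.Syl2Abs
import Cfsg.Agent.H41.SylowTorus

set_option autoImplicit false
set_option linter.unusedSimpArgs false
set_option linter.unusedSectionVars false
set_option linter.unusedVariables false
set_option linter.style.haveILetI false

namespace Cfsg.Agent.H41

open Cfsg Cfsg.Agent.Lib.CT Cfsg.Agent.Lib.CT.Wedderburn Cfsg.Agent.Lib.CT.Orth

variable {G : Type*} [Group G]

/-- In the situation of `sylow_in_torus`, there is a Sylow `ℓ`-subgroup whose normalizer is the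
normalizer of the torus. -/
theorem exists_sylow_normalizer_torus [Finite G] (T : Subgroup G) (hT : IsCyclic T) (ℓ : ℕ)
    [Fact ℓ.Prime] (hℓ2 : ℓ ≠ 2) (z : G) (hzz : z * z = 1)
    (hcent : ∀ a ∈ T, a ≠ 1 → a ≠ z → Subgroup.centralizer ({a} : Set G) = T)
    (hdiv : ℓ ∣ Nat.card T)
    (hfact : (Nat.card G).factorization ℓ = (Nat.card T).factorization ℓ) :
    ∃ P₀ : Sylow ℓ G, Subgroup.normalizer ((P₀ : Subgroup G) : Set G) =
      Subgroup.normalizer (T : Set G) := by
  classical
  have hℓ : ℓ.Prime := Fact.out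
  have hTcomm : ∀ a ∈ T, ∀ c ∈ T, a * c = c * a := by
    intro a ha c hc
    let _ := IsCyclic.commGroup (α := T)
    have h := mul_comm (⟨a, ha⟩ : T) ⟨c, hc⟩
    exact congrArg Subtype.val h
  obtain ⟨Q⟩ : Nonempty (Sylow ℓ T) := inferInstance
  set P₀ : Subgroup G := (Q : Subgroup T).map T.subtype with hP₀
  have hP₀T : P₀ ≤ T := Subgroup.map_subtype_le _
  have hcardP₀ : Nat.card P₀ = ℓ ^ (Nat.card G).factorization ℓ := by
    rw [hfact, ← Sylow.card_eq_multiplicity Q]
    exact (Nat.card_congr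
      ((Q : Subgroup T).equivMapOfInjective T.subtype T.subtype_injective).toEquiv).symm
  have hQnormal : (Q : Subgroup T).Normal := by
    constructor
    intro n hn g
    have h := hTcomm g g.2 n n.2
    have h' : g * n = n * g := Subtype.ext h
    rw [h', mul_inv_cancel_right]
    exact hn
  have hmemP₀ : ∀ h : G, h ∈ P₀ ↔ h ∈ T ∧ ∃ k : ℕ, h ^ (ℓ ^ k) = 1 := by
    intro h
    constructor
    · intro hh
      refine ⟨hP₀T hh, ?_⟩
      obtain ⟨⟨h', hT'⟩, hq, rfl⟩ := hh
      obtain ⟨k, hk⟩ := Q.isPGroup' ⟨⟨h', hT'⟩, hq⟩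
      refine ⟨k, ?_⟩
      have h1 := congrArg (fun x : (Q : Subgroup T) => ((x : T) : G)) hk
      simpa using h1
    · rintro ⟨hT', k, hk⟩
      refine ⟨⟨h, hT'⟩, ?_, rfl⟩
      have hpow : (⟨h, hT'⟩ : T) ^ (ℓ ^ k) = 1 := Subtype.ext (by simpa using hk)
      have hp : IsPGroup ℓ (Subgroup.zpowers (⟨h, hT'⟩ : T)) := by
        rintro ⟨y, hy⟩
        obtain ⟨n, rfl⟩ := Subgroup.mem_zpowers_iff.1 hy
        refine ⟨k, ?_⟩
        apply Subtype.ext
        show ((⟨h, hT'⟩ : T) ^ n) ^ (ℓ ^ k) = 1
        rw [← zpow_natCast, ← _root_.zpow_mul, mul_comm, _root_.zpow_mul, zpow_natCast, hpow, _root_.one_zpow]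
      obtain ⟨Q', hQ'⟩ := hp.exists_le_sylow
      have := Sylow.unique_of_normal Q hQnormal
      have hQQ : Q' = Q := Subsingleton.elim _ _
      rw [hQQ] at hQ'
      exact hQ' (Subgroup.mem_zpowers _)
  -- the centralizer of P₀ is T
  have hCP₀ : Subgroup.centralizer ((P₀ : Subgroup G) : Set G) = T := by
    have hpos : 0 < (Nat.card T).factorization ℓ :=
      hℓ.factorization_pos_of_dvd Nat.card_pos.ne' hdiv
    have h1 : 1 < Nat.card P₀ := by
      rw [hcardP₀, hfact]
      exact Nat.one_lt_pow hpos.ne' hℓ.one_lt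
    obtain ⟨⟨a, haP⟩, ha1⟩ := (Subgroup.ne_bot_iff_exists_ne_one).1
      ((Subgroup.one_lt_card_iff_ne_bot P₀).1 h1)
    have ha1' : a ≠ 1 := fun h => ha1 (Subtype.ext h)
    obtain ⟨haT, k, hk⟩ := (hmemP₀ a).1 haP
    have haz : a ≠ z := by
      rintro rfl
      have h2 : orderOf a ∣ 2 := orderOf_dvd_of_pow_eq_one (by rw [pow_two]; exact hzz)
      have h3 : orderOf a ∣ ℓ ^ k := orderOf_dvd_of_pow_eq_one hk
      have hcop : Nat.Coprime 2 (ℓ ^ k) := by
        apply Nat.Coprime.pow_right
        rw [Nat.coprime_primes Nat.prime_two hℓ]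
        exact fun h => hℓ2 h.symm
      have h4 : orderOf a = 1 := Nat.eq_one_of_dvd_coprimes hcop h2 h3
      exact ha1' (orderOf_eq_one_iff.1 h4)
    apply le_antisymm
    · rw [← hcent a haT ha1' haz]
      apply Subgroup.centralizer_le
      intro x hx
      rw [Set.mem_singleton_iff] at hx
      rw [hx]
      exact haP
    · intro t ht
      rw [Subgroup.mem_centralizer_iff]
      intro h hh
      exact hTcomm h (hP₀T hh) t ht
  -- the normalizer of P₀ is the normalizer of T
  have hNP₀ : Subgroup.normalizer ((P₀ : Subgroup G) : Set G) = Subgroup.normalizer (T : Set G) := by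
    ext g
    rw [Subgroup.mem_normalizer_iff, Subgroup.mem_normalizer_iff]
    constructor
    · intro hg t
      have hg' : ∀ h, h ∈ P₀ → g⁻¹ * h * g ∈ P₀ := by
        intro h hh
        rw [hg (g⁻¹ * h * g)]
        have e : g * (g⁻¹ * h * g) * g⁻¹ = h := by group
        rw [e]; exact hh
      rw [← hCP₀, Subgroup.mem_centralizer_iff, Subgroup.mem_centralizer_iff]
      constructor
      · intro ht h hh
        have h1 := ht (g⁻¹ * h * g) (hg' h hh)
        calc h * (g * t * g⁻¹) = g * ((g⁻¹ * h * g) * t) * g⁻¹ := by group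
          _ = g * (t * (g⁻¹ * h * g)) * g⁻¹ := by rw [h1]
          _ = g * t * g⁻¹ * h := by group
      · intro ht h hh
        have h1 := ht (g * h * g⁻¹) ((hg h).1 hh)
        calc h * t = g⁻¹ * ((g * h * g⁻¹) * (g * t * g⁻¹)) * g := by group
          _ = g⁻¹ * ((g * t * g⁻¹) * (g * h * g⁻¹)) * g := by rw [h1]
          _ = t * h := by group
    · intro hg h
      rw [hmemP₀, hmemP₀, ← hg h]
      constructor
      · rintro ⟨hT', k, hk⟩
        refine ⟨hT', k, ?_⟩
        rw [conj_pow, hk]; group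
      · rintro ⟨hT', k, hk⟩
        refine ⟨hT', k, ?_⟩
        rw [conj_pow] at hk
        have : h ^ (ℓ ^ k) = g⁻¹ * (g * h ^ ℓ ^ k * g⁻¹) * g := by group
        rw [this, hk]; group
  exact ⟨Sylow.ofCard P₀ hcardP₀, by rw [Sylow.coe_ofCard]; exact hNP₀⟩

/-- For an odd prime, the normalizer of an abelian subgroup of index two in it has only
characters of degree prime to `ℓ`. -/
theorem cnt_normalizer_torus [Finite G] (T : Subgroup G)
    (hcomm : ∀ a ∈ T, ∀ b ∈ T, a * b = b * a) (ℓ : ℕ) (hℓ : ℓ.Prime) (hℓ2 : ℓ ≠ 2)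
    (hidx : (T.subgroupOf (Subgroup.normalizer (T : Set G))).index = 2) :
    cnt ℓ (Subgroup.normalizer (T : Set G)) =
      Nat.card (ConjClasses (Subgroup.normalizer (T : Set G))) := by
  apply cnt_eq_card_conjClasses ℓ hℓ (T.subgroupOf (Subgroup.normalizer (T : Set G)))
  · intro a ha b hb
    rw [Subgroup.mem_subgroupOf] at ha hb
    apply Subtype.ext
    simp only [Subgroup.coe_mul]
    exact hcomm _ ha _ hb
  · rw [hidx]
    intro h
    exact hℓ2 ((Nat.prime_dvd_prime_iff_eq hℓ Nat.prime_two).1 h)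

section two

variable {A : Subgroup G} {z : G} {S : Sylow 2 G} {s w : G} {k : ℕ}

theorem GoodSylow.z_mem (hT : TorusData A z) (hS : GoodSylow A S s w k) :
    z ∈ (S : Subgroup G) := by
  rw [← hT.sqz w (hS.le hS.wS) hS.wA]
  exact (S : Subgroup G).mul_mem hS.wS hS.wS

theorem GoodSylow.z_mem_A (hT : TorusData A z) (hS : GoodSylow A S s w k) (hk : 2 ≤ k) :
    z ∈ A :=
  hT.cent s hS.sA (hS.s_sq_ne hk) z (hT.z_central s).symm

/-- A Sylow `2`-subgroup in good position has four characters of odd degree. -/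
theorem cnt_two_goodSylow [Finite G] (hT : TorusData A z) (hS : GoodSylow A S s w k)
    (hk : 2 ≤ k) : cnt 2 (S : Subgroup G) = 4 := by
  have hzS := hS.z_mem hT
  have hzA := hS.z_mem_A hT hk
  apply cnt_two_dicyclic (A.subgroupOf (S : Subgroup G)) _ _ _ ⟨z, hzS⟩
  · rw [Subgroup.mem_subgroupOf]
    exact hzA
  · intro h
    exact hT.z_ne (congrArg Subtype.val h)
  · apply Subtype.ext
    simp only [Subgroup.coe_mul, Subgroup.coe_one]
    exact hT.z_sq
  · intro a ha haa
    rw [Subgroup.mem_subgroupOf] at ha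
    have haa' := congrArg Subtype.val haa
    simp only [Subgroup.coe_mul, Subgroup.coe_one] at haa'
    rcases hT.sq _ ha haa' with h | h
    · left; exact Subtype.ext h
    · right; exact Subtype.ext h
  · rw [Subgroup.index_eq_two_iff]
    refine ⟨⟨w, hS.wS⟩, ?_⟩
    intro b
    simp only [Subgroup.mem_subgroupOf, Subgroup.coe_mul]
    by_cases hb : (b : G) ∈ A
    · right
      refine ⟨hb, ?_⟩
      intro h
      apply hS.wA
      have e : w = (b : G)⁻¹ * ((b : G) * w) := by group
      rw [e]
      exact A.mul_mem (A.inv_mem hb) h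
    · left
      refine ⟨?_, hb⟩
      apply hT.cent s hS.sA (hS.s_sq_ne hk)
      have h1 := hT.inv w (hS.le hS.wS) hS.wA s hS.sA
      have h2 := hT.inv (b : G) (hS.le b.2) hb s⁻¹ (A.inv_mem hS.sA)
      rw [inv_inv] at h2
      have e : (b : G) * w * s = ((b : G) * (w * s * w⁻¹) * (b : G)⁻¹) * ((b : G) * w) := by group
      rw [e, h1, h2]
  · intro g hg a ha
    rw [Subgroup.mem_subgroupOf] at hg ha
    apply Subtype.ext
    simp only [Subgroup.coe_mul, Subgroup.coe_inv]
    exact hT.inv _ (hS.le g.2) hg _ ha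
  · intro a ha b hb
    rw [Subgroup.mem_subgroupOf] at ha hb
    apply Subtype.ext
    simp only [Subgroup.coe_mul]
    exact hT.comm _ ha _ hb

/-- When the Sylow `2`-subgroup in good position has order `8` and index `3` in its normalizer,
the normalizer has four characters of odd degree. -/
theorem cnt_two_goodSylow_24 [Finite G] (hT : TorusData A z) (hS : GoodSylow A S s w 2)
    (m : ℕ) (hm : Nat.card A = m) (h8 : ¬ 8 ∣ m)
    (hG : (Nat.card G).factorization 2 = 3)
    (hconj : ∀ x y : G, x * x = z → y * y = z → IsConj x y) :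
    cnt 2 (Subgroup.normalizer ((S : Subgroup G) : Set G)) = 4 := by
  have hcardS : Nat.card (S : Subgroup G) = 8 := by
    rw [Sylow.card_eq_multiplicity, hG]
    norm_num
  have hcardN : Nat.card (Subgroup.normalizer ((S : Subgroup G) : Set G)) = 24 := by
    rw [card_normalizer_goodSylow hT hS m hm h8 hG hconj]
    have : Nat.card S = 8 := hcardS
    rw [this]
  have hle : (S : Subgroup G) ≤ Subgroup.normalizer ((S : Subgroup G) : Set G) :=
    Subgroup.le_normalizer
  have hzS := hS.z_mem hT
  have hs2 : s * s ≠ 1 := hS.s_sq_ne le_rfl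
  have hs4 : (s * s) * (s * s) = 1 := by
    have h1 : s ^ 4 = 1 := by
      have := pow_orderOf_eq_one s
      rw [hS.ord] at this
      exact this
    rw [← h1, show (4 : ℕ) = 2 + 2 from rfl, pow_add, pow_two]
  have hss : s * s = z := by
    rcases hT.sq (s * s) (A.mul_mem hS.sA hS.sA) hs4 with h | h
    · exact absurd h hs2
    · exact h
  have hidx : ((S : Subgroup G).subgroupOf
      (Subgroup.normalizer ((S : Subgroup G) : Set G))).index = 3 := by
    have h := ((S : Subgroup G).subgroupOf
      (Subgroup.normalizer ((S : Subgroup G) : Set G))).card_mul_index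
    rw [Nat.card_congr (Subgroup.subgroupOfEquivOfLe hle).toEquiv, hcardS, hcardN] at h
    omega
  apply cnt_two_24 hcardN ⟨z, hle hzS⟩ ⟨s, hle hS.sS⟩ ⟨w, hle hS.wS⟩ _ _ _ _ _
    ((S : Subgroup G).subgroupOf (Subgroup.normalizer ((S : Subgroup G) : Set G))) hidx
  · intro g hg3 hcomm
    have hgc : (g : G) ∈ Subgroup.centralizer ((S : Subgroup G) : Set G) := by
      rw [Subgroup.mem_centralizer_iff]
      intro x hx
      have h := hcomm ⟨x, hle hx⟩ (by rw [Subgroup.mem_subgroupOf]; exact hx)
      have h' := congrArg Subtype.val h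
      simp only [Subgroup.coe_mul] at h'
      exact h'.symm
    rw [centralizer_goodSylow hT hS le_rfl, Subgroup.mem_center_iff] at hgc
    have hgA : (g : G) ∈ A := hT.cent s hS.sA hs2 _ (hgc s).symm
    have h1 := hT.inv w (hS.le hS.wS) hS.wA _ hgA
    have h2 : w * (g : G) * w⁻¹ = (g : G) := by
      rw [hgc w, mul_inv_cancel_right]
    have h3 : (g : G)⁻¹ = (g : G) := by rw [← h1, h2]
    have hg3' : (g : G) ^ 3 = 1 := by
      have := congrArg Subtype.val hg3
      simpa using this
    apply Subtype.ext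
    show (g : G) = 1
    have h4 : (g : G) * (g : G) = 1 := by
      nth_rewrite 1 [← h3]
      exact inv_mul_cancel _
    have h5 : (g : G) ^ 3 = (g : G) * (g : G) * (g : G) := by
      rw [pow_succ, pow_two]
    rw [h5, h4, one_mul] at hg3'
    exact hg3'
  · intro g
    apply Subtype.ext
    simp only [Subgroup.coe_mul]
    exact hT.z_central _
  · intro h
    exact hT.z_ne (congrArg Subtype.val h)
  · apply Subtype.ext
    simp only [Subgroup.coe_mul, Subgroup.coe_one]
    exact hT.z_sq
  · apply Subtype.ext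
    simp only [Subgroup.coe_mul]
    exact hss
  · apply Subtype.ext
    simp only [Subgroup.coe_mul, Subgroup.coe_inv]
    exact hT.inv w (hS.le hS.wS) hS.wA s hS.sA

/-- McKay count at the prime `2` for a group with torus data: every Sylow `2`-normalizer has
exactly four irreducible characters of odd degree. -/
theorem cnt_two_torusData [Finite G] (hT : TorusData A z) (hcyc : IsCyclic A)
    (m : ℕ) (hm : Nat.card A = m) (hN : Nat.card (Subgroup.normalizer (A : Set G)) = 2 * m)
    (hG : (Nat.card G).factorization 2 = (2 * m).factorization 2) (h4 : 4 ∣ m)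
    (hconj : ∀ x y : G, x * x = z → y * y = z → IsConj x y) (P : Sylow 2 G) :
    cnt 2 (Subgroup.normalizer ((P : Subgroup G) : Set G)) = 4 := by
  haveI : Fact (Nat.Prime 2) := ⟨Nat.prime_two⟩
  by_cases h8 : 8 ∣ m
  · obtain ⟨S₁, s, w, hS₁⟩ := exists_goodSylow A hcyc m hm hN hG 3 (by simpa using h8)
    rw [cnt_normalizer_sylow 2 2 S₁ P, cnt_of_eq 2 (normalizer_goodSylow hT hS₁ le_rfl)]
    exact cnt_two_goodSylow hT hS₁ (by norm_num)
  · obtain ⟨S₁, s, w, hS₁⟩ := exists_goodSylow A hcyc m hm hN hG 2 (by simpa using h4)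
    rw [cnt_normalizer_sylow 2 2 S₁ P]
    have hm0 : m ≠ 0 := by
      rw [← hm]
      exact Nat.card_pos.ne'
    have hv : m.factorization 2 = 2 := by
      have h1 : 2 ≤ m.factorization 2 :=
        (Nat.Prime.pow_dvd_iff_le_factorization Nat.prime_two hm0).1 (by simpa using h4)
      have h2 : ¬ 3 ≤ m.factorization 2 := by
        intro h
        apply h8
        have := (Nat.Prime.pow_dvd_iff_le_factorization Nat.prime_two hm0).2 h
        simpa using this
      omega
    have hG3 : (Nat.card G).factorization 2 = 3 := by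
      rw [hG, Nat.factorization_mul (by norm_num) hm0]
      simp [Nat.Prime.factorization_self Nat.prime_two, hv]
    exact cnt_two_goodSylow_24 hT hS₁ m hm h8 hG3 hconj

end two

end Cfsg.Agent.H41
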