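import Mathlib
import Cfsg.Agent.H41.SL2Nonsplit
import Cfsg.Agent.H41.SylowTorus
import Cfsg.Agent.Lib.CT.FrobRec

set_option autoImplicit false
set_option linter.unusedSimpArgs false
set_option linter.unusedSectionVars false
set_option linter.unusedVariables false
set_option linter.style.haveILetI false

namespace Cfsg.Agent.H41

open Matrix Cfsg Cfsg.Agent.Lib.CT.FrobRec

section indgen

variable {G : Type*} [Group G] [Fintype G]

/-- The induced function at a central element of the subgroup. -/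
theorem indFun_central (H : Subgroup G) (θ : H → ℂ) (z : G) (hz : z ∈ H)
    (hcen : ∀ x : G, x⁻¹ * z * x = z) : indFun H θ z = (H.index : ℂ) * θ ⟨z, hz⟩ := by
  rw [indFun_apply]
  have h1 : ∀ x : G, extendByZero H θ (x⁻¹ * z * x) = θ ⟨z, hz⟩ := by
    intro x
    rw [hcen x, extendByZero_apply_of_mem H θ hz]
  simp only [h1, Finset.sum_const, Finset.card_univ, nsmul_eq_mul]
  have h2 : (Fintype.card G : ℂ) = (Nat.card H : ℂ) * (H.index : ℂ) := by
    rw [← Nat.cast_mul, Subgroup.card_mul_index, Nat.card_eq_fintype_card]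
  have h3 : (Nat.card H : ℂ) ≠ 0 := by
    exact_mod_cast (Nat.card_pos (α := H)).ne'
  rw [h2]
  field_simp

/-- Counting a constant over a subgroup. -/
theorem sum_ite_mem_subgroup (H : Subgroup G) [DecidablePred (· ∈ H)] (A : ℂ) :
    ∑ x : G, (if x ∈ H then A else 0) = (Nat.card H : ℂ) * A := by
  classical
  have : Fintype H := Fintype.ofFinite _
  have h := sum_extendByZero H (fun _ : H => A)
  have h1 : ∀ x : G, extendByZero H (fun _ : H => A) x = if x ∈ H then A else 0 := by
    intro x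
    by_cases hx : x ∈ H
    · rw [if_pos hx, extendByZero_apply_of_mem H _ hx]
    · rw [if_neg hx, extendByZero_apply_of_not_mem H _ hx]
  simp_rw [h1] at h
  rw [h]
  simp [Nat.card_eq_fintype_card]

end indgen

section ell

variable {F : Type*} [Field F] [Fintype F]
variable {K : Type*} [Field K] [Algebra F K] [Finite K]
variable (h2 : Module.finrank F K = 2) (b : Module.Basis (Fin 2) F K)

omit [Fintype F] [Finite K] in
/-- Non-central elements of the torus have no eigenvectors. -/
theorem torus_no_eigenvector [Fintype F] [Finite K]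
    (c : Matrix.SpecialLinearGroup (Fin 2) F) (hc : c ∈ torus h2 b) (h1 : c ≠ 1)
    (hneg : c ≠ negOne) (l : F) (v : Fin 2 → F) (hv : v ≠ 0) :
    (c : Matrix (Fin 2) (Fin 2) F).mulVec v ≠ l • v := by
  intro h
  obtain ⟨x, hx⟩ := (mem_torus_iff h2 b c).1 hc
  have hxF := not_mem_range_of_ne b c x hx h1 hneg
  apply hxF
  refine ⟨l, ?_⟩
  have hdet : (Algebra.leftMulMatrix b (x - algebraMap F K l)).det = 0 := by
    rw [map_sub, leftMul_algebraMap, hx]
    apply Matrix.exists_mulVec_eq_zero_iff.1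
    exact ⟨v, hv, by rw [Matrix.sub_mulVec, Matrix.smul_mulVec, Matrix.one_mulVec, h, sub_self]⟩
  rw [← Algebra.norm_eq_matrix_det, Algebra.norm_eq_zero_iff_of_basis b] at hdet
  exact (sub_eq_zero.1 hdet).symm

omit [Fintype F] in
/-- An element with an eigenvector is conjugate to an upper triangular element. -/
theorem exists_conj_upper (g : Matrix.SpecialLinearGroup (Fin 2) F) (l : F) (v : Fin 2 → F)
    (hv : v ≠ 0) (h : (g : Matrix (Fin 2) (Fin 2) F).mulVec v = l • v) :
    ∃ P : Matrix.SpecialLinearGroup (Fin 2) F, ent (P⁻¹ * g * P) 1 0 = 0 := by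
  have e0 := congrFun h 0
  have e1 := congrFun h 1
  simp only [Matrix.mulVec, dotProduct, Fin.sum_univ_two, Pi.smul_apply, smul_eq_mul] at e0 e1
  by_cases hv0 : v 0 = 0
  · have hv1 : v 1 ≠ 0 := by
      intro hv1
      apply hv
      ext i
      fin_cases i
      · exact hv0
      · exact hv1
    refine ⟨mkSL 0 (-(v 1)⁻¹) (v 1) 0 (by field_simp; ring), ?_⟩
    simp only [sl2_mul10, sl2_mul00, sl2_mul01, sl2_mul11, sl2_inv10, sl2_inv11, sl2_inv00,
      sl2_inv01, mkSL00, mkSL01, mkSL10, mkSL11]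
    rw [hv0] at e0
    have : ent g 0 1 = 0 := by
      have h3 : ent g 0 1 * v 1 = 0 := by
        simp only [ent]
        linear_combination e0
      rcases mul_eq_zero.1 h3 with h4 | h4
      · exact h4
      · exact absurd h4 hv1
    rw [this]
    ring
  · refine ⟨mkSL (v 0) 0 (v 1) (v 0)⁻¹ (by field_simp; ring), ?_⟩
    simp only [sl2_mul10, sl2_mul00, sl2_mul01, sl2_mul11, sl2_inv10, sl2_inv11, sl2_inv00,
      sl2_inv01, mkSL00, mkSL01, mkSL10, mkSL11]
    simp only [ent]
    linear_combination (-(v 1)) * e0 + (v 0) * e1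

omit [Fintype F] in
/-- Having an eigenvector is invariant under conjugation. -/
theorem eigenvector_conj (g x : Matrix.SpecialLinearGroup (Fin 2) F) (l : F) (v : Fin 2 → F)
    (hv : v ≠ 0) (h : (g : Matrix (Fin 2) (Fin 2) F).mulVec v = l • v) :
    ∃ w : Fin 2 → F, w ≠ 0 ∧
      ((x⁻¹ * g * x : Matrix.SpecialLinearGroup (Fin 2) F) : Matrix (Fin 2) (Fin 2) F).mulVec w
        = l • w := by
  refine ⟨((x⁻¹ : Matrix.SpecialLinearGroup (Fin 2) F) : Matrix (Fin 2) (Fin 2) F).mulVec v, ?_, ?_⟩
  · intro h0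
    apply hv
    have := congrArg ((x : Matrix (Fin 2) (Fin 2) F).mulVec) h0
    rw [Matrix.mulVec_mulVec, ← Matrix.SpecialLinearGroup.coe_mul, mul_inv_cancel,
      Matrix.SpecialLinearGroup.coe_one, Matrix.one_mulVec, Matrix.mulVec_zero] at this
    exact this
  · rw [Matrix.mulVec_mulVec, ← Matrix.SpecialLinearGroup.coe_mul]
    have : x⁻¹ * g * x * x⁻¹ = x⁻¹ * g := by group
    rw [this, Matrix.SpecialLinearGroup.coe_mul, ← Matrix.mulVec_mulVec, h, Matrix.mulVec_smul]

omit [Fintype F] in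
theorem not_central_of_no_eigenvector (g : Matrix.SpecialLinearGroup (Fin 2) F)
    (hno : ∀ (c : F) (v : Fin 2 → F), v ≠ 0 → (g : Matrix (Fin 2) (Fin 2) F).mulVec v ≠ c • v) :
    g ≠ 1 ∧ g ≠ negOne := by
  have hv : (![1, 0] : Fin 2 → F) ≠ 0 := by
    intro h
    have := congrFun h 0
    simp at this
  constructor
  · rintro rfl
    apply hno 1 ![1, 0] hv
    simp
  · rintro rfl
    apply hno (-1) ![1, 0] hv
    rw [negOne_coe]
    simp

omit [Fintype F] in
theorem conj_negOne (x : Matrix.SpecialLinearGroup (Fin 2) F) : x⁻¹ * negOne * x = negOne := by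
  rw [mul_assoc, negOne_comm, inv_mul_cancel_left]

/-- If a conjugate of a regular element of the torus lies in the torus, the conjugating element
normalizes the torus. -/
theorem mem_normalizer_of_conj_mem (c : Matrix.SpecialLinearGroup (Fin 2) F)
    (hc : c ∈ torus h2 b) (h1 : c ≠ 1) (hneg : c ≠ negOne)
    (x : Matrix.SpecialLinearGroup (Fin 2) F) (hx : x⁻¹ * c * x ∈ torus h2 b) :
    x ∈ torusNormalizer h2 b := by
  have hc' : x⁻¹ * c * x ≠ 1 := by
    intro h
    apply h1
    have e : c = x * (x⁻¹ * c * x) * x⁻¹ := by group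
    rw [e, h]
    group
  have hneg' : x⁻¹ * c * x ≠ negOne := by
    intro h
    apply hneg
    have e : c = x * (x⁻¹ * c * x) * x⁻¹ := by group
    rw [e, h]
    have := conj_negOne (x⁻¹ : Matrix.SpecialLinearGroup (Fin 2) F)
    rwa [inv_inv] at this
  have key : x⁻¹ ∈ torusNormalizer h2 b := by
    rw [Subgroup.mem_normalizer_iff]
    intro a
    rw [inv_inv]
    constructor
    · intro ha
      apply mem_torus_of_commute h2 b (x⁻¹ * c * x) hx hc' hneg'
      have hac : a * c = c * a := torus_comm h2 b a c ha hc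
      show (x⁻¹ * c * x) * (x⁻¹ * a * x) = (x⁻¹ * a * x) * (x⁻¹ * c * x)
      have e1 : x⁻¹ * c * x * (x⁻¹ * a * x) = x⁻¹ * (c * a) * x := by group
      have e2 : x⁻¹ * a * x * (x⁻¹ * c * x) = x⁻¹ * (a * c) * x := by group
      rw [e1, e2, hac]
    · intro ha
      apply mem_torus_of_commute h2 b c hc h1 hneg
      have hcomm : (x⁻¹ * c * x) * (x⁻¹ * a * x) = (x⁻¹ * a * x) * (x⁻¹ * c * x) :=
        torus_comm h2 b _ _ hx ha
      show c * a = a * c
      have e1 : c * a = x * ((x⁻¹ * c * x) * (x⁻¹ * a * x)) * x⁻¹ := by group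
      have e2 : a * c = x * ((x⁻¹ * a * x) * (x⁻¹ * c * x)) * x⁻¹ := by group
      rw [e1, e2, hcomm]
  have := (torusNormalizer h2 b).inv_mem key
  rwa [inv_inv] at this

theorem torus_index : (torus h2 b).index = Fintype.card F * (Fintype.card F - 1) := by
  have h := (torus h2 b).card_mul_index
  rw [card_torus, card_SL2_eq] at h
  have hq : 1 ≤ Fintype.card F := Fintype.card_pos
  obtain ⟨m, hm⟩ : ∃ m, Fintype.card F = m + 1 := ⟨Fintype.card F - 1, by omega⟩
  rw [hm] at h ⊢
  have e : (m + 1) * ((m + 1) ^ 2 - 1) = (m + 1 + 1) * ((m + 1) * (m + 1 - 1)) := by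
    have e1 : (m + 1) ^ 2 - 1 = (m + 1 + 1) * m := by
      have : (m + 1) ^ 2 = (m + 1 + 1) * m + 1 := by ring
      omega
    rw [e1, Nat.add_sub_cancel]
    ring
  rw [e] at h
  exact Nat.eq_of_mul_eq_mul_left (by omega) h

variable [DecidableEq F]

/-- The induced function from the torus at a regular element of the torus. -/
theorem indFun_torus_regular (hodd : Odd (Fintype.card F)) (φ : torus h2 b → ℂ)
    (c : Matrix.SpecialLinearGroup (Fin 2) F) (hc : c ∈ torus h2 b) (h1 : c ≠ 1)
    (hneg : c ≠ negOne) :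
    indFun (torus h2 b) φ c = φ ⟨c, hc⟩ + φ ⟨c⁻¹, (torus h2 b).inv_mem hc⟩ := by
  classical
  rw [indFun_apply]
  have hpt : ∀ x : Matrix.SpecialLinearGroup (Fin 2) F,
      extendByZero (torus h2 b) φ (x⁻¹ * c * x) =
      (if x ∈ torus h2 b then φ ⟨c, hc⟩ - φ ⟨c⁻¹, (torus h2 b).inv_mem hc⟩ else 0) +
        (if x ∈ torusNormalizer h2 b then φ ⟨c⁻¹, (torus h2 b).inv_mem hc⟩ else 0) := by
    intro x
    by_cases hxT : x ∈ torus h2 b
    · have hxN : x ∈ torusNormalizer h2 b := Subgroup.le_normalizer hxT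
      rw [if_pos hxT, if_pos hxN]
      have e : x⁻¹ * c * x = c := by
        have := torus_comm h2 b c x hc hxT
        rw [mul_assoc, this, inv_mul_cancel_left]
      rw [e, extendByZero_apply_of_mem _ _ hc]
      ring
    · by_cases hxN : x ∈ torusNormalizer h2 b
      · rw [if_neg hxT, if_pos hxN, zero_add]
        have e : x⁻¹ * c * x = c⁻¹ := by
          have := conj_eq_inv_of_mem_normalizer h2 b x⁻¹ ((torusNormalizer h2 b).inv_mem hxN)
            (fun h => hxT (by simpa using (torus h2 b).inv_mem h)) c hc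
          rwa [inv_inv] at this
        rw [e, extendByZero_apply_of_mem _ _ ((torus h2 b).inv_mem hc)]
      · rw [if_neg hxT, if_neg hxN, zero_add]
        apply extendByZero_apply_of_not_mem
        intro hmem
        exact hxN (mem_normalizer_of_conj_mem h2 b c hc h1 hneg x hmem)
  simp_rw [hpt]
  rw [Finset.sum_add_distrib, sum_ite_mem_subgroup, sum_ite_mem_subgroup, card_torus,
    card_torusNormalizer h2 b hodd]
  have hne : (Fintype.card F : ℂ) + 1 ≠ 0 := by
    have : (Fintype.card F + 1 : ℕ) ≠ 0 := Nat.succ_ne_zero _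
    exact_mod_cast this
  push_cast
  field_simp
  ring

/-- The induced function from the torus at `-1`. -/
theorem indFun_torus_negOne (φ : torus h2 b → ℂ) :
    indFun (torus h2 b) φ negOne =
      ((Fintype.card F : ℂ) * ((Fintype.card F : ℂ) - 1)) * φ ⟨negOne, negOne_mem_torus h2 b⟩ := by
  rw [indFun_central (torus h2 b) φ negOne (negOne_mem_torus h2 b) conj_negOne, torus_index]
  have hq : 1 ≤ Fintype.card F := Fintype.card_pos
  push_cast [Nat.cast_sub hq]
  ring

/-- The induced function from the torus at `1`. -/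
theorem indFun_torus_one (φ : torus h2 b → ℂ) :
    indFun (torus h2 b) φ 1 = ((Fintype.card F : ℂ) * ((Fintype.card F : ℂ) - 1)) * φ 1 := by
  rw [indFun_one, torus_index]
  have hq : 1 ≤ Fintype.card F := Fintype.card_pos
  push_cast [Nat.cast_sub hq]
  ring

/-- The induced function from the torus vanishes at non-central elements with an eigenvector. -/
theorem indFun_torus_eq_zero (φ : torus h2 b → ℂ) (g : Matrix.SpecialLinearGroup (Fin 2) F)
    (h1 : g ≠ 1) (hneg : g ≠ negOne) (l : F) (v : Fin 2 → F) (hv : v ≠ 0)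
    (h : (g : Matrix (Fin 2) (Fin 2) F).mulVec v = l • v) : indFun (torus h2 b) φ g = 0 := by
  apply indFun_eq_zero_of_forall_not_mem
  intro x hx
  obtain ⟨w, hw0, hw⟩ := eigenvector_conj g x l v hv h
  refine torus_no_eigenvector h2 b (x⁻¹ * g * x) hx ?_ ?_ l w hw0 hw
  · intro h'
    apply h1
    have e : g = x * (x⁻¹ * g * x) * x⁻¹ := by group
    rw [e, h']
    group
  · intro h'
    apply hneg
    have e : g = x * (x⁻¹ * g * x) * x⁻¹ := by group
    rw [e, h']
    have := conj_negOne (x⁻¹ : Matrix.SpecialLinearGroup (Fin 2) F)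
    rwa [inv_inv] at this

/-- The induced function from the torus at an element without eigenvectors. -/
theorem indFun_torus_elliptic (hodd : Odd (Fintype.card F)) (p : ℕ) [Fact p.Prime] [CharP F p]
    (φ : torus h2 b → ℂ) (g : Matrix.SpecialLinearGroup (Fin 2) F)
    (hno : ∀ (c : F) (v : Fin 2 → F), v ≠ 0 → (g : Matrix (Fin 2) (Fin 2) F).mulVec v ≠ c • v) :
    ∃ (c : Matrix.SpecialLinearGroup (Fin 2) F) (hc : c ∈ torus h2 b), c ≠ 1 ∧ c ≠ negOne ∧
      (∃ h : Matrix.SpecialLinearGroup (Fin 2) F, h * g * h⁻¹ = c) ∧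
      indFun (torus h2 b) φ g = φ ⟨c, hc⟩ + φ ⟨c⁻¹, (torus h2 b).inv_mem hc⟩ := by
  obtain ⟨h, hh⟩ := exists_conj_mem_torus h2 b p g hno
  obtain ⟨hg1, hgneg⟩ := not_central_of_no_eigenvector g hno
  have hc1 : h * g * h⁻¹ ≠ 1 := by
    intro h'
    apply hg1
    have e : g = h⁻¹ * (h * g * h⁻¹) * h := by group
    rw [e, h']
    group
  have hcneg : h * g * h⁻¹ ≠ negOne := by
    intro h'
    apply hgneg
    have e : g = h⁻¹ * (h * g * h⁻¹) * h := by group
    rw [e, h']
    exact conj_negOne h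
  refine ⟨h * g * h⁻¹, hh, hc1, hcneg, ⟨h, rfl⟩, ?_⟩
  rw [← indFun_torus_regular h2 b hodd φ (h * g * h⁻¹) hh hc1 hcneg]
  exact (indFun_isClassFunction (torus h2 b) φ g h).symm

end ell

end Cfsg.Agent.H41
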