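import Mathlib
import Cfsg.Agent.H41.SL2Ell
import Cfsg.Agent.H41.PSL2Basic
import Cfsg.Agent.Lib.Helper39.SL2Half

set_option autoImplicit false
set_option linter.unusedSimpArgs false
set_option linter.unusedSectionVars false
set_option linter.unusedVariables false
set_option linter.style.haveILetI false

namespace Cfsg.Agent.H41

open Matrix Cfsg Cfsg.Agent.Lib.CT.FrobRec Cfsg.Agent.Lib.Helper39.GL2Inst
  Cfsg.Agent.Lib.Helper39.PSInst Cfsg.Agent.Lib.Helper39.SL2PS Cfsg.Agent.Lib.Helper39.SL2T1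

section typesum

variable {F : Type*} [Field F] [Fintype F] [DecidableEq F]

/-- The principal series function at `-g`. -/
theorem slPS_negOne_mul (α : MulChar F ℂ) (g : Matrix.SpecialLinearGroup (Fin 2) F) :
    slPS α (negOne * g) = α (-1) * slPS α g := by
  rw [slPS_apply, slPS_apply]
  have e00 : ((negOne * g : Matrix.SpecialLinearGroup (Fin 2) F) : Matrix (Fin 2) (Fin 2) F) 0 0
      = - (g : Matrix (Fin 2) (Fin 2) F) 0 0 := negOne_mul_ent g 0 0
  have e01 : ((negOne * g : Matrix.SpecialLinearGroup (Fin 2) F) : Matrix (Fin 2) (Fin 2) F) 0 1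
      = - (g : Matrix (Fin 2) (Fin 2) F) 0 1 := negOne_mul_ent g 0 1
  have e10 : ((negOne * g : Matrix.SpecialLinearGroup (Fin 2) F) : Matrix (Fin 2) (Fin 2) F) 1 0
      = - (g : Matrix (Fin 2) (Fin 2) F) 1 0 := negOne_mul_ent g 1 0
  have e11 : ((negOne * g : Matrix.SpecialLinearGroup (Fin 2) F) : Matrix (Fin 2) (Fin 2) F) 1 1
      = - (g : Matrix (Fin 2) (Fin 2) F) 1 1 := negOne_mul_ent g 1 1
  rw [e00, e01, e10, e11, mul_add, Finset.mul_sum]
  congr 1
  · apply Finset.sum_congr rfl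
    intro s _
    have hiff : (-(g : Matrix (Fin 2) (Fin 2) F) 1 0 +
        (-(g : Matrix (Fin 2) (Fin 2) F) 1 1 - -(g : Matrix (Fin 2) (Fin 2) F) 0 0) * s -
        -(g : Matrix (Fin 2) (Fin 2) F) 0 1 * s ^ 2 = 0) ↔
        ((g : Matrix (Fin 2) (Fin 2) F) 1 0 +
        ((g : Matrix (Fin 2) (Fin 2) F) 1 1 - (g : Matrix (Fin 2) (Fin 2) F) 0 0) * s -
        (g : Matrix (Fin 2) (Fin 2) F) 0 1 * s ^ 2 = 0) := by
      constructor
      · intro h; linear_combination -h
      · intro h; linear_combination -h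
    by_cases hc : (g : Matrix (Fin 2) (Fin 2) F) 1 0 +
        ((g : Matrix (Fin 2) (Fin 2) F) 1 1 - (g : Matrix (Fin 2) (Fin 2) F) 0 0) * s -
        (g : Matrix (Fin 2) (Fin 2) F) 0 1 * s ^ 2 = 0
    · rw [if_pos hc, if_pos (hiff.2 hc), ← map_mul]
      congr 1
      ring
    · rw [if_neg hc, if_neg (fun h => hc (hiff.1 h)), mul_zero]
  · by_cases hc : (g : Matrix (Fin 2) (Fin 2) F) 0 1 = 0
    · rw [if_pos hc, if_pos (by rw [hc, neg_zero]), ← map_mul]
      congr 1
      ring
    · rw [if_neg hc, if_neg (fun h => hc (neg_eq_zero.1 h)), mul_zero]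

theorem slPS_one_negOne_mul (g : Matrix.SpecialLinearGroup (Fin 2) F) :
    slPS (1 : MulChar F ℂ) (negOne * g) = slPS (1 : MulChar F ℂ) g := by
  rw [slPS_negOne_mul, MulChar.one_apply (by simp : IsUnit (-1 : F)), one_mul]

theorem card_BSL : Nat.card (BSL F) = (Fintype.card F - 1) * Fintype.card F := by
  rw [← Nat.card_congr (Equiv.ofBijective _ (bmSL_bijective (F := F))), Nat.card_prod,
    Nat.card_units, Nat.card_eq_fintype_card]

/-- The sum of a function over the upper triangular subgroup. -/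
theorem sum_BSL [Fintype (BSL F)] (Φ : Matrix.SpecialLinearGroup (Fin 2) F → ℂ) :
    ∑ b : BSL F, Φ b = ∑ t : Fˣ, ∑ x : F, Φ (bmSL (t, x)) := by
  rw [← Fintype.sum_prod_type']
  exact (Function.Bijective.sum_comp (bmSL_bijective (F := F)) (fun b : BSL F => Φ b)).symm

theorem bmSL_negOne (x : F) :
    (bmSL ((-1 : Fˣ), x) : Matrix.SpecialLinearGroup (Fin 2) F) = negOne * uSL (-x) := by
  apply sl2_ext
  · rw [negOne_mul_ent]
    simp [ent, bmSL, bmSL0, uSL]
  · rw [negOne_mul_ent]
    simp [ent, bmSL, bmSL0, uSL]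
  · rw [negOne_mul_ent]
    simp [ent, bmSL, bmSL0, uSL]
  · rw [negOne_mul_ent]
    simp [ent, bmSL, bmSL0, uSL]

theorem uSL_zero' : (uSL (0 : F)) = 1 := by
  apply sl2_ext <;> simp [ent, uSL]

/-- The sum over the upper triangular subgroup of a function vanishing at the elements with
different diagonal entries. -/
theorem sum_BSL_of_vanish [Fintype (BSL F)] (h2 : (2 : F) ≠ 0)
    (Φ : Matrix.SpecialLinearGroup (Fin 2) F → ℂ)
    (hΦ : ∀ (t : Fˣ) (x : F), (t : F) ≠ ((t⁻¹ : Fˣ) : F) → Φ (bmSL (t, x)) = 0) :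
    ∑ b : BSL F, Φ b = ∑ x : F, Φ (uSL x) + ∑ x : F, Φ (negOne * uSL x) := by
  rw [sum_BSL]
  have hne : (1 : Fˣ) ≠ -1 := by
    intro h
    have := congrArg (fun u : Fˣ => (u : F)) h
    simp only [Units.val_one, Units.val_neg] at this
    apply h2
    linear_combination this
  rw [← Finset.add_sum_erase Finset.univ _ (Finset.mem_univ (1 : Fˣ)),
    ← Finset.add_sum_erase _ _ (Finset.mem_erase.2 ⟨hne.symm, Finset.mem_univ (-1 : Fˣ)⟩)]
  have hrest : ∑ t ∈ (Finset.univ.erase (1 : Fˣ)).erase (-1), ∑ x : F, Φ (bmSL (t, x)) = 0 := by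
    apply Finset.sum_eq_zero
    intro t ht
    apply Finset.sum_eq_zero
    intro x _
    apply hΦ
    intro h
    have ht1 : t ≠ -1 := (Finset.mem_erase.1 ht).1
    have ht2 : t ≠ 1 := (Finset.mem_erase.1 (Finset.mem_erase.1 ht).2).1
    have hsq : ((t : F) - 1) * ((t : F) + 1) = 0 := by
      have h3 : (t : F) * ((t⁻¹ : Fˣ) : F) = 1 := by simp
      rw [← h] at h3
      linear_combination h3
    rcases mul_eq_zero.1 hsq with h4 | h4
    · apply ht2
      apply Units.ext
      simp only [Units.val_one]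
      linear_combination h4
    · apply ht1
      apply Units.ext
      simp only [Units.val_neg, Units.val_one]
      linear_combination h4
  rw [hrest, add_zero]
  have e1 : ∑ x : F, Φ (bmSL ((1 : Fˣ), x)) = ∑ x : F, Φ (uSL x) := by
    apply Finset.sum_congr rfl
    intro x _
    rw [bmSL_one]
  have e2 : ∑ x : F, Φ (bmSL ((-1 : Fˣ), x)) = ∑ x : F, Φ (negOne * uSL x) := by
    rw [← Equiv.sum_comp (Equiv.neg F)]
    apply Finset.sum_congr rfl
    intro x _
    rw [bmSL_negOne]
    simp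
  rw [e1, e2]

theorem card_SL2_cast :
    (Nat.card (Matrix.SpecialLinearGroup (Fin 2) F) : ℂ) =
      (Fintype.card F : ℂ) * ((Fintype.card F : ℂ) ^ 2 - 1) := by
  rw [card_SL2_eq]
  have hq : 1 ≤ Fintype.card F ^ 2 := Nat.one_le_pow _ _ Fintype.card_pos
  push_cast [Nat.cast_sub hq]
  ring

theorem card_BSL_cast :
    (Nat.card (BSL F) : ℂ) = ((Fintype.card F : ℂ) - 1) * (Fintype.card F : ℂ) := by
  rw [card_BSL]
  have hq : 1 ≤ Fintype.card F := Fintype.card_pos
  push_cast [Nat.cast_sub hq]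
  ring

theorem card_sub_one_ne_zero : (Fintype.card F : ℂ) - 1 ≠ 0 := by
  have hq : 1 < Fintype.card F := Fintype.one_lt_card
  intro h
  have : (Fintype.card F : ℂ) = ((1 : ℕ) : ℂ) := by
    rw [Nat.cast_one]
    linear_combination h
  have := Nat.cast_injective this
  omega

theorem card_add_one_ne_zero : (Fintype.card F : ℂ) + 1 ≠ 0 := by
  have : (Fintype.card F + 1 : ℕ) ≠ 0 := Nat.succ_ne_zero _
  exact_mod_cast this

theorem card_ne_zero' : (Fintype.card F : ℂ) ≠ 0 := by
  have : Fintype.card F ≠ 0 := Fintype.card_ne_zero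
  exact_mod_cast this

end typesum

section main

variable {F : Type*} [Field F] [Fintype F] [DecidableEq F]
variable {K : Type*} [Field K] [Algebra F K] [Finite K]
variable (h2 : Module.finrank F K = 2) (b : Module.Basis (Fin 2) F K)

/-- The pointwise identity behind the sum formula. -/
theorem pointwise_type (hodd : Odd (Fintype.card F)) (p : ℕ) [Fact p.Prime] [CharP F p]
    (Φ : Matrix.SpecialLinearGroup (Fin 2) F → ℂ)
    (hcl : IsClassFunction (Matrix.SpecialLinearGroup (Fin 2) F) Φ)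
    (hΦ : ∀ (t : Fˣ) (x : F), (t : F) ≠ ((t⁻¹ : Fˣ) : F) → Φ (bmSL (t, x)) = 0)
    (g : Matrix.SpecialLinearGroup (Fin 2) F) :
    2 * Φ g = 2 * (slPS (1 : MulChar F ℂ) g * Φ g)
      + indFun (torus h2 b) (fun _ => (1 : ℂ)) g * Φ g
      - ((Fintype.card F : ℂ) * ((Fintype.card F : ℂ) + 1)) *
        (if g = 1 ∨ g = negOne then Φ g else 0) := by
  by_cases hg1 : g = 1
  · subst hg1
    rw [slPS_one, indFun_torus_one, if_pos (Or.inl rfl)]
    ring
  by_cases hgneg : g = negOne
  · subst hgneg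
    have h1 : slPS (1 : MulChar F ℂ) negOne = (Fintype.card F : ℂ) + 1 := by
      have := slPS_one_negOne_mul (F := F) 1
      rw [mul_one] at this
      rw [this, slPS_one]
    rw [h1, indFun_torus_negOne, if_pos (Or.inr rfl)]
    ring
  rw [if_neg (by tauto), mul_zero, sub_zero]
  by_cases hno : ∀ (c : F) (v : Fin 2 → F), v ≠ 0 →
      (g : Matrix (Fin 2) (Fin 2) F).mulVec v ≠ c • v
  · rw [slPS_elliptic 1 g hno]
    obtain ⟨c, hc, -, -, -, hval⟩ := indFun_torus_elliptic h2 b hodd p (fun _ => (1 : ℂ)) g hno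
    rw [hval]
    ring
  · push Not at hno
    obtain ⟨l, v, hv, hlv⟩ := hno
    rw [indFun_torus_eq_zero h2 b _ g hg1 hgneg l v hv hlv, zero_mul, add_zero]
    obtain ⟨P, hP⟩ := exists_conj_upper g l v hv hlv
    have hmem : P⁻¹ * g * P ∈ BSL F := (mem_BSL_iff _).2 hP
    obtain ⟨⟨t, x⟩, htx⟩ := (bmSL_bijective (F := F)).2 ⟨P⁻¹ * g * P, hmem⟩
    have hg' : ((bmSL (t, x) : BSL F) : Matrix.SpecialLinearGroup (Fin 2) F) = P⁻¹ * g * P :=
      congrArg Subtype.val htx
    have hΦg : Φ g = Φ (bmSL (t, x)) := by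
      rw [hg']
      have := hcl g P⁻¹
      rw [inv_inv] at this
      exact this.symm
    have hπg : slPS (1 : MulChar F ℂ) g = slPS (1 : MulChar F ℂ) (bmSL (t, x)) := by
      rw [hg']
      have := indFun_isClassFunction (BSL F)
        (fun b => (1 : MulChar F ℂ)
          (((b : Matrix.SpecialLinearGroup (Fin 2) F) : Matrix (Fin 2) (Fin 2) F) 0 0)) g P⁻¹
      rw [inv_inv] at this
      exact this.symm
    have hgP : g = P * (P⁻¹ * g * P) * P⁻¹ := by group
    by_cases ht : (t : F) = ((t⁻¹ : Fˣ) : F)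
    · have hsq : ((t : F) - 1) * ((t : F) + 1) = 0 := by
        have h3 : (t : F) * ((t⁻¹ : Fˣ) : F) = 1 := by simp
        rw [← ht] at h3
        linear_combination h3
      rcases mul_eq_zero.1 hsq with h4 | h4
      · have ht1 : t = 1 := by
          apply Units.ext
          simp only [Units.val_one]
          linear_combination h4
        subst ht1
        rw [bmSL_one] at hg' hπg
        have hx : x ≠ 0 := by
          rintro rfl
          rw [uSL_zero'] at hg'
          apply hg1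
          rw [hgP, ← hg']
          group
        rw [hπg, slPS_u 1 x hx]
        ring
      · have ht1 : t = -1 := by
          apply Units.ext
          simp only [Units.val_neg, Units.val_one]
          linear_combination h4
        subst ht1
        rw [bmSL_negOne] at hg' hπg
        have hx : -x ≠ 0 := by
          intro hx0
          rw [hx0, uSL_zero', mul_one] at hg'
          apply hgneg
          rw [hgP, ← hg']
          have := conj_negOne (P⁻¹ : Matrix.SpecialLinearGroup (Fin 2) F)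
          rwa [inv_inv] at this
        rw [hπg, slPS_one_negOne_mul, slPS_u 1 (-x) hx]
        ring
    · rw [hΦg, hΦ t x ht]
      ring

/-- The sum of a class function over `SL₂(q)`, `q` odd, when it vanishes at the split regular
elements. -/
theorem two_mul_sum_eq [Fintype (torus h2 b)] (hodd : Odd (Fintype.card F)) (p : ℕ)
    [Fact p.Prime] [CharP F p]
    (Φ : Matrix.SpecialLinearGroup (Fin 2) F → ℂ)
    (hcl : IsClassFunction (Matrix.SpecialLinearGroup (Fin 2) F) Φ)
    (hΦ : ∀ (t : Fˣ) (x : F), (t : F) ≠ ((t⁻¹ : Fˣ) : F) → Φ (bmSL (t, x)) = 0) :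
    2 * ∑ g : Matrix.SpecialLinearGroup (Fin 2) F, Φ g =
      2 * ((Fintype.card F : ℂ) + 1) * (∑ x : F, Φ (uSL x) + ∑ x : F, Φ (negOne * uSL x))
      + (Fintype.card F : ℂ) * ((Fintype.card F : ℂ) - 1) * ∑ c : torus h2 b, Φ c
      - (Fintype.card F : ℂ) * ((Fintype.card F : ℂ) + 1) * (Φ 1 + Φ negOne) := by
  classical
  haveI : Fintype (BSL F) := Fintype.ofFinite _
  have h2' : (2 : F) ≠ 0 := two_ne_zero_of_odd_card hodd
  have hq0 := card_ne_zero' (F := F)
  have hq1 := card_sub_one_ne_zero (F := F)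
  have hq2 := card_add_one_ne_zero (F := F)
  rw [Finset.mul_sum]
  simp_rw [pointwise_type h2 b hodd p Φ hcl hΦ]
  rw [Finset.sum_sub_distrib, Finset.sum_add_distrib, ← Finset.mul_sum, ← Finset.mul_sum]
  have hA : ∑ g : Matrix.SpecialLinearGroup (Fin 2) F, slPS (1 : MulChar F ℂ) g * Φ g =
      ((Fintype.card F : ℂ) + 1) * (∑ x : F, Φ (uSL x) + ∑ x : F, Φ (negOne * uSL x)) := by
    unfold slPS
    rw [sum_indFun_mul _ _ Φ hcl]
    have h3 : ∑ h : BSL F, (1 : MulChar F ℂ)
        (((h : Matrix.SpecialLinearGroup (Fin 2) F) : Matrix (Fin 2) (Fin 2) F) 0 0) * Φ h =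
        ∑ h : BSL F, Φ h := by
      apply Finset.sum_congr rfl
      intro h _
      have hu : IsUnit (((h : Matrix.SpecialLinearGroup (Fin 2) F) :
          Matrix (Fin 2) (Fin 2) F) 0 0) := by
        have h10 := (mem_BSL_iff (h : Matrix.SpecialLinearGroup (Fin 2) F)).1 h.2
        have hdet := sl2_det (h : Matrix.SpecialLinearGroup (Fin 2) F)
        have h10' : ent (h : Matrix.SpecialLinearGroup (Fin 2) F) 1 0 = 0 := h10
        rw [h10', mul_zero, sub_zero] at hdet
        exact IsUnit.of_mul_eq_one _ hdet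
      rw [MulChar.one_apply hu, one_mul]
    rw [h3, sum_BSL_of_vanish h2' Φ hΦ, card_BSL_cast, card_SL2_cast]
    field_simp
    ring
  have hB : ∑ g : Matrix.SpecialLinearGroup (Fin 2) F,
      indFun (torus h2 b) (fun _ => (1 : ℂ)) g * Φ g =
      (Fintype.card F : ℂ) * ((Fintype.card F : ℂ) - 1) * ∑ c : torus h2 b, Φ c := by
    rw [sum_indFun_mul _ _ Φ hcl, card_torus, card_SL2_cast]
    simp only [one_mul]
    push_cast
    field_simp
    ring
  have hC : ∑ g : Matrix.SpecialLinearGroup (Fin 2) F, (if g = 1 ∨ g = negOne then Φ g else 0) =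
      Φ 1 + Φ negOne := by
    rw [← Finset.sum_filter]
    have : Finset.univ.filter (fun g : Matrix.SpecialLinearGroup (Fin 2) F => g = 1 ∨ g = negOne)
        = {1, negOne} := by
      ext g
      simp
    rw [this, Finset.sum_pair (negOne_ne_one h2').symm]
  rw [hA, hB, hC]
  ring

end main

end Cfsg.Agent.H41
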