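import Mathlib
import Cfsg.Agent.H41.SL2Nonsplit
import Cfsg.Agent.H41.SylowTorus
import Cfsg.Agent.H41.Syl2Abs
import Cfsg.Agent.H41.SL2Cover

set_option autoImplicit false

namespace Cfsg.Agent.H41

open Matrix

variable {F : Type*} [Field F]

theorem diag_mul_self_of_sq (a : Matrix.SpecialLinearGroup (Fin 2) F) (ha : a ∈ diagSubgroup F)
    (h : ent a 0 0 ^ 2 = 1) : a * a = 1 := by
  obtain ⟨a1, a2⟩ := ha
  have hdet := sl2_det a
  rw [a1, zero_mul, sub_zero] at hdet
  apply sl2_ext
  · rw [sl2_mul00, a1, sl2_one00]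
    linear_combination h
  · rw [sl2_mul01, a1, sl2_one01]
    ring
  · rw [sl2_mul10, a2, sl2_one10]
    ring
  · rw [sl2_mul11, a1, sl2_one11]
    have : ent a 1 1 ^ 2 = 1 := by
      have h1 : (ent a 0 0 * ent a 1 1) ^ 2 = 1 := by rw [hdet]; ring
      rw [mul_pow, h, one_mul] at h1
      exact h1
    linear_combination this

/-- The split torus data. -/
theorem torusData_diag (h2 : (2 : F) ≠ 0) (d : Matrix.SpecialLinearGroup (Fin 2) F)
    (hd : d ∈ diagSubgroup F) (hda : ent d 0 0 ^ 2 ≠ 1) :
    TorusData (diagSubgroup F) (negOne : Matrix.SpecialLinearGroup (Fin 2) F) where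
  comm := fun a ha b hb => diag_comm a b ha hb
  cent := by
    intro a ha haa g hg
    have hda' : ent a 0 0 ^ 2 ≠ 1 := fun h => haa (diag_mul_self_of_sq a ha h)
    rw [← centralizer_diag a ha hda', Subgroup.mem_centralizer_iff]
    intro k hk
    rw [Set.mem_singleton_iff] at hk
    subst hk
    exact hg.symm
  inv := by
    intro w hwN hwD a ha
    rcases (mem_normalizer_diag d hd hda w).1 hwN with h | h
    · exact absurd h hwD
    · exact anti_conj_diag w a h ha
  sqz := by
    intro w hwN hwD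
    rcases (mem_normalizer_diag d hd hda w).1 hwN with h | h
    · exact absurd h hwD
    · exact anti_mul_self w h
  z_central := fun g => (negOne_comm g).symm
  z_ne := negOne_ne_one h2
  z_sq := negOne_mul_self
  sq := fun a ha haa => diag_sq_eq_one a ha haa

/-- The non-split torus data. -/
theorem torusData_torus [Fintype F] (hodd : Odd (Fintype.card F))
    {K : Type*} [Field K] [Algebra F K] [Finite K]
    (h2 : Module.finrank F K = 2) (b : Module.Basis (Fin 2) F K) :
    TorusData (torus h2 b) (negOne : Matrix.SpecialLinearGroup (Fin 2) F) where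
  comm := fun a ha c hc => torus_comm h2 b a c ha hc
  cent := by
    intro a ha haa g hg
    have h1 : a ≠ 1 := by
      rintro rfl
      exact haa (one_mul 1)
    have hneg : a ≠ negOne := by
      rintro rfl
      exact haa negOne_mul_self
    exact mem_torus_of_commute h2 b a ha h1 hneg g hg.symm
  inv := fun w hwN hwT a ha => conj_eq_inv_of_mem_normalizer h2 b w hwN hwT a ha
  sqz := fun w hwN hwT => torusNormalizer_mul_self h2 b hodd w hwN hwT
  z_central := fun g => (negOne_comm g).symm
  z_ne := negOne_ne_one (two_ne_zero_of_odd_card hodd)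
  z_sq := negOne_mul_self
  sq := fun a ha haa => torus_sq_eq_one h2 b a ha haa

/-- Elements of `SL₂` with square `-1` are conjugate (odd `q`). -/
theorem isConj_of_sq_negOne [Fintype F] (h2 : (2 : F) ≠ 0)
    (x y : Matrix.SpecialLinearGroup (Fin 2) F) (hx : x * x = negOne) (hy : y * y = negOne) :
    IsConj x y := by
  have key : ∀ u : Matrix.SpecialLinearGroup (Fin 2) F, u * u = negOne →
      ent u 0 0 + ent u 1 1 = 0 := by
    intro u hu
    have hdet := sl2_det u
    have e00 := congrArg (fun v => ent v 0 0) hu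
    have e01 := congrArg (fun v => ent v 0 1) hu
    have e10 := congrArg (fun v => ent v 1 0) hu
    have e11 := congrArg (fun v => ent v 1 1) hu
    simp only [sl2_mul00, sl2_mul01, sl2_mul10, sl2_mul11, negOne, mkSL00, mkSL01, mkSL10,
      mkSL11] at e00 e01 e10 e11
    by_contra ht
    have h00 : ent u 0 0 = 0 := by
      have : ent u 0 0 * (ent u 0 0 + ent u 1 1) = 0 := by linear_combination e00 + hdet
      exact (mul_eq_zero.1 this).resolve_right ht
    have h01 : ent u 0 1 = 0 := by
      have : ent u 0 1 * (ent u 0 0 + ent u 1 1) = 0 := by linear_combination e01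
      exact (mul_eq_zero.1 this).resolve_right ht
    rw [h00, h01] at hdet
    simp at hdet
  have h4 : (4 : F) ≠ 0 := by
    have : (4 : F) = 2 * 2 := by norm_num
    rw [this]
    exact mul_ne_zero h2 h2
  apply isConj_of_trace x y (by rw [key x hx, key y hy])
  rw [key x hx]
  intro h
  apply h4
  rw [← h]
  ring

theorem factorization_two_mul_odd (a b : ℕ) (ha : a ≠ 0) (hb : ¬ 2 ∣ b) :
    (a * b).factorization 2 = a.factorization 2 := by
  have hb0 : b ≠ 0 := by
    rintro rfl
    exact hb (dvd_zero 2)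
  rw [Nat.factorization_mul ha hb0]
  simp [Nat.factorization_eq_zero_of_not_dvd hb]

theorem card_SL2_factorization_one [Fintype F] (h : Fintype.card F % 4 = 1) :
    (Nat.card (Matrix.SpecialLinearGroup (Fin 2) F)).factorization 2 =
      (2 * (Fintype.card F - 1)).factorization 2 := by
  rw [card_SL2_eq]
  obtain ⟨j, hj⟩ : ∃ j, Fintype.card F = 4 * j + 1 := ⟨Fintype.card F / 4, by omega⟩
  have hq1 : Fintype.card F ≠ 1 := Fintype.one_lt_card.ne'
  have hj0 : j ≠ 0 := by
    rintro rfl
    exact hq1 (by omega)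
  rw [hj]
  have e1 : (4 * j + 1) ^ 2 - 1 = 8 * j * (2 * j + 1) := by
    have : (4 * j + 1) ^ 2 = 8 * j * (2 * j + 1) + 1 := by ring
    omega
  have e2 : (4 * j + 1) * ((4 * j + 1) ^ 2 - 1) = (2 * (4 * j + 1 - 1)) * ((4 * j + 1) * (2 * j + 1)) := by
    rw [e1]
    simp only [Nat.add_sub_cancel]
    ring
  rw [e2]
  apply factorization_two_mul_odd
  · simp only [Nat.add_sub_cancel]
    omega
  · rw [Nat.Prime.dvd_mul Nat.prime_two]
    omega

theorem card_SL2_factorization_three [Fintype F] (h : Fintype.card F % 4 = 3) :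
    (Nat.card (Matrix.SpecialLinearGroup (Fin 2) F)).factorization 2 =
      (2 * (Fintype.card F + 1)).factorization 2 := by
  rw [card_SL2_eq]
  obtain ⟨j, hj⟩ : ∃ j, Fintype.card F = 4 * j + 3 := ⟨Fintype.card F / 4, by omega⟩
  rw [hj]
  have e1 : (4 * j + 3) ^ 2 - 1 = 8 * (j + 1) * (2 * j + 1) := by
    have : (4 * j + 3) ^ 2 = 8 * (j + 1) * (2 * j + 1) + 1 := by ring
    omega
  have e2 : (4 * j + 3) * ((4 * j + 3) ^ 2 - 1) = (2 * (4 * j + 3 + 1)) * ((4 * j + 3) * (2 * j + 1)) := by
    rw [e1]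
    ring
  rw [e2]
  apply factorization_two_mul_odd
  · omega
  · rw [Nat.Prime.dvd_mul Nat.prime_two]
    omega

/-- A regular diagonal element exists when `q ≥ 4`. -/
theorem exists_regular_diag [Fintype F] (h4 : 4 ≤ Fintype.card F) :
    ∃ d : Matrix.SpecialLinearGroup (Fin 2) F, d ∈ diagSubgroup F ∧ ent d 0 0 ^ 2 ≠ 1 := by
  obtain ⟨α, hα⟩ := IsCyclic.exists_ofOrder_eq_natCard (α := Fˣ)
  rw [Nat.card_units, Nat.card_eq_fintype_card] at hα
  have hα2 : ((α : F)) ^ 2 ≠ 1 := by
    intro h
    have h' : α ^ 2 = 1 := Units.ext (by simpa using h)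
    have := orderOf_dvd_of_pow_eq_one h'
    rw [hα] at this
    have := Nat.le_of_dvd (by norm_num) this
    omega
  exact ⟨mkSL (α : F) 0 0 ((α⁻¹ : Fˣ) : F) (by simp), ⟨rfl, rfl⟩, hα2⟩

end Cfsg.Agent.H41
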