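import Mathlib
import Cfsg.Agent.H41.McKayLocalAbs
import Cfsg.Agent.H41.Syl2SL2
import Cfsg.Agent.H41.SL2TypeSum
import Cfsg.Agent.S2430
import Cfsg.Agent.S2437

set_option autoImplicit false
set_option linter.unusedSimpArgs false
set_option linter.unusedSectionVars false
set_option linter.unusedVariables false
set_option linter.style.haveILetI false

namespace Cfsg.Agent.H41

open Matrix Cfsg Cfsg.Agent.Lib.CT Cfsg.Agent.Lib.CT.Wedderburn Cfsg.Agent.Lib.CT.Orth
  Cfsg.Agent.Lib.Helper39.GL2Inst Cfsg.Agent.Lib.Helper39.PSInst Cfsg.Agent.Lib.Helper39.SL2T1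

section general

variable {G : Type*} [Group G]

/-- If `ℓ` does not divide the order of the group, the normalizer of a Sylow `ℓ`-subgroup is the
whole group. -/
theorem cnt_normalizer_of_not_dvd [Finite G] (ℓ : ℕ) [Fact ℓ.Prime] (h : ¬ ℓ ∣ Nat.card G)
    (P : Sylow ℓ G) :
    cnt ℓ (Subgroup.normalizer ((P : Subgroup G) : Set G)) = cnt ℓ G := by
  have hP : (P : Subgroup G) = ⊥ := by
    apply Subgroup.eq_bot_of_card_eq
    rw [Sylow.card_eq_multiplicity, Nat.factorization_eq_zero_of_not_dvd h, pow_zero]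
  have hN : Subgroup.normalizer ((P : Subgroup G) : Set G) = ⊤ := by
    rw [hP]
    ext g
    simp only [Subgroup.mem_normalizer_iff, Subgroup.mem_bot, Subgroup.mem_top, iff_true]
    intro x
    constructor
    · rintro rfl
      group
    · intro hx
      have e : x = g⁻¹ * (g * x * g⁻¹) * g := by group
      rw [e, hx]
      group
  rw [cnt_of_eq ℓ hN, cnt_top]

end general

variable {F : Type*} [Field F]

/-! ### The prime `2` -/

theorem local_two [Fintype F] (hodd : Odd (Fintype.card F))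
    (S : Sylow 2 (Matrix.SpecialLinearGroup (Fin 2) F)) :
    cnt 2 (Subgroup.normalizer ((S : Subgroup (Matrix.SpecialLinearGroup (Fin 2) F)) :
      Set (Matrix.SpecialLinearGroup (Fin 2) F))) = 4 := by
  have h2F : (2 : F) ≠ 0 := two_ne_zero_of_odd_card hodd
  have hq : Fintype.card F % 4 = 1 ∨ Fintype.card F % 4 = 3 := by
    obtain ⟨j, hj⟩ := hodd
    omega
  have hq1 : Fintype.card F ≠ 1 := Fintype.one_lt_card.ne'
  rcases hq with h1 | h3
  · obtain ⟨d, hd, hda⟩ := exists_regular_diag (F := F) (by omega)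
    have hT := torusData_diag h2F d hd hda
    have hm := card_diagSubgroup (F := F)
    have hN : Nat.card (Subgroup.normalizer ((diagSubgroup F :
        Subgroup (Matrix.SpecialLinearGroup (Fin 2) F)) :
        Set (Matrix.SpecialLinearGroup (Fin 2) F))) = 2 * (Fintype.card F - 1) :=
      card_diagNormalizer d hd hda
    have hG := card_SL2_factorization_one (F := F) h1
    have h4 : 4 ∣ Fintype.card F - 1 := by omega
    exact cnt_two_torusData hT isCyclic_diagSubgroup _ hm hN hG h4 (isConj_of_sq_negOne h2F) S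
  · obtain ⟨p, hp⟩ := CharP.exists F
    have : Fact p.Prime := ⟨CharP.char_is_prime F p⟩
    have : NeZero (2 : ℕ) := ⟨by norm_num⟩
    have h2 : Module.finrank F (FiniteField.Extension F p 2) = 2 :=
      FiniteField.finrank_extension F p 2
    let b : Module.Basis (Fin 2) F (FiniteField.Extension F p 2) :=
      Module.finBasisOfFinrankEq F _ h2
    have hT := torusData_torus hodd h2 b
    have hm := card_torus h2 b
    have hN : Nat.card (Subgroup.normalizer ((torus h2 b :
        Subgroup (Matrix.SpecialLinearGroup (Fin 2) F)) :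
        Set (Matrix.SpecialLinearGroup (Fin 2) F))) = 2 * (Fintype.card F + 1) :=
      card_torusNormalizer h2 b hodd
    have hG := card_SL2_factorization_three (F := F) h3
    have h4 : 4 ∣ Fintype.card F + 1 := by omega
    exact cnt_two_torusData hT (isCyclic_torus h2 b) _ hm hN hG h4 (isConj_of_sq_negOne h2F) S

/-! ### Odd primes dividing `q - 1` or `q + 1` -/

theorem local_split [Fintype F] (hodd : Odd (Fintype.card F)) (ℓ : ℕ) [Fact ℓ.Prime]
    (hℓ : ℓ ≠ 2) (hdiv : ℓ ∣ Fintype.card F - 1)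
    (P : Sylow ℓ (Matrix.SpecialLinearGroup (Fin 2) F)) :
    cnt ℓ (Subgroup.normalizer ((P : Subgroup (Matrix.SpecialLinearGroup (Fin 2) F)) :
      Set (Matrix.SpecialLinearGroup (Fin 2) F))) = (Fintype.card F + 5) / 2 := by
  classical
  have hℓp : ℓ.Prime := Fact.out
  have hℓ3 : 3 ≤ ℓ := by
    have := hℓp.two_le
    omega
  have hq : 2 ≤ Fintype.card F := Fintype.one_lt_card
  obtain ⟨m, hm⟩ : ∃ m, Fintype.card F = m + 1 := ⟨Fintype.card F - 1, by omega⟩
  have hm1 : 1 ≤ m := by omega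
  have hfl := Cfsg.Agent.S2430.fact_lemma m ℓ hm1 hℓp hℓ
  have hcardG : Nat.card (Matrix.SpecialLinearGroup (Fin 2) F) = (m + 1) * ((m + 1) ^ 2 - 1) := by
    rw [card_SL2_eq, hm]
  have hdiv' : ℓ ∣ m := by rw [hm] at hdiv; simpa using hdiv
  have hcent : ∀ a ∈ diagSubgroup F, a ≠ 1 → a ≠ negOne →
      Subgroup.centralizer ({a} : Set (Matrix.SpecialLinearGroup (Fin 2) F)) = diagSubgroup F := by
    intro a ha h1 hneg
    apply centralizer_diag a ha
    intro hsq
    have hdet := sl2_det a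
    rw [ha.1, zero_mul, sub_zero] at hdet
    have hsq' : ent a 0 0 * ent a 0 0 = 1 := by rw [← pow_two]; exact hsq
    rcases mul_self_eq_one_iff.1 hsq' with h | h
    · apply h1
      apply sl2_ext
      · rw [h, sl2_one00]
      · rw [ha.1, sl2_one01]
      · rw [ha.2, sl2_one10]
      · rw [h, one_mul] at hdet
        rw [hdet, sl2_one11]
    · apply hneg
      apply sl2_ext
      · rw [h]; rfl
      · rw [ha.1]; rfl
      · rw [ha.2]; rfl
      · rw [h] at hdet
        have : ent a 1 1 = -1 := by linear_combination (-1 : F) * hdet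
        rw [this]; rfl
  obtain ⟨P₀, hP₀⟩ := exists_sylow_normalizer_torus (diagSubgroup F) isCyclic_diagSubgroup ℓ hℓ
    negOne negOne_mul_self hcent (by rw [card_diagSubgroup, hm]; simpa using hdiv')
    (by rw [hcardG, card_diagSubgroup, hm]; simpa using hfl.1 hdiv')
  obtain ⟨α, hα⟩ := IsCyclic.exists_ofOrder_eq_natCard (α := Fˣ)
  rw [Nat.card_units, Nat.card_eq_fintype_card, hm] at hα
  have hm3 : 3 ≤ m := le_trans hℓ3 (Nat.le_of_dvd (by omega) hdiv')
  have hα2 : ((α : F)) ^ 2 ≠ 1 := by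
    intro h
    have h' : α ^ 2 = 1 := Units.ext (by simpa using h)
    have := orderOf_dvd_of_pow_eq_one h'
    rw [hα] at this
    have := Nat.le_of_dvd (by norm_num) this
    omega
  have hd : mkSL (α : F) 0 0 ((α⁻¹ : Fˣ) : F) (by simp) ∈ diagSubgroup F := ⟨rfl, rfl⟩
  rw [cnt_normalizer_sylow ℓ ℓ P₀ P, cnt_of_eq ℓ hP₀,
    cnt_normalizer_torus (diagSubgroup F) (fun a ha b hb => diag_comm a b ha hb) ℓ hℓp hℓ
      (diagNormalizer_index _ hd hα2)]
  exact card_conjClasses_diagNormalizer hodd _ hd hα2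

theorem local_nonsplit [Fintype F] (hodd : Odd (Fintype.card F)) (ℓ : ℕ) [Fact ℓ.Prime]
    (hℓ : ℓ ≠ 2) (hdiv : ℓ ∣ Fintype.card F + 1)
    (P : Sylow ℓ (Matrix.SpecialLinearGroup (Fin 2) F)) :
    cnt ℓ (Subgroup.normalizer ((P : Subgroup (Matrix.SpecialLinearGroup (Fin 2) F)) :
      Set (Matrix.SpecialLinearGroup (Fin 2) F))) = (Fintype.card F + 7) / 2 := by
  classical
  have hℓp : ℓ.Prime := Fact.out
  have hq : 2 ≤ Fintype.card F := Fintype.one_lt_card
  obtain ⟨m, hm⟩ : ∃ m, Fintype.card F = m + 1 := ⟨Fintype.card F - 1, by omega⟩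
  have hm1 : 1 ≤ m := by omega
  have hfl := Cfsg.Agent.S2430.fact_lemma m ℓ hm1 hℓp hℓ
  have hcardG : Nat.card (Matrix.SpecialLinearGroup (Fin 2) F) = (m + 1) * ((m + 1) ^ 2 - 1) := by
    rw [card_SL2_eq, hm]
  have hdiv' : ℓ ∣ m + 2 := by rw [hm] at hdiv; exact hdiv
  obtain ⟨p, hp⟩ := CharP.exists F
  have : Fact p.Prime := ⟨CharP.char_is_prime F p⟩
  have : NeZero (2 : ℕ) := ⟨by norm_num⟩
  have h2 : Module.finrank F (FiniteField.Extension F p 2) = 2 :=
    FiniteField.finrank_extension F p 2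
  let b : Module.Basis (Fin 2) F (FiniteField.Extension F p 2) :=
    Module.finBasisOfFinrankEq F _ h2
  obtain ⟨P₀, hP₀⟩ := exists_sylow_normalizer_torus (torus h2 b) (isCyclic_torus h2 b) ℓ hℓ
    negOne negOne_mul_self (fun a ha h1 hneg => centralizer_of_mem_torus h2 b a ha h1 hneg)
    (by rw [card_torus, hm]; exact hdiv')
    (by rw [hcardG, card_torus, hm]; exact hfl.2 hdiv')
  rw [cnt_normalizer_sylow ℓ ℓ P₀ P, cnt_of_eq ℓ hP₀,
    cnt_normalizer_torus (torus h2 b) (fun a ha c hc => torus_comm h2 b a c ha hc) ℓ hℓp hℓ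
      (torusNormalizer_index h2 b hodd)]
  exact card_conjClasses_torusNormalizer h2 b hodd

/-! ### The defining characteristic -/

/-- The unipotent upper triangular homomorphism. -/
def uHom (F : Type*) [Field F] : Multiplicative F →* Matrix.SpecialLinearGroup (Fin 2) F where
  toFun x := uSL (Multiplicative.toAdd x)
  map_one' := uSL_zero
  map_mul' x y := uSL_add _ _

/-- The unipotent upper triangular subgroup. -/
abbrev USL (F : Type*) [Field F] : Subgroup (Matrix.SpecialLinearGroup (Fin 2) F) :=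
  (uHom F).range

theorem mem_USL (g : Matrix.SpecialLinearGroup (Fin 2) F) : g ∈ USL F ↔ ∃ x : F, uSL x = g := by
  constructor
  · rintro ⟨x, rfl⟩
    exact ⟨Multiplicative.toAdd x, rfl⟩
  · rintro ⟨x, rfl⟩
    exact ⟨Multiplicative.ofAdd x, rfl⟩

theorem uSL00 (x : F) : ent (uSL x) 0 0 = 1 := rfl
theorem uSL01 (x : F) : ent (uSL x) 0 1 = x := rfl
theorem uSL10 (x : F) : ent (uSL x) 1 0 = 0 := rfl
theorem uSL11 (x : F) : ent (uSL x) 1 1 = 1 := rfl

theorem uSL_injective : Function.Injective (uSL : F → Matrix.SpecialLinearGroup (Fin 2) F) := by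
  intro x y h
  have h' := congrArg (fun g => ent g 0 1) h
  simpa only [uSL01] using h'

theorem card_USL [Fintype F] : Nat.card (USL F) = Fintype.card F := by
  have hinj : Function.Injective (uHom F) := fun x y h =>
    Multiplicative.toAdd.injective (uSL_injective h)
  rw [← Nat.card_congr (MonoidHom.ofInjective hinj).toEquiv, ← Nat.card_eq_fintype_card]
  exact Nat.card_congr Multiplicative.toAdd

theorem mem_BSL_iff' (g : Matrix.SpecialLinearGroup (Fin 2) F) : g ∈ BSL F ↔ ent g 1 0 = 0 :=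
  mem_BSL_iff g

theorem conj_uSL (g : Matrix.SpecialLinearGroup (Fin 2) F) (hg : g ∈ BSL F) (x : F) :
    g * uSL x * g⁻¹ = uSL (ent g 0 0 * x * ent g 0 0) := by
  rw [mem_BSL_iff'] at hg
  have hdet := sl2_det g
  rw [hg, mul_zero, sub_zero] at hdet
  rw [mul_inv_eq_iff_eq_mul]
  apply sl2_ext
  · rw [sl2_mul00, sl2_mul00, uSL00, uSL10, uSL00, uSL01, hg]
    ring
  · rw [sl2_mul01, sl2_mul01, uSL01, uSL11, uSL00, uSL01]
    linear_combination (-(ent g 0 0 * x)) * hdet
  · rw [sl2_mul10, sl2_mul10, uSL00, uSL10, uSL10, uSL11, hg]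
    ring
  · rw [sl2_mul11, sl2_mul11, uSL01, uSL11, uSL10, uSL11, hg]
    ring

theorem normalizer_USL :
    Subgroup.normalizer ((USL F : Subgroup (Matrix.SpecialLinearGroup (Fin 2) F)) :
      Set (Matrix.SpecialLinearGroup (Fin 2) F)) = BSL F := by
  ext g
  rw [Subgroup.mem_normalizer_iff]
  constructor
  · intro h
    rw [mem_BSL_iff']
    obtain ⟨x', hx'⟩ := (mem_USL _).1 ((h (uSL 1)).1 ((mem_USL _).2 ⟨1, rfl⟩))
    have e : uSL x' * g = g * uSL 1 := by
      rw [hx']
      group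
    have e11 := congrArg (fun m => ent m 1 1) e
    simp only [sl2_mul11, uSL10, uSL11, uSL01] at e11
    linear_combination -e11
  · intro hg h
    constructor
    · intro hh
      obtain ⟨x, rfl⟩ := (mem_USL _).1 hh
      rw [conj_uSL g hg x]
      exact (mem_USL _).2 ⟨_, rfl⟩
    · intro hh
      obtain ⟨x, hx⟩ := (mem_USL _).1 hh
      have hg' : g⁻¹ ∈ BSL F := (BSL F).inv_mem hg
      have e : h = g⁻¹ * uSL x * g⁻¹⁻¹ := by
        rw [hx]
        group
      rw [e, conj_uSL g⁻¹ hg' x]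
      exact (mem_USL _).2 ⟨_, rfl⟩

theorem exists_sylow_USL [Fintype F] (ℓ : ℕ) [Fact ℓ.Prime] (hdiv : ℓ ∣ Fintype.card F) :
    ∃ P₀ : Sylow ℓ (Matrix.SpecialLinearGroup (Fin 2) F),
      (P₀ : Subgroup (Matrix.SpecialLinearGroup (Fin 2) F)) = USL F := by
  have hℓ : ℓ.Prime := Fact.out
  obtain ⟨p, hp⟩ := CharP.exists F
  obtain ⟨n, hpp, hn⟩ := FiniteField.card F p
  have hℓp : ℓ = p := by
    rw [hn] at hdiv
    exact (Nat.prime_dvd_prime_iff_eq hℓ hpp).1 (hℓ.dvd_of_dvd_pow hdiv)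
  subst hℓp
  have hn1 : 1 ≤ (n : ℕ) := n.pos
  have hq2 : 2 ≤ ℓ ^ (n : ℕ) := by
    calc 2 ≤ ℓ := hℓ.two_le
      _ = ℓ ^ 1 := (pow_one ℓ).symm
      _ ≤ ℓ ^ (n : ℕ) := Nat.pow_le_pow_right hℓ.pos hn1
  have hsq : 4 ≤ (ℓ ^ (n : ℕ)) ^ 2 := by nlinarith
  have h1 : ¬ ℓ ∣ (ℓ ^ (n : ℕ)) ^ 2 - 1 := by
    intro h
    have h2 : ℓ ∣ (ℓ ^ (n : ℕ)) ^ 2 :=
      dvd_pow (dvd_pow_self ℓ (by omega)) (by norm_num)
    have h3 : ℓ ∣ ((ℓ ^ (n : ℕ)) ^ 2 - 1) + 1 := by
      have e : (ℓ ^ (n : ℕ)) ^ 2 - 1 + 1 = (ℓ ^ (n : ℕ)) ^ 2 := by omega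
      rw [e]
      exact h2
    have h4 := (Nat.dvd_add_right h).1 h3
    have := Nat.le_of_dvd (by norm_num) h4
    have := hℓ.two_le
    omega
  have hcard : Nat.card (USL F) =
      ℓ ^ (Nat.card (Matrix.SpecialLinearGroup (Fin 2) F)).factorization ℓ := by
    rw [card_USL, card_SL2_eq, hn,
      Nat.factorization_mul (by positivity) (by omega), Finsupp.add_apply,
      Nat.Prime.factorization_pow hℓ, Finsupp.single_eq_same,
      Nat.factorization_eq_zero_of_not_dvd h1, add_zero]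
  exact ⟨Sylow.ofCard (USL F) hcard, Sylow.coe_ofCard _ _⟩

theorem cnt_BSL [Fintype F] (hodd : Odd (Fintype.card F)) (ℓ : ℕ) (hℓ : ℓ.Prime)
    (hdiv : ℓ ∣ Fintype.card F) : cnt ℓ (BSL F) = Fintype.card F + 3 := by
  classical
  have hUB : USL F ≤ BSL F := by
    rw [← normalizer_USL]
    exact Subgroup.le_normalizer
  haveI hnorm : ((USL F).subgroupOf (BSL F)).Normal := by
    have h := Subgroup.normal_in_normalizer (H := USL F)
    rw [normalizer_USL] at h
    exact h
  rw [cnt_eq_card_conjClasses ℓ hℓ ((USL F).subgroupOf (BSL F)), Cfsg.Agent.S2437.result hodd]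
  · intro a ha b hb
    rw [Subgroup.mem_subgroupOf] at ha hb
    obtain ⟨x, hx⟩ := (mem_USL _).1 ha
    obtain ⟨y, hy⟩ := (mem_USL _).1 hb
    apply Subtype.ext
    simp only [Subgroup.coe_mul]
    rw [← hx, ← hy, ← uSL_add, ← uSL_add, add_comm]
  · have h := ((USL F).subgroupOf (BSL F)).card_mul_index
    rw [Nat.card_congr (Subgroup.subgroupOfEquivOfLe hUB).toEquiv, card_USL, card_BSL] at h
    have hq : 0 < Fintype.card F := Fintype.card_pos
    have hidx : ((USL F).subgroupOf (BSL F)).index = Fintype.card F - 1 := by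
      rw [mul_comm] at h
      exact Nat.eq_of_mul_eq_mul_right hq h
    rw [hidx]
    intro h'
    have h3 : ℓ ∣ (Fintype.card F - 1) + 1 := by
      have e : Fintype.card F - 1 + 1 = Fintype.card F := by omega
      rw [e]
      exact hdiv
    have h4 := (Nat.dvd_add_right h').1 h3
    have := Nat.le_of_dvd (by norm_num) h4
    have := hℓ.two_le
    omega

theorem local_char [Fintype F] (hodd : Odd (Fintype.card F)) (ℓ : ℕ) [Fact ℓ.Prime]
    (hdiv : ℓ ∣ Fintype.card F) (P : Sylow ℓ (Matrix.SpecialLinearGroup (Fin 2) F)) :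
    cnt ℓ (Subgroup.normalizer ((P : Subgroup (Matrix.SpecialLinearGroup (Fin 2) F)) :
      Set (Matrix.SpecialLinearGroup (Fin 2) F))) = Fintype.card F + 3 := by
  obtain ⟨P₀, hP₀⟩ := exists_sylow_USL ℓ hdiv
  rw [cnt_normalizer_sylow ℓ ℓ P₀ P, hP₀, cnt_of_eq ℓ normalizer_USL]
  exact cnt_BSL hodd ℓ Fact.out hdiv

end Cfsg.Agent.H41
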