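import Mathlib
import Cfsg.Agent.H41.SL2Ell
import Cfsg.Agent.H41.PSL2Basic

set_option autoImplicit false
set_option linter.unusedSimpArgs false
set_option linter.unusedSectionVars false
set_option linter.unusedVariables false
set_option linter.style.haveILetI false

namespace Cfsg.Agent.H41

open Matrix Cfsg

section upper

variable {F : Type*} [Field F]

theorem mem_center_iff_one_or_negOne (g : Matrix.SpecialLinearGroup (Fin 2) F) :
    g ∈ Subgroup.center (Matrix.SpecialLinearGroup (Fin 2) F) ↔ g = 1 ∨ g = negOne := by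
  constructor
  · intro hg
    rw [Matrix.SpecialLinearGroup.mem_center_iff] at hg
    obtain ⟨r, hr, h⟩ := hg
    simp only [Fintype.card_fin] at hr
    have h' : (r - 1) * (r + 1) = 0 := by linear_combination hr
    have e00 : ent g 0 0 = r := by
      have := congrFun (congrFun h 0) 0
      simpa using this.symm
    have e01 : ent g 0 1 = 0 := by
      have := congrFun (congrFun h 0) 1
      simpa using this.symm
    have e10 : ent g 1 0 = 0 := by
      have := congrFun (congrFun h 1) 0
      simpa using this.symm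
    have e11 : ent g 1 1 = r := by
      have := congrFun (congrFun h 1) 1
      simpa using this.symm
    rcases mul_eq_zero.1 h' with h1 | h1
    · left
      have hr1 : r = 1 := by linear_combination h1
      apply sl2_ext
      · rw [e00, hr1, sl2_one00]
      · rw [e01, sl2_one01]
      · rw [e10, sl2_one10]
      · rw [e11, hr1, sl2_one11]
    · right
      have hr1 : r = -1 := by linear_combination h1
      apply sl2_ext
      · rw [e00, hr1]; rfl
      · rw [e01]; rfl
      · rw [e10]; rfl
      · rw [e11, hr1]; rfl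
  · rintro (rfl | rfl)
    · exact Subgroup.one_mem _
    · exact negOne_mem_center

theorem upper_pow (g : Matrix.SpecialLinearGroup (Fin 2) F) (h10 : ent g 1 0 = 0) (n : ℕ) :
    ent (g ^ n) 1 0 = 0 ∧ ent (g ^ n) 0 0 = ent g 0 0 ^ n ∧ ent (g ^ n) 1 1 = ent g 1 1 ^ n := by
  induction n with
  | zero =>
    rw [pow_zero]
    exact ⟨sl2_one10, by rw [sl2_one00, pow_zero], by rw [sl2_one11, pow_zero]⟩
  | succ n ih =>
    obtain ⟨i1, i2, i3⟩ := ih
    rw [pow_succ]
    refine ⟨?_, ?_, ?_⟩
    · rw [sl2_mul10, i1, h10]; ring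
    · rw [sl2_mul00, i2, h10]; ring
    · rw [sl2_mul11, i1, i3]; ring

theorem unipotent_pow (u : Matrix.SpecialLinearGroup (Fin 2) F) (h10 : ent u 1 0 = 0)
    (h00 : ent u 0 0 = 1) (h11 : ent u 1 1 = 1) (n : ℕ) :
    ent (u ^ n) 0 1 = n * ent u 0 1 := by
  induction n with
  | zero =>
    rw [pow_zero, sl2_one01]
    simp
  | succ n ih =>
    obtain ⟨i1, i2, i3⟩ := upper_pow u h10 n
    rw [pow_succ, sl2_mul01, i2, ih, h00, h11]
    push_cast
    ring

theorem upper_pow_eq_one [Fintype F] (p : ℕ) [CharP F p]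
    (g : Matrix.SpecialLinearGroup (Fin 2) F) (h10 : ent g 1 0 = 0) :
    g ^ ((Fintype.card F - 1) * p) = 1 := by
  rw [pow_mul]
  obtain ⟨u10, u00, u11⟩ := upper_pow g h10 (Fintype.card F - 1)
  have hdet := sl2_det g
  rw [h10, mul_zero, sub_zero] at hdet
  have hg00 : ent g 0 0 ≠ 0 := left_ne_zero_of_mul_eq_one hdet
  have hg11 : ent g 1 1 ≠ 0 := right_ne_zero_of_mul_eq_one hdet
  rw [FiniteField.pow_card_sub_one_eq_one _ hg00] at u00
  rw [FiniteField.pow_card_sub_one_eq_one _ hg11] at u11
  obtain ⟨v10, v00, v11⟩ := upper_pow (g ^ (Fintype.card F - 1)) u10 p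
  apply sl2_ext
  · rw [v00, u00, one_pow, sl2_one00]
  · rw [unipotent_pow _ u10 u00 u11 p, CharP.cast_eq_zero, zero_mul, sl2_one01]
  · rw [v10, sl2_one10]
  · rw [v11, u11, one_pow, sl2_one11]

/-- An element of order `q + 1` has no eigenvector. -/
theorem no_eigenvector_of_order [Fintype F] (p : ℕ) [Fact p.Prime] [CharP F p]
    (g : Matrix.SpecialLinearGroup (Fin 2) F) (hord : orderOf g = Fintype.card F + 1)
    (c : F) (v : Fin 2 → F) (hv : v ≠ 0) :
    (g : Matrix (Fin 2) (Fin 2) F).mulVec v ≠ c • v := by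
  intro h
  obtain ⟨P, hP⟩ := exists_conj_upper g c v hv h
  have h1 := upper_pow_eq_one p (P⁻¹ * g * P) hP
  have e := conj_pow (a := P⁻¹) (b := g) (i := (Fintype.card F - 1) * p)
  rw [inv_inv] at e
  rw [e] at h1
  have h2 : g ^ ((Fintype.card F - 1) * p) = 1 := by
    have e2 : g ^ ((Fintype.card F - 1) * p) =
        P * (P⁻¹ * g ^ ((Fintype.card F - 1) * p) * P) * P⁻¹ := by group
    rw [e2, h1]
    group
  have hdvd := orderOf_dvd_of_pow_eq_one h2
  rw [hord] at hdvd
  obtain ⟨n, hp, hn⟩ := FiniteField.card F p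
  have hpq : p ∣ Fintype.card F := by
    rw [hn]
    exact dvd_pow_self p n.ne_zero
  have hcop : Nat.Coprime (Fintype.card F + 1) p := by
    rw [Nat.coprime_comm, Nat.Prime.coprime_iff_not_dvd hp]
    intro h3
    have h4 : p ∣ 1 := (Nat.dvd_add_right hpq).1 h3
    exact hp.one_lt.ne' (Nat.dvd_one.1 h4)
  have hdvd2 := hcop.dvd_of_dvd_mul_right hdvd
  have hq : 1 < Fintype.card F := Fintype.one_lt_card
  have := Nat.le_of_dvd (by omega) hdvd2
  omega

end upper

section conjtorus

variable {F : Type*} [Field F] [Fintype F]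
variable {K : Type*} [Field K] [Algebra F K] [Finite K]
variable (h2 : Module.finrank F K = 2) (b : Module.Basis (Fin 2) F K)

/-- Every cyclic subgroup of order `q + 1` is conjugate to the torus. -/
theorem exists_conj_eq_torus (p : ℕ) [Fact p.Prime] [CharP F p]
    (C : Subgroup (Matrix.SpecialLinearGroup (Fin 2) F)) (hC : IsCyclic C)
    (hcard : Nat.card C = Fintype.card F + 1) :
    ∃ h : Matrix.SpecialLinearGroup (Fin 2) F, ∀ g, g ∈ C ↔ h * g * h⁻¹ ∈ torus h2 b := by
  obtain ⟨g₀, hg₀⟩ := IsCyclic.exists_ofOrder_eq_natCard (α := C)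
  have hord : orderOf (g₀ : Matrix.SpecialLinearGroup (Fin 2) F) = Fintype.card F + 1 := by
    rw [Subgroup.orderOf_coe, hg₀, hcard]
  have hno := no_eigenvector_of_order p (g₀ : Matrix.SpecialLinearGroup (Fin 2) F) hord
  obtain ⟨h, hh⟩ := exists_conj_mem_torus h2 b p (g₀ : Matrix.SpecialLinearGroup (Fin 2) F) hno
  have hCz : Subgroup.zpowers (g₀ : Matrix.SpecialLinearGroup (Fin 2) F) = C := by
    apply Subgroup.eq_of_le_of_card_ge ((Subgroup.zpowers_le).2 g₀.2)
    rw [Nat.card_zpowers, hord, hcard]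
  have hle : C.map (MulAut.conj h).toMonoidHom ≤ torus h2 b := by
    rw [← hCz, MonoidHom.map_zpowers, Subgroup.zpowers_le]
    exact hh
  have heq : C.map (MulAut.conj h).toMonoidHom = torus h2 b := by
    apply Subgroup.eq_of_le_of_card_ge hle
    rw [Subgroup.card_map_of_injective (MulAut.conj h).injective, hcard, card_torus]
  refine ⟨h, fun g => ?_⟩
  rw [← heq, Subgroup.mem_map]
  constructor
  · intro hg
    exact ⟨g, hg, rfl⟩
  · rintro ⟨c, hc, hcg⟩
    have : c = g := (MulAut.conj h).injective hcg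
    rwa [← this]

/-- Sums of class functions over conjugate subgroups agree. -/
theorem sum_conj_subgroup {G : Type*} [Group G] (C T : Subgroup G) [Fintype C] [Fintype T]
    (h : G) (hconj : ∀ g, g ∈ C ↔ h * g * h⁻¹ ∈ T) (Φ : G → ℂ) (hcl : IsClassFunction G Φ) :
    ∑ c : C, Φ c = ∑ t : T, Φ t := by
  let e : C ≃ T :=
    { toFun := fun c => ⟨h * c * h⁻¹, (hconj c).1 c.2⟩
      invFun := fun t => ⟨h⁻¹ * t * h, (hconj _).2 (by
        have : h * (h⁻¹ * (t : G) * h) * h⁻¹ = t := by group
        rw [this]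
        exact t.2)⟩
      left_inv := fun c => Subtype.ext (by simp only; group)
      right_inv := fun t => Subtype.ext (by simp only; group) }
  apply Fintype.sum_equiv e
  intro c
  exact (hcl c h).symm

end conjtorus

end Cfsg.Agent.H41
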