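import Mathlib
import Cfsg.Agent.H41.McKayLocal
import Cfsg.Agent.H41.SL2Ell
import Cfsg.Agent.H41.SL2ConjTorus

set_option autoImplicit false
set_option linter.unusedSimpArgs false
set_option linter.unusedSectionVars false
set_option linter.unusedVariables false
set_option linter.style.haveILetI false

namespace Cfsg.Agent.H41

open Matrix Cfsg Cfsg.Agent.Lib.Helper39.SL2T1

variable {F : Type*} [Field F]

theorem uSL_pow (x : F) (n : ℕ) : uSL x ^ n = uSL (n • x) := by
  induction n with
  | zero => rw [pow_zero, zero_smul, uSL_zero]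
  | succ n ih => rw [pow_succ, ih, ← uSL_add, succ_nsmul]

theorem uSL_pow_char (p : ℕ) [CharP F p] (x : F) : uSL x ^ p = 1 := by
  rw [uSL_pow, nsmul_eq_mul, CharP.cast_eq_zero, zero_mul, uSL_zero]

theorem eq_one_of_pow_char (p : ℕ) [Fact p.Prime] [CharP F p] (a : F) (h : a ^ p = 1) :
    a = 1 := by
  have h1 : (a - 1) ^ p = 0 := by
    rw [sub_pow_char, h, one_pow, sub_self]
  have h2 := pow_eq_zero_iff (Fact.out : p.Prime).ne_zero |>.1 h1
  linear_combination h2

/-- An element of `SL₂` of order dividing the characteristic is conjugate to an upper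
unitriangular matrix. -/
theorem exists_conj_uSL (p : ℕ) [Fact p.Prime] [CharP F p]
    (u : Matrix.SpecialLinearGroup (Fin 2) F) (hu : u ^ p = 1) :
    ∃ (P : Matrix.SpecialLinearGroup (Fin 2) F) (x : F), P⁻¹ * u * P = uSL x := by
  have hM : ((u : Matrix (Fin 2) (Fin 2) F) - 1) ^ p = 0 := by
    have hc : Commute (u : Matrix (Fin 2) (Fin 2) F) 1 := Commute.one_right _
    rw [sub_pow_char_of_commute (p := p) hc, one_pow, ← Matrix.SpecialLinearGroup.coe_pow, hu]
    simp
  have hdet : ((u : Matrix (Fin 2) (Fin 2) F) - 1).det = 0 := by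
    have h := congrArg Matrix.det hM
    rw [Matrix.det_pow, Matrix.det_zero] at h
    exact pow_eq_zero_iff (Fact.out : p.Prime).ne_zero |>.1 h
  obtain ⟨v, hv, hv0⟩ := Matrix.exists_mulVec_eq_zero_iff.2 hdet
  have hev : (u : Matrix (Fin 2) (Fin 2) F).mulVec v = (1 : F) • v := by
    rw [one_smul]
    rw [Matrix.sub_mulVec, Matrix.one_mulVec, sub_eq_zero] at hv0
    exact hv0
  obtain ⟨P, hP⟩ := exists_conj_upper u 1 v hv hev
  refine ⟨P, ent (P⁻¹ * u * P) 0 1, ?_⟩
  have hpow : (P⁻¹ * u * P) ^ p = 1 := by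
    have e : P⁻¹ * u * P = P⁻¹ * u * P⁻¹⁻¹ := by rw [inv_inv]
    rw [e, conj_pow, hu]
    group
  obtain ⟨-, h00, h11⟩ := upper_pow (P⁻¹ * u * P) hP p
  rw [hpow, sl2_one00] at h00
  rw [hpow, sl2_one11] at h11
  have ha := eq_one_of_pow_char p _ h00.symm
  have hd := eq_one_of_pow_char p _ h11.symm
  apply sl2_ext
  · rw [ha, uSL00]
  · rw [uSL01]
  · rw [hP, uSL10]
  · rw [hd, uSL11]

/-- The centralizer of a nontrivial upper unitriangular matrix. -/
theorem commute_uSL (g : Matrix.SpecialLinearGroup (Fin 2) F) (x : F) (hx : x ≠ 0)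
    (h : g * uSL x = uSL x * g) :
    g = uSL (ent g 0 1) ∨ g = negOne * uSL (- ent g 0 1) := by
  have h00 := congrArg (fun m => ent m 0 0) h
  have h01 := congrArg (fun m => ent m 0 1) h
  simp only [sl2_mul00, sl2_mul01, uSL00, uSL01, uSL10, uSL11] at h00 h01
  have hc : ent g 1 0 = 0 := by
    have h' : x * ent g 1 0 = 0 := by linear_combination -h00
    rcases mul_eq_zero.1 h' with h'' | h''
    · exact absurd h'' hx
    · exact h''
  have had : ent g 0 0 = ent g 1 1 := by
    have h' : x * (ent g 0 0 - ent g 1 1) = 0 := by linear_combination h01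
    rcases mul_eq_zero.1 h' with h'' | h''
    · exact absurd h'' hx
    · exact sub_eq_zero.1 h''
  have hdet := sl2_det g
  rw [hc, mul_zero, sub_zero, ← had] at hdet
  rcases mul_self_eq_one_iff.1 hdet with ha | ha
  · left
    apply sl2_ext
    · rw [ha, uSL00]
    · rw [uSL01]
    · rw [hc, uSL10]
    · rw [← had, ha, uSL11]
  · right
    apply sl2_ext
    · rw [negOne_mul_ent, uSL00, ha]
    · rw [negOne_mul_ent, uSL01, neg_neg]
    · rw [negOne_mul_ent, uSL10, hc, neg_zero]
    · rw [negOne_mul_ent, uSL11, ← had, ha]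

theorem uSL_eq_one_iff (y : F) : uSL y = 1 ↔ y = 0 := by
  constructor
  · intro h
    have := congrArg (fun m => ent m 0 1) h
    simpa only [uSL01, sl2_one01] using this
  · rintro rfl
    exact uSL_zero

theorem pRegular_uSL (p : ℕ) [Fact p.Prime] [CharP F p] (y : F) (h : ¬ p ∣ orderOf (uSL y)) :
    y = 0 := by
  have h1 : orderOf (uSL y) ∣ p := orderOf_dvd_of_pow_eq_one (uSL_pow_char p y)
  rcases (Nat.dvd_prime (Fact.out : p.Prime)).1 h1 with h2 | h2
  · exact (uSL_eq_one_iff y).1 (orderOf_eq_one_iff.1 h2)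
  · exact absurd (by rw [h2]) h

theorem pRegular_neg_uSL (p : ℕ) [Fact p.Prime] [CharP F p] (hp2 : p ≠ 2) (y : F)
    (h : ¬ p ∣ orderOf (negOne * uSL y)) : y = 0 := by
  have h2F : (2 : F) ≠ 0 := by
    intro h2
    have h' : ((2 : ℕ) : F) = 0 := by exact_mod_cast h2
    have hdvd := (CharP.cast_eq_zero_iff F p 2).1 h'
    exact hp2 ((Nat.prime_dvd_prime_iff_eq Fact.out Nat.prime_two).1 hdvd)
  have hsq : (negOne * uSL y) ^ 2 = uSL (2 • y) := by
    rw [pow_two, mul_assoc, ← mul_assoc (uSL y), ← negOne_comm, mul_assoc, ← mul_assoc,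
      negOne_mul_self, one_mul, ← pow_two, uSL_pow]
  have h1 : ¬ p ∣ orderOf (uSL (2 • y)) := by
    intro h'
    apply h
    rw [← hsq] at h'
    exact dvd_trans h' (orderOf_pow_dvd 2)
  have h3 := pRegular_uSL p _ h1
  rw [nsmul_eq_mul] at h3
  rcases mul_eq_zero.1 h3 with h4 | h4
  · exact absurd (by exact_mod_cast h4) h2F
  · exact h4

/-- The class of a non-central element of order prime to the characteristic has size divisible
by the characteristic. -/
theorem dvd_index_centralizer [Fintype F] (p : ℕ) [Fact p.Prime] [CharP F p] (hp2 : p ≠ 2)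
    (g : Matrix.SpecialLinearGroup (Fin 2) F) (hreg : ¬ p ∣ orderOf g) (h1 : g ≠ 1)
    (hneg : g ≠ negOne) :
    p ∣ (Subgroup.centralizer ({g} : Set (Matrix.SpecialLinearGroup (Fin 2) F))).index := by
  have hp : p.Prime := Fact.out
  by_contra hnd
  have hmul := (Subgroup.centralizer ({g} : Set (Matrix.SpecialLinearGroup (Fin 2) F))).card_mul_index
  obtain ⟨n, -, hn⟩ := FiniteField.card F p
  have hpq : p ∣ Fintype.card F := by
    rw [hn]
    exact dvd_pow_self p n.ne_zero
  have hpG : p ∣ Nat.card (Matrix.SpecialLinearGroup (Fin 2) F) := by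
    rw [card_SL2_eq]
    exact Dvd.dvd.mul_right hpq _
  rw [← hmul] at hpG
  have hpC : p ∣ Nat.card (Subgroup.centralizer
      ({g} : Set (Matrix.SpecialLinearGroup (Fin 2) F))) := by
    rcases (Nat.Prime.dvd_mul hp).1 hpG with h | h
    · exact h
    · exact absurd h hnd
  obtain ⟨u, hu⟩ := exists_prime_orderOf_dvd_card' p hpC
  have hu' : orderOf (u : Matrix.SpecialLinearGroup (Fin 2) F) = p := by
    rw [Subgroup.orderOf_coe, hu]
  have hup : (u : Matrix.SpecialLinearGroup (Fin 2) F) ^ p = 1 := by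
    rw [← hu']
    exact pow_orderOf_eq_one _
  have hu1 : (u : Matrix.SpecialLinearGroup (Fin 2) F) ≠ 1 := by
    intro h
    rw [h, orderOf_one] at hu'
    exact hp.one_lt.ne hu'
  have hcomm : (u : Matrix.SpecialLinearGroup (Fin 2) F) * g = g * u :=
    Subgroup.mem_centralizer_singleton_iff.1 u.2
  obtain ⟨P, x, hPx⟩ := exists_conj_uSL p (u : Matrix.SpecialLinearGroup (Fin 2) F) hup
  have hx : x ≠ 0 := by
    rintro rfl
    rw [uSL_zero] at hPx
    apply hu1
    have e : (u : Matrix.SpecialLinearGroup (Fin 2) F) = P * (P⁻¹ * u * P) * P⁻¹ := by group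
    rw [e, hPx]
    group
  have hcomm' : (P⁻¹ * g * P) * uSL x = uSL x * (P⁻¹ * g * P) := by
    rw [← hPx]
    have e1 : P⁻¹ * g * P * (P⁻¹ * (u : Matrix.SpecialLinearGroup (Fin 2) F) * P) =
        P⁻¹ * (g * u) * P := by group
    have e2 : P⁻¹ * (u : Matrix.SpecialLinearGroup (Fin 2) F) * P * (P⁻¹ * g * P) =
        P⁻¹ * (u * g) * P := by group
    rw [e1, e2, hcomm]
  have hord : orderOf (P⁻¹ * g * P) = orderOf g := by
    have e : P⁻¹ * g * P = MulAut.conj P⁻¹ g := by simp [MulAut.conj_apply]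
    rw [e, MulEquiv.orderOf_eq]
  have hback : ∀ c : Matrix.SpecialLinearGroup (Fin 2) F, P⁻¹ * g * P = c → g = P * c * P⁻¹ := by
    intro c hc
    rw [← hc]
    group
  rcases commute_uSL _ x hx hcomm' with h | h
  · have hy := pRegular_uSL p _ (by rw [← h, hord]; exact hreg)
    rw [hy, uSL_zero] at h
    apply h1
    rw [hback _ h]
    group
  · have hy := pRegular_neg_uSL p hp2 _ (by rw [← h, hord]; exact hreg)
    rw [hy, uSL_zero, mul_one] at h
    apply hneg
    rw [hback _ h, mul_assoc, negOne_comm, ← mul_assoc, mul_inv_cancel, one_mul]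

end Cfsg.Agent.H41
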