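import Mathlib
import Cfsg.Agent.H41.SL2BlocksA
import Cfsg.Agent.H41.BlocksAbs
import Cfsg.Agent.H41.McKayGlobal

set_option autoImplicit false
set_option linter.unusedSimpArgs false
set_option linter.unusedSectionVars false
set_option linter.unusedVariables false
set_option linter.style.haveILetI false

namespace Cfsg.Agent.H41

open Matrix Cfsg Cfsg.Agent.Lib.CT Cfsg.Agent.Lib.CT.Wedderburn Cfsg.Agent.Lib.CT.Orth
  Cfsg.Agent.Lib.Helper39.GL2Inst Cfsg.Agent.Lib.Helper39.SL2PS
  Cfsg.Agent.Lib.Helper39.SL2T1 Cfsg.Agent.Lib.Helper39.SL2Odd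
open scoped ComplexConjugate

variable {F : Type*} [Field F] [Fintype F]

theorem neg_one_eq_negOne : (-1 : Matrix.SpecialLinearGroup (Fin 2) F) = negOne := by
  apply Subtype.ext
  rw [negOne_coe]
  simp

/-- The index of the centralizer of a unipotent element divides `q² - 1`. -/
theorem index_centralizer_uSL_dvd :
    (Subgroup.centralizer ({uSL (1 : F)} : Set (Matrix.SpecialLinearGroup (Fin 2) F))).index ∣
      Fintype.card F ^ 2 - 1 := by
  have hle : USL F ≤ Subgroup.centralizer
      ({uSL (1 : F)} : Set (Matrix.SpecialLinearGroup (Fin 2) F)) := by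
    intro g hg
    obtain ⟨x, rfl⟩ := (mem_USL g).1 hg
    rw [Subgroup.mem_centralizer_singleton_iff, ← uSL_add, ← uSL_add, add_comm]
  have h1 := Subgroup.card_dvd_of_le hle
  rw [card_USL] at h1
  obtain ⟨k, hk⟩ := h1
  have h2 := (Subgroup.centralizer
    ({uSL (1 : F)} : Set (Matrix.SpecialLinearGroup (Fin 2) F))).card_mul_index
  rw [card_SL2_eq, hk, mul_assoc] at h2
  have hq : 0 < Fintype.card F := Fintype.card_pos
  have h3 := Nat.eq_of_mul_eq_mul_left hq h2
  exact ⟨k, by rw [← h3, mul_comm]⟩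

theorem blocks_data [DecidableEq F] (p : ℕ) [Fact p.Prime] [CharP F p] (hp : p ≠ 2)
    (M : Ideal AlgInt) (hM : IsPModular p M) :
    ∃ St : IrrCharacter (Matrix.SpecialLinearGroup (Fin 2) F),
      BData p M (Matrix.SpecialLinearGroup (Fin 2) F) (Fintype.card F)
        (Fintype.card F ^ 2 - 1) negOne (uSL (1 : F)) St := by
  classical
  haveI := finite_irrCharacter (Matrix.SpecialLinearGroup (Fin 2) F)
  haveI := Fintype.ofFinite (IrrCharacter (Matrix.SpecialLinearGroup (Fin 2) F))
  have hpp : p.Prime := Fact.out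
  obtain ⟨n, -, hn⟩ := FiniteField.card F p
  have hpq : p ∣ Fintype.card F := by
    rw [hn]
    exact dvd_pow_self p n.ne_zero
  have hodd : Odd (Fintype.card F) := by
    rw [hn]
    exact Odd.pow (hpp.odd_of_ne_two hp)
  have h2F : (2 : F) ≠ 0 := two_ne_zero_of_odd_card hodd
  have hq3 : 3 ≤ Fintype.card F := by
    have h1 : 1 < Fintype.card F := Fintype.one_lt_card
    obtain ⟨k, hk⟩ := hodd
    omega
  have hq2 : 1 ≤ Fintype.card F ^ 2 := Nat.one_le_pow _ _ (by omega)
  have hnd1 : ¬ p ∣ 1 := fun h => hpp.one_lt.ne' (Nat.dvd_one.1 h)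
  have hndp : ¬ p ∣ Fintype.card F + 1 := by
    intro h
    exact hnd1 ((Nat.dvd_add_right hpq).1 h)
  have hndm : ¬ p ∣ Fintype.card F - 1 := by
    intro h
    apply hnd1
    have h' : p ∣ (Fintype.card F - 1) + 1 := by
      rw [Nat.sub_add_cancel (by omega)]
      exact hpq
    exact (Nat.dvd_add_right h).1 h'
  have hndp2 : ¬ p ∣ (Fintype.card F + 1) / 2 := by
    intro h
    apply hndp
    obtain ⟨k, hk⟩ := hodd
    have e : Fintype.card F + 1 = (Fintype.card F + 1) / 2 * 2 := by omega
    rw [e]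
    exact Dvd.dvd.mul_right h 2
  have hndm2 : ¬ p ∣ (Fintype.card F - 1) / 2 := by
    intro h
    apply hndm
    obtain ⟨k, hk⟩ := hodd
    have e : Fintype.card F - 1 = (Fintype.card F - 1) / 2 * 2 := by omega
    rw [e]
    exact Dvd.dvd.mul_right h 2
  have hndsq : ¬ p ∣ Fintype.card F ^ 2 - 1 := by
    intro h
    apply hnd1
    have h' : p ∣ (Fintype.card F ^ 2 - 1) + 1 := by
      rw [Nat.sub_add_cancel hq2]
      exact Dvd.dvd.pow hpq (by norm_num)
    exact (Nat.dvd_add_right h).1 h'
  obtain ⟨St, hSt, hSt1, hdecSt⟩ := exists_steinberg (F := F)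
  have hStval : ∀ g, St g = slPS (1 : MulChar F ℂ) g - 1 := by
    intro g
    rw [hdecSt]
    simp
  have hSt_one : St 1 = (Fintype.card F : ℂ) := by
    rw [hStval, slPS_one]
    ring
  have hcount := global_sum hodd (fun d => if p ∣ d then 1 else 0)
  simp only [if_neg hnd1, if_pos hpq, if_neg hndp, if_neg hndm, if_neg hndp2, if_neg hndm2,
    mul_zero, add_zero, zero_add] at hcount
  rw [← Finset.card_filter] at hcount
  refine ⟨⟨St, hSt⟩, ?_⟩
  refine
    { hM := hM
      hp2 := hp
      hq := hpq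
      hm := hndsq
      hcard := card_SL2_eq
      hz := negOne_mem_center
      hz1 := negOne_ne_one h2F
      hzz := negOne_mul_self
      hSt1 := hSt_one
      hStz := ?_
      hStu := ?_
      hdeg := ?_
      hup := uSL_pow_char p 1
      hui := ?_
      hreg := ?_ }
  · show St negOne = St 1
    rw [hStval, hStval]
    have h := slPS_one_negOne_mul (F := F) 1
    rw [mul_one] at h
    rw [h]
  · show St (uSL 1) = 0
    rw [hStval, slPS_u _ _ one_ne_zero, sub_self]
  · intro χ hχ hdvd
    apply hχ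
    have h1 : χ ∈ Finset.univ.filter (fun χ : IrrCharacter (Matrix.SpecialLinearGroup (Fin 2) F) =>
        p ∣ charDegree (χ : Matrix.SpecialLinearGroup (Fin 2) F → ℂ)) := by
      simp only [Finset.mem_filter, Finset.mem_univ, true_and]
      exact hdvd
    have h2 : (⟨St, hSt⟩ : IrrCharacter (Matrix.SpecialLinearGroup (Fin 2) F)) ∈
        Finset.univ.filter (fun χ : IrrCharacter (Matrix.SpecialLinearGroup (Fin 2) F) =>
        p ∣ charDegree (χ : Matrix.SpecialLinearGroup (Fin 2) F → ℂ)) := by
      simp only [Finset.mem_filter, Finset.mem_univ, true_and]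
      rw [charDegree_eq_of_apply_one hSt_one]
      exact hpq
    exact Finset.card_le_one.1 hcount.le _ h1 _ h2
  · intro h
    exact hndsq (dvd_trans h index_centralizer_uSL_dvd)
  · intro g hg h1 hneg
    exact dvd_index_centralizer p hp g hg h1 hneg

end Cfsg.Agent.H41
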