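import Mathlib
import Cfsg.Agent.H41.SL2TypeSum
import Cfsg.Agent.Lib.CT.Kernel

set_option autoImplicit false
set_option linter.unusedSimpArgs false
set_option linter.unusedSectionVars false
set_option linter.unusedVariables false
set_option linter.style.haveILetI false

namespace Cfsg.Agent.H41

open Matrix Cfsg Cfsg.Agent.Lib.CT Cfsg.Agent.Lib.CT.Wedderburn Cfsg.Agent.Lib.CT.FrobRec
  Cfsg.Agent.Lib.Helper39.GL2Inst Cfsg.Agent.Lib.Helper39.PSInst Cfsg.Agent.Lib.Helper39.SL2PS
  Cfsg.Agent.Lib.Helper39.SL2T1 Cfsg.Agent.Lib.Helper39.SL2Tri Cfsg.Agent.Lib.Helper39.UMult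
  Cfsg.Agent.Lib.Helper39.UBorel Cfsg.Agent.Lib.Helper39.GL2T1
open scoped ComplexConjugate

section cusp

variable {F : Type*} [Field F] [Fintype F] [DecidableEq F]

/-- A cuspidal irreducible character vanishes at the upper triangular elements with different
diagonal entries. -/
theorem cusp_vanish (χ : Matrix.SpecialLinearGroup (Fin 2) F → ℂ)
    (hχ : IsIrrCharacter (Matrix.SpecialLinearGroup (Fin 2) F) χ)
    (ha : (Fintype.card F : ℂ)⁻¹ * ∑ x : F, χ (uSL x) = 0) (t : Fˣ) (x : F)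
    (ht : (t : F) ≠ ((t⁻¹ : Fˣ) : F)) : χ (bmSL (t, x)) = 0 := by
  classical
  haveI : Fintype (MulChar F ℂ) := Fintype.ofFinite _
  have hcl := char_isClassFunction (isCharacter_of_irr hχ)
  obtain ⟨a, ha', htri⟩ := sl_trichotomy χ hχ
  have ha0 : a = 0 := by
    rw [ha] at ha'
    exact_mod_cast ha'.symm
  have hall : ∀ α : MulChar F ℂ, classInner χ (slPS α) = 0 := by
    rcases htri with ⟨-, h⟩ | ⟨h, -⟩ | ⟨h, -⟩
    · exact h
    · omega
    · omega
  have h1 : χ (bmSL (t, x)) = χ (bmSL (t, 0)) :=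
    classFunction_diag (mSL F) mSL_injective (BSL F) uSL mSL_u
      (fun t : Fˣ => (t : F)) (fun t : Fˣ => ((t⁻¹ : Fˣ) : F)) bmSL mSL_bmSL χ hcl t x ht
  rw [h1, ← sl_jacquet_diag χ hcl t ht]
  apply Finset.sum_eq_zero
  intro α _
  rw [hall α, mul_zero]

/-- The central character of an irreducible character of `SL₂`. -/
theorem central_char (χ : Matrix.SpecialLinearGroup (Fin 2) F → ℂ)
    (hχ : IsIrrCharacter (Matrix.SpecialLinearGroup (Fin 2) F) χ) :
    ∃ ω : ℂ, (ω = 1 ∨ ω = -1) ∧ ∀ g, χ (negOne * g) = ω * χ g := by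
  have h1 := Kernel.norm_eq_of_mem_center hχ (negOne_mem_center (F := F))
  obtain ⟨ω, hω, -, -⟩ := Kernel.exists_scalar_of_norm_eq (isCharacter_of_irr hχ) h1
  refine ⟨ω, ?_, hω⟩
  have h2 := hω (negOne * 1)
  rw [hω 1, ← mul_assoc, negOne_mul_self, one_mul] at h2
  have h3 : χ 1 ≠ 0 := irr_apply_one_ne_zero hχ
  have h4 : (ω - 1) * (ω + 1) = 0 := by
    have h5 : χ 1 * ((ω - 1) * (ω + 1)) = 0 := by linear_combination -h2
    rcases mul_eq_zero.1 h5 with h6 | h6
    · exact absurd h6 h3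
    · exact h6
  rcases mul_eq_zero.1 h4 with h | h
  · left; linear_combination h
  · right; linear_combination h

/-- The squared norm of a cuspidal irreducible character on the unipotent subgroup. -/
theorem sum_u_norm_cusp (χ : Matrix.SpecialLinearGroup (Fin 2) F → ℂ)
    (hχ : IsIrrCharacter (Matrix.SpecialLinearGroup (Fin 2) F) χ)
    (ha : (Fintype.card F : ℂ)⁻¹ * ∑ x : F, χ (uSL x) = 0) :
    ∑ x : F, χ (uSL x) * conj (χ (uSL x)) = (Fintype.card F : ℂ) * χ 1 := by
  obtain ⟨ψ₀, hψ₀⟩ := exists_primitive (F := F)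
  obtain ⟨m, hm, hm1, -, hdeg, hval, ha'⟩ := sl_data ψ₀ hψ₀ χ hχ
  have hm0 : m 0 = 0 := by
    rw [ha] at ha'
    exact_mod_cast ha'.symm
  have hmm : ∀ t : F, m t * m t = m t := by
    intro t
    by_cases ht : t = 0
    · rw [ht, hm0]
    · have := hm1 t ht
      have h' : m t = 0 ∨ m t = 1 := by omega
      rcases h' with h' | h' <;> rw [h']
  have hq0 := card_ne_zero' (F := F)
  have hmu : ∀ t : F, ∑ x : F, χ (uSL x) * conj (ψ₀ (t * x)) = (Fintype.card F : ℂ) * m t := by
    intro t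
    have := hm t
    rw [mu_def] at this
    rw [← this]
    field_simp
  have h1 : ∀ x : F, χ (uSL x) * conj (χ (uSL x)) =
      ∑ t : F, (m t : ℂ) * (χ (uSL x) * conj (ψ₀ (t * x))) := by
    intro x
    nth_rewrite 2 [hval x]
    rw [map_sum, Finset.mul_sum]
    apply Finset.sum_congr rfl
    intro t _
    rw [map_mul, Complex.conj_natCast]
    ring
  simp_rw [h1]
  rw [Finset.sum_comm]
  simp_rw [← Finset.mul_sum, hmu]
  rw [hdeg]
  push_cast
  rw [Finset.mul_sum]
  apply Finset.sum_congr rfl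
  intro t _
  have := hmm t
  have h2 : (m t : ℂ) * (m t : ℂ) = (m t : ℂ) := by exact_mod_cast this
  linear_combination (Fintype.card F : ℂ) * h2

end cusp

section cusptorus

variable {F : Type*} [Field F] [Fintype F] [DecidableEq F]
variable {K : Type*} [Field K] [Algebra F K] [Finite K]
variable (h2 : Module.finrank F K = 2) (b : Module.Basis (Fin 2) F K)

/-- The squared norm of a cuspidal irreducible character on the torus. -/
theorem cusp_torus_norm [Fintype (torus h2 b)] (hodd : Odd (Fintype.card F)) (p : ℕ)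
    [Fact p.Prime] [CharP F p] (χ : Matrix.SpecialLinearGroup (Fin 2) F → ℂ)
    (hχ : IsIrrCharacter (Matrix.SpecialLinearGroup (Fin 2) F) χ)
    (ha : (Fintype.card F : ℂ)⁻¹ * ∑ x : F, χ (uSL x) = 0) :
    ((Fintype.card F : ℂ) - 1) * ∑ c : torus h2 b, χ c * conj (χ c) =
      2 * ((Fintype.card F : ℂ) + 1) * (χ 1 ^ 2 - 2 * χ 1 + (Fintype.card F : ℂ) - 1) := by
  have hcl := char_isClassFunction (isCharacter_of_irr hχ)
  obtain ⟨ω, hω, hωg⟩ := central_char χ hχ
  have hωω : ω * conj ω = 1 := by rcases hω with rfl | rfl <;> simp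
  have hq0 := card_ne_zero' (F := F)
  have hq1 := card_sub_one_ne_zero (F := F)
  have hcl2 : IsClassFunction (Matrix.SpecialLinearGroup (Fin 2) F)
      (fun g => χ g * conj (χ g)) := by
    intro g h
    simp only
    rw [hcl g h]
  have hvan : ∀ (t : Fˣ) (x : F), (t : F) ≠ ((t⁻¹ : Fˣ) : F) →
      (fun g => χ g * conj (χ g)) (bmSL (t, x) : Matrix.SpecialLinearGroup (Fin 2) F) = 0 := by
    intro t x ht
    simp only
    rw [cusp_vanish χ hχ ha t x ht, zero_mul]
  have key := two_mul_sum_eq h2 b hodd p (fun g => χ g * conj (χ g)) hcl2 hvan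
  have hneg : ∀ g, χ (negOne * g) * conj (χ (negOne * g)) = χ g * conj (χ g) := by
    intro g
    rw [hωg, map_mul]
    linear_combination (χ g * conj (χ g)) * hωω
  have hnorm := NormOne.inner_self_eq_one_of_irr hχ
  unfold classInner at hnorm
  have hsumG : ∑ g : Matrix.SpecialLinearGroup (Fin 2) F, χ g * conj (χ g) =
      (Fintype.card F : ℂ) * ((Fintype.card F : ℂ) ^ 2 - 1) := by
    rw [← card_SL2_cast]
    have hG : (Nat.card (Matrix.SpecialLinearGroup (Fin 2) F) : ℂ) ≠ 0 := by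
      exact_mod_cast (Nat.card_pos (α := Matrix.SpecialLinearGroup (Fin 2) F)).ne'
    field_simp at hnorm
    exact hnorm
  have hconj1 : conj (χ 1) = χ 1 := by
    obtain ⟨n, hn⟩ := char_exists_apply_one (isCharacter_of_irr hχ)
    rw [hn, Complex.conj_natCast]
  have hneg1 : χ negOne * conj (χ negOne) = χ 1 * χ 1 := by
    have := hneg 1
    rw [mul_one] at this
    rw [this, hconj1]
  simp_rw [hneg] at key
  rw [hsumG, sum_u_norm_cusp χ hχ ha, hneg1, hconj1] at key
  have h3 : (Fintype.card F : ℂ) * (((Fintype.card F : ℂ) - 1) *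
      ∑ c : torus h2 b, χ c * conj (χ c) -
      2 * ((Fintype.card F : ℂ) + 1) * (χ 1 ^ 2 - 2 * χ 1 + (Fintype.card F : ℂ) - 1)) = 0 := by
    linear_combination -key
  rcases mul_eq_zero.1 h3 with h4 | h4
  · exact absurd h4 hq0
  · linear_combination h4

/-- The sum of a cuspidal irreducible character over the torus. -/
theorem cusp_torus_sum [Fintype (torus h2 b)] (hodd : Odd (Fintype.card F)) (p : ℕ)
    [Fact p.Prime] [CharP F p] (χ : Matrix.SpecialLinearGroup (Fin 2) F → ℂ)
    (hχ : IsIrrCharacter (Matrix.SpecialLinearGroup (Fin 2) F) χ)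
    (ha : (Fintype.card F : ℂ)⁻¹ * ∑ x : F, χ (uSL x) = 0) (ω : ℂ)
    (hωg : ∀ g, χ (negOne * g) = ω * χ g) :
    ((Fintype.card F : ℂ) - 1) * ∑ c : torus h2 b, χ c =
      ((Fintype.card F : ℂ) + 1) * (1 + ω) * χ 1 := by
  have hcl := char_isClassFunction (isCharacter_of_irr hχ)
  have hq0 := card_ne_zero' (F := F)
  have key := two_mul_sum_eq h2 b hodd p χ hcl (cusp_vanish χ hχ ha)
  have hsumu : ∑ x : F, χ (uSL x) = 0 := by
    rcases mul_eq_zero.1 ha with h | h
    · exact absurd (inv_eq_zero.1 h) hq0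
    · exact h
  have hne : χ ≠ fun _ => 1 := by
    intro h
    rw [h] at hsumu
    simp at hsumu
  have horth := irr_orthonormal (⟨χ, hχ⟩ : IrrCharacter (Matrix.SpecialLinearGroup (Fin 2) F))
    ⟨fun _ => 1, Ops.isIrrCharacter_one⟩
  rw [if_neg (fun h => hne (congrArg Subtype.val h))] at horth
  unfold classInner at horth
  simp only [map_one, mul_one] at horth
  have hsumG : ∑ g : Matrix.SpecialLinearGroup (Fin 2) F, χ g = 0 := by
    have hG : (Nat.card (Matrix.SpecialLinearGroup (Fin 2) F) : ℂ) ≠ 0 := by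
      exact_mod_cast (Nat.card_pos (α := Matrix.SpecialLinearGroup (Fin 2) F)).ne'
    rcases mul_eq_zero.1 horth with h | h
    · exact absurd (inv_eq_zero.1 h) hG
    · exact h
  have hnegone : χ negOne = ω * χ 1 := by
    have := hωg 1
    rwa [mul_one] at this
  simp_rw [hωg] at key
  rw [hsumG, ← Finset.mul_sum, hsumu, hnegone] at key
  have h3 : (Fintype.card F : ℂ) * (((Fintype.card F : ℂ) - 1) * ∑ c : torus h2 b, χ c -
      ((Fintype.card F : ℂ) + 1) * (1 + ω) * χ 1) = 0 := by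
    linear_combination -key
  rcases mul_eq_zero.1 h3 with h4 | h4
  · exact absurd h4 hq0
  · linear_combination h4

/-- A class function takes the same value at an element of the torus and at its inverse. -/
theorem torus_inv_eq (Φ : Matrix.SpecialLinearGroup (Fin 2) F → ℂ)
    (hcl : IsClassFunction (Matrix.SpecialLinearGroup (Fin 2) F) Φ)
    (c : Matrix.SpecialLinearGroup (Fin 2) F) (hc : c ∈ torus h2 b) : Φ c⁻¹ = Φ c := by
  by_cases h1 : c = 1
  · rw [h1, inv_one]
  by_cases hneg : c = negOne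
  · rw [hneg, negOne_inv]
  obtain ⟨w, hw⟩ := exists_inverting h2 b c hc h1 hneg
  rw [← hw]
  exact hcl c w

end cusptorus

end Cfsg.Agent.H41
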