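import Mathlib
import Cfsg.Agent.H41.SL2Cusp
import Cfsg.Agent.H41.SL2ConjTorus
import Cfsg.Agent.Lib.Helper26.GenChar

set_option autoImplicit false
set_option linter.unusedSimpArgs false
set_option linter.unusedSectionVars false
set_option linter.unusedVariables false
set_option linter.style.haveILetI false

namespace Cfsg.Agent.H41

open Matrix Cfsg Cfsg.Agent.Lib.CT Cfsg.Agent.Lib.CT.Wedderburn Cfsg.Agent.Lib.CT.FrobRec
  Cfsg.Agent.Lib.Helper39.GL2Inst Cfsg.Agent.Lib.Helper39.PSInst Cfsg.Agent.Lib.Helper39.SL2PS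
  Cfsg.Agent.Lib.Helper39.SL2T1 Cfsg.Agent.Lib.Helper39.SL2Tri Cfsg.Agent.Lib.Helper39.UMult
  Cfsg.Agent.Lib.Helper39.UBorel Cfsg.Agent.Lib.Helper39.GL2T1
open scoped ComplexConjugate

section exist1

variable {F : Type*} [Field F]

theorem e1_ne_zero : (![1, 0] : Fin 2 → F) ≠ 0 := by
  intro h
  have := congrFun h 0
  simp at this

theorem upper_eigenvector (g : Matrix.SpecialLinearGroup (Fin 2) F) (h10 : ent g 1 0 = 0) :
    (g : Matrix (Fin 2) (Fin 2) F).mulVec ![1, 0] = ent g 0 0 • ![1, 0] := by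
  ext i
  fin_cases i
  · simp [Matrix.mulVec, dotProduct, Fin.sum_univ_two]
  · simpa [Matrix.mulVec, dotProduct, Fin.sum_univ_two] using h10

variable [Fintype F] [DecidableEq F]

/-- The principal series function at an upper triangular element with different diagonal
entries. -/
theorem slPS_bmSL (α : MulChar F ℂ) (t : Fˣ) (x : F) (ht : (t : F) ≠ ((t⁻¹ : Fˣ) : F)) :
    slPS α (bmSL (t, x)) = α (t : F) + α ((t⁻¹ : Fˣ) : F) := by
  have hcl : IsClassFunction (Matrix.SpecialLinearGroup (Fin 2) F) (slPS α) :=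
    char_isClassFunction (isCharacter_slPS α)
  have h1 : slPS α (bmSL (t, x)) = slPS α (bmSL (t, 0)) :=
    classFunction_diag (mSL F) mSL_injective (BSL F) uSL mSL_u
      (fun t : Fˣ => (t : F)) (fun t : Fˣ => ((t⁻¹ : Fˣ) : F)) bmSL mSL_bmSL (slPS α) hcl t x ht
  rw [h1, slPS_apply]
  have e00 : ((bmSL (t, (0 : F)) : BSL F) : Matrix.SpecialLinearGroup (Fin 2) F).1 0 0 = (t : F) :=
    rfl
  have e01 : ((bmSL (t, (0 : F)) : BSL F) : Matrix.SpecialLinearGroup (Fin 2) F).1 0 1 = 0 := rfl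
  have e10 : ((bmSL (t, (0 : F)) : BSL F) : Matrix.SpecialLinearGroup (Fin 2) F).1 1 0 = 0 := rfl
  have e11 : ((bmSL (t, (0 : F)) : BSL F) : Matrix.SpecialLinearGroup (Fin 2) F).1 1 1 =
      ((t⁻¹ : Fˣ) : F) := rfl
  rw [e00, e01, e10, e11, if_pos rfl]
  congr 1
  rw [Finset.sum_eq_single 0]
  · simp
  · intro s _ hs
    rw [if_neg]
    intro h
    apply hs
    have hne : ((t⁻¹ : Fˣ) : F) - (t : F) ≠ 0 := sub_ne_zero.2 (Ne.symm ht)
    have h' : (((t⁻¹ : Fˣ) : F) - (t : F)) * s = 0 := by linear_combination h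
    rcases mul_eq_zero.1 h' with h'' | h''
    · exact absurd h'' hne
    · exact h''
  · intro h
    exact absurd (Finset.mem_univ _) h

end exist1

section exist2

variable {F : Type*} [Field F] [Fintype F] [DecidableEq F]
variable {K : Type*} [Field K] [Algebra F K] [Finite K]
variable (h2 : Module.finrank F K = 2) (b : Module.Basis (Fin 2) F K)

/-- The function induced from a homomorphism on the torus, at `-g`. -/
theorem indFun_torus_negOne_mul (θ : torus h2 b →* ℂˣ)
    (g : Matrix.SpecialLinearGroup (Fin 2) F) :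
    indFun (torus h2 b) (fun c => ((θ c : ℂˣ) : ℂ)) (negOne * g) =
      ((θ ⟨negOne, negOne_mem_torus h2 b⟩ : ℂˣ) : ℂ) *
        indFun (torus h2 b) (fun c => ((θ c : ℂˣ) : ℂ)) g := by
  rw [indFun_apply, indFun_apply]
  have hsum : ∑ x : Matrix.SpecialLinearGroup (Fin 2) F,
      extendByZero (torus h2 b) (fun c => ((θ c : ℂˣ) : ℂ)) (x⁻¹ * (negOne * g) * x) =
      ((θ ⟨negOne, negOne_mem_torus h2 b⟩ : ℂˣ) : ℂ) *
        ∑ x : Matrix.SpecialLinearGroup (Fin 2) F,
          extendByZero (torus h2 b) (fun c => ((θ c : ℂˣ) : ℂ)) (x⁻¹ * g * x) := by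
    rw [Finset.mul_sum]
    apply Finset.sum_congr rfl
    intro x _
    have e : x⁻¹ * (negOne * g) * x = negOne * (x⁻¹ * g * x) := by
      calc x⁻¹ * (negOne * g) * x = (x⁻¹ * negOne) * (g * x) := by group
        _ = (negOne * x⁻¹) * (g * x) := by rw [negOne_comm x⁻¹]
        _ = negOne * (x⁻¹ * g * x) := by group
    by_cases hx : x⁻¹ * g * x ∈ torus h2 b
    · rw [e, extendByZero_apply_of_mem _ _ ((torus h2 b).mul_mem (negOne_mem_torus h2 b) hx),
        extendByZero_apply_of_mem _ _ hx]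
      have e2 : (⟨negOne * (x⁻¹ * g * x), (torus h2 b).mul_mem (negOne_mem_torus h2 b) hx⟩ :
          torus h2 b) = ⟨negOne, negOne_mem_torus h2 b⟩ * ⟨x⁻¹ * g * x, hx⟩ := rfl
      rw [e2, map_mul, Units.val_mul]
    · have hx' : negOne * (x⁻¹ * g * x) ∉ torus h2 b := by
        intro h'
        apply hx
        have := (torus h2 b).mul_mem (negOne_mem_torus h2 b) h'
        rwa [← mul_assoc, negOne_mul_self, one_mul] at this
      rw [e, extendByZero_apply_of_not_mem _ _ hx', extendByZero_apply_of_not_mem _ _ hx,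
        mul_zero]
  rw [hsum]
  ring

/-- Existence of the cuspidal character attached to a character `θ` of the torus with
`θ² ≠ 1`. -/
theorem exists_cusp_torus (hodd : Odd (Fintype.card F)) (p : ℕ) [Fact p.Prime] [CharP F p]
    (θ : torus h2 b →* ℂˣ) (hθ : ∃ c, θ c ^ 2 ≠ 1) :
    ∃ χ : Matrix.SpecialLinearGroup (Fin 2) F → ℂ,
      IsIrrCharacter (Matrix.SpecialLinearGroup (Fin 2) F) χ ∧
      χ 1 = (Fintype.card F : ℂ) - 1 ∧
      (∀ c : torus h2 b, (c : Matrix.SpecialLinearGroup (Fin 2) F) ≠ 1 →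
        (c : Matrix.SpecialLinearGroup (Fin 2) F) ≠ negOne →
        χ c = -(((θ c : ℂˣ) : ℂ) + ((θ c⁻¹ : ℂˣ) : ℂ))) ∧
      (∀ g, χ (negOne * g) = ((θ ⟨negOne, negOne_mem_torus h2 b⟩ : ℂˣ) : ℂ) * χ g) ∧
      (∀ (t : Fˣ) (x : F), (t : F) ≠ ((t⁻¹ : Fˣ) : F) → χ (bmSL (t, x)) = 0) ∧
      (∀ x : F, x ≠ 0 → χ (uSL x) = -1) := by
  classical
  haveI : Fintype (torus h2 b) := Fintype.ofFinite _
  have h2F : (2 : F) ≠ 0 := two_ne_zero_of_odd_card hodd
  have hq0 := card_ne_zero' (F := F)
  have hq1 := card_sub_one_ne_zero (F := F)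
  have hq2 := card_add_one_ne_zero (F := F)
  obtain ⟨z, hz⟩ : ∃ z : torus h2 b, z = ⟨negOne, negOne_mem_torus h2 b⟩ := ⟨_, rfl⟩
  have hz2 : z * z = 1 := by
    rw [hz]
    exact Subtype.ext negOne_mul_self
  have hz1 : z ≠ 1 := by
    rw [hz]
    exact fun h => negOne_ne_one h2F (congrArg Subtype.val h)
  obtain ⟨ε, hε⟩ : ∃ ε : ℂ, ε = ((θ z : ℂˣ) : ℂ) := ⟨_, rfl⟩
  have hεε : ε * ε = 1 := by
    rw [hε, ← Units.val_mul, ← map_mul, hz2, map_one]
    rfl
  have hε1 : ε = 1 ∨ ε = -1 := by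
    have h3 : (ε - 1) * (ε + 1) = 0 := by linear_combination hεε
    rcases mul_eq_zero.1 h3 with h | h
    · left; linear_combination h
    · right; linear_combination h
  have hεc : conj ε = ε := by
    rcases hε1 with h | h <;> rw [h] <;> simp
  obtain ⟨α, hα⟩ : ∃ α : MulChar F ℂ, α (-1) = ε := by
    rcases hε1 with h | h
    · exact ⟨1, by rw [h, MulChar.one_apply (isUnit_one.neg)]⟩
    · have hne : (-1 : F) ≠ 1 := by
        intro h'
        apply h2F
        linear_combination -h'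
      obtain ⟨α, hα⟩ := MulChar.exists_apply_ne_one_of_hasEnoughRootsOfUnity F ℂ hne
      refine ⟨α, ?_⟩
      have hsq : α (-1) * α (-1) = 1 := by
        rw [← map_mul]
        simp
      have h3 : (α (-1) - 1) * (α (-1) + 1) = 0 := by linear_combination hsq
      rcases mul_eq_zero.1 h3 with h' | h'
      · exact absurd (by linear_combination h') hα
      · rw [h]
        linear_combination h'
  obtain ⟨θ', hθ'⟩ : ∃ θ' : torus h2 b → ℂ, θ' = fun c => ((θ c : ℂˣ) : ℂ) := ⟨_, rfl⟩
  have hθ'a : ∀ c, θ' c = ((θ c : ℂˣ) : ℂ) := fun c => by rw [hθ']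
  have hθ'1 : θ' 1 = 1 := by rw [hθ'a, map_one]; rfl
  have hθ'mul : ∀ c d, θ' (c * d) = θ' c * θ' d := by
    intro c d
    rw [hθ'a, hθ'a, hθ'a, map_mul, Units.val_mul]
  have hθ'char : IsCharacter (torus h2 b) θ' := by
    rw [hθ']
    exact LinChar.isCharacter_of_hom θ
  have hθ'inv : ∀ c, conj (θ' c) = θ' c⁻¹ := fun c =>
    (LinChar.linear_apply_inv_eq_conj hθ'char hθ'1 c).symm
  have hθ'minv : ∀ c, θ' c * θ' c⁻¹ = 1 := by
    intro c
    rw [← hθ'mul, mul_inv_cancel, hθ'1]
  obtain ⟨I, hI⟩ : ∃ I : Matrix.SpecialLinearGroup (Fin 2) F → ℂ,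
      I = indFun (torus h2 b) θ' := ⟨_, rfl⟩
  obtain ⟨V, hV⟩ : ∃ V : Matrix.SpecialLinearGroup (Fin 2) F → ℂ,
      V = fun g => slPS (1 : MulChar F ℂ) g * slPS α g - 2 * slPS α g - I g := ⟨_, rfl⟩
  have hVa : ∀ g, V g = slPS (1 : MulChar F ℂ) g * slPS α g - 2 * slPS α g - I g :=
    fun g => by rw [hV]
  have hclα : IsClassFunction (Matrix.SpecialLinearGroup (Fin 2) F) (slPS α) :=
    char_isClassFunction (isCharacter_slPS α)
  have hcl1 : IsClassFunction (Matrix.SpecialLinearGroup (Fin 2) F) (slPS (1 : MulChar F ℂ)) :=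
    char_isClassFunction (isCharacter_slPS 1)
  have hIchar : IsCharacter (Matrix.SpecialLinearGroup (Fin 2) F) I := by
    rw [hI]
    exact IndChar.isCharacter_indFun _ _ hθ'char
  have hclI : IsClassFunction (Matrix.SpecialLinearGroup (Fin 2) F) I :=
    char_isClassFunction hIchar
  have hclV : IsClassFunction (Matrix.SpecialLinearGroup (Fin 2) F) V := by
    intro g h
    rw [hVa, hVa, hcl1 g h, hclα g h, hclI g h]
  have hgen : IsGeneralizedCharacter (Matrix.SpecialLinearGroup (Fin 2) F) V := by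
    refine ⟨slPS (1 : MulChar F ℂ) * slPS α, (fun g => ((2 : ℕ) : ℂ) * slPS α g) + I,
      Ops.isCharacter_mul (isCharacter_slPS 1) (isCharacter_slPS α),
      Ops.isCharacter_add (Ops.isCharacter_natCast_mul (isCharacter_slPS α) 2) hIchar, ?_⟩
    funext g
    rw [hVa]
    simp only [Pi.sub_apply, Pi.mul_apply, Pi.add_apply]
    push_cast
    ring
  have hV1 : V 1 = (Fintype.card F : ℂ) - 1 := by
    rw [hVa, slPS_one, slPS_one, hI, indFun_torus_one, hθ'1]
    ring
  have hVneg : ∀ g, V (negOne * g) = ε * V g := by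
    intro g
    rw [hVa, hVa, slPS_one_negOne_mul, slPS_negOne_mul, hα, hI, hθ', indFun_torus_negOne_mul, hε,
      hz]
    ring
  have hVu : ∀ x : F, x ≠ 0 → V (uSL x) = -1 := by
    intro x hx
    have hu1 : (uSL x : Matrix.SpecialLinearGroup (Fin 2) F) ≠ 1 := by
      intro h'
      have h3 := congrArg (fun g : Matrix.SpecialLinearGroup (Fin 2) F => ent g 0 1) h'
      simp only [sl2_one01] at h3
      exact hx h3
    have hu2 : (uSL x : Matrix.SpecialLinearGroup (Fin 2) F) ≠ negOne := by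
      intro h'
      have h3 := congrArg (fun g : Matrix.SpecialLinearGroup (Fin 2) F => ent g 0 1) h'
      simp only [negOne, mkSL01] at h3
      exact hx h3
    rw [hVa, slPS_u 1 x hx, slPS_u α x hx, hI,
      indFun_torus_eq_zero h2 b θ' (uSL x) hu1 hu2 _ ![1, 0] e1_ne_zero
        (upper_eigenvector (uSL x) rfl)]
    ring
  have hVs : ∀ (t : Fˣ) (x : F), (t : F) ≠ ((t⁻¹ : Fˣ) : F) →
      V (bmSL (t, x) : Matrix.SpecialLinearGroup (Fin 2) F) = 0 := by
    intro t x ht
    have hb1 : (bmSL (t, x) : Matrix.SpecialLinearGroup (Fin 2) F) ≠ 1 := by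
      intro h'
      apply ht
      have h3 : (t : F) = ent (1 : Matrix.SpecialLinearGroup (Fin 2) F) 0 0 :=
        congrArg (fun g : Matrix.SpecialLinearGroup (Fin 2) F => ent g 0 0) h'
      have h4 : ((t⁻¹ : Fˣ) : F) = ent (1 : Matrix.SpecialLinearGroup (Fin 2) F) 1 1 :=
        congrArg (fun g : Matrix.SpecialLinearGroup (Fin 2) F => ent g 1 1) h'
      rw [h3, h4, sl2_one00, sl2_one11]
    have hb2 : (bmSL (t, x) : Matrix.SpecialLinearGroup (Fin 2) F) ≠ negOne := by
      intro h'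
      apply ht
      have h3 : (t : F) = ent (negOne : Matrix.SpecialLinearGroup (Fin 2) F) 0 0 :=
        congrArg (fun g : Matrix.SpecialLinearGroup (Fin 2) F => ent g 0 0) h'
      have h4 : ((t⁻¹ : Fˣ) : F) = ent (negOne : Matrix.SpecialLinearGroup (Fin 2) F) 1 1 :=
        congrArg (fun g : Matrix.SpecialLinearGroup (Fin 2) F => ent g 1 1) h'
      rw [h3, h4]
      rfl
    rw [hVa, slPS_bmSL 1 t x ht, hI,
      indFun_torus_eq_zero h2 b θ' _ hb1 hb2 _ ![1, 0] e1_ne_zero
        (upper_eigenvector (bmSL (t, x) : Matrix.SpecialLinearGroup (Fin 2) F) rfl),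
      MulChar.one_apply t.isUnit, MulChar.one_apply (t⁻¹).isUnit]
    ring
  have hVT : ∀ c : torus h2 b, (c : Matrix.SpecialLinearGroup (Fin 2) F) ≠ 1 →
      (c : Matrix.SpecialLinearGroup (Fin 2) F) ≠ negOne → V c = -(θ' c + θ' c⁻¹) := by
    intro c hc1 hcneg
    have hno := torus_no_eigenvector h2 b c c.2 hc1 hcneg
    rw [hVa, slPS_elliptic (1 : MulChar F ℂ) (c : Matrix.SpecialLinearGroup (Fin 2) F) hno,
      slPS_elliptic α (c : Matrix.SpecialLinearGroup (Fin 2) F) hno, hI,
      indFun_torus_regular h2 b hodd θ' c c.2 hc1 hcneg]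
    have e2 : (⟨(c : Matrix.SpecialLinearGroup (Fin 2) F)⁻¹, (torus h2 b).inv_mem c.2⟩ :
        torus h2 b) = c⁻¹ := rfl
    rw [e2]
    ring
  have hconjq : conj ((Fintype.card F : ℂ) - 1) = (Fintype.card F : ℂ) - 1 := by simp
  have hnormV : classInner V V = 1 := by
    have hΦcl : IsClassFunction (Matrix.SpecialLinearGroup (Fin 2) F)
        (fun g => V g * conj (V g)) := by
      intro g h
      simp only
      rw [hclV g h]
    have hΦvan : ∀ (t : Fˣ) (x : F), (t : F) ≠ ((t⁻¹ : Fˣ) : F) →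
        (fun g => V g * conj (V g)) (bmSL (t, x) : Matrix.SpecialLinearGroup (Fin 2) F) = 0 := by
      intro t x ht
      simp only
      rw [hVs t x ht, zero_mul]
    have key := two_mul_sum_eq h2 b hodd p (fun g => V g * conj (V g)) hΦcl hΦvan
    have hneg : ∀ g, V (negOne * g) * conj (V (negOne * g)) = V g * conj (V g) := by
      intro g
      rw [hVneg, map_mul, hεc]
      linear_combination (V g * conj (V g)) * hεε
    simp_rw [hneg] at key
    have hsumu : ∑ x : F, V (uSL x) * conj (V (uSL x)) =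
        ((Fintype.card F : ℂ) - 1) ^ 2 + ((Fintype.card F : ℂ) - 1) := by
      rw [← Finset.add_sum_erase Finset.univ _ (Finset.mem_univ (0 : F)), uSL_zero', hV1, hconjq]
      have h3 : ∑ x ∈ Finset.univ.erase (0 : F), V (uSL x) * conj (V (uSL x)) =
          ∑ x ∈ Finset.univ.erase (0 : F), (1 : ℂ) := by
        apply Finset.sum_congr rfl
        intro x hx
        rw [hVu x (Finset.ne_of_mem_erase hx)]
        simp
      rw [h3, Finset.sum_const, Finset.card_erase_of_mem (Finset.mem_univ _), Finset.card_univ,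
        nsmul_eq_mul, mul_one, Nat.cast_sub Fintype.card_pos]
      push_cast
      ring
    have hΦneg : V negOne * conj (V negOne) = ((Fintype.card F : ℂ) - 1) ^ 2 := by
      have h3 := hneg 1
      rw [mul_one] at h3
      rw [h3, hV1, hconjq]
      ring
    have hzneg : (z : Matrix.SpecialLinearGroup (Fin 2) F) = negOne := by rw [hz]
    have hθz2 : θ' z ^ 2 = 1 := by
      rw [sq, ← hθ'mul, hz2, hθ'1]
    have hzinv : z⁻¹ = z := inv_eq_of_mul_eq_one_left hz2
    have hsumsq : ∑ c : torus h2 b, θ' c ^ 2 = 0 := by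
      obtain ⟨c₀, hc₀⟩ := hθ
      have hc₀' : θ' c₀ ^ 2 ≠ 1 := by
        intro h'
        apply hc₀
        apply Units.ext
        rw [Units.val_pow_eq_pow_val, ← hθ'a, h']
        rfl
      have h3 : θ' c₀ ^ 2 * ∑ c : torus h2 b, θ' c ^ 2 = ∑ c : torus h2 b, θ' c ^ 2 := by
        rw [Finset.mul_sum, ← Equiv.sum_comp (Equiv.mulLeft c₀) (fun c => θ' c ^ 2)]
        apply Finset.sum_congr rfl
        intro c _
        simp only [Equiv.coe_mulLeft]
        rw [hθ'mul]
        ring
      have h4 : (θ' c₀ ^ 2 - 1) * ∑ c : torus h2 b, θ' c ^ 2 = 0 := by linear_combination h3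
      rcases mul_eq_zero.1 h4 with h5 | h5
      · exact absurd (by linear_combination h5) hc₀'
      · exact h5
    have hsumsq' : ∑ c : torus h2 b, θ' c⁻¹ ^ 2 = 0 := by
      rw [← hsumsq]
      exact Equiv.sum_comp (Equiv.inv (torus h2 b)) (fun c => θ' c ^ 2)
    have hsumT : ∑ c : torus h2 b, V c * conj (V c) =
        2 * ((Fintype.card F : ℂ) - 1) ^ 2 + 2 * ((Fintype.card F : ℂ) + 1) - 8 := by
      have hpt : ∀ c : torus h2 b, V c * conj (V c) = (2 + θ' c ^ 2 + θ' c⁻¹ ^ 2) +
          (if c = 1 ∨ c = z then ((Fintype.card F : ℂ) - 1) ^ 2 - 4 else 0) := by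
        intro c
        by_cases hc1 : c = 1
        · rw [hc1, if_pos (Or.inl rfl)]
          simp only [Subgroup.coe_one, inv_one]
          rw [hV1, hconjq, hθ'1]
          ring
        by_cases hcz : c = z
        · rw [hcz, if_pos (Or.inr rfl), hzinv, hzneg, hΦneg, hθz2]
          ring
        · have hc1' : (c : Matrix.SpecialLinearGroup (Fin 2) F) ≠ 1 := fun h => hc1 (Subtype.ext h)
          have hcz' : (c : Matrix.SpecialLinearGroup (Fin 2) F) ≠ negOne := by
            intro h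
            apply hcz
            apply Subtype.ext
            rw [h, hzneg]
          rw [if_neg (by tauto), add_zero, hVT c hc1' hcz', map_neg, map_add, hθ'inv, hθ'inv,
            inv_inv]
          linear_combination 2 * hθ'minv c
      simp_rw [hpt]
      rw [Finset.sum_add_distrib, Finset.sum_add_distrib, Finset.sum_add_distrib, hsumsq, hsumsq']
      have h5 : ∑ c : torus h2 b, (2 : ℂ) = 2 * ((Fintype.card F : ℂ) + 1) := by
        rw [Finset.sum_const, Finset.card_univ, ← Nat.card_eq_fintype_card, card_torus]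
        push_cast
        ring
      have h6 : ∑ c : torus h2 b, (if c = 1 ∨ c = z then ((Fintype.card F : ℂ) - 1) ^ 2 - 4 else 0)
          = 2 * (((Fintype.card F : ℂ) - 1) ^ 2 - 4) := by
        rw [← Finset.sum_filter]
        have h7 : Finset.univ.filter (fun c : torus h2 b => c = 1 ∨ c = z) = {1, z} := by
          ext c
          simp
        rw [h7, Finset.sum_pair (Ne.symm hz1)]
        ring
      rw [h5, h6]
      ring
    rw [hsumu, hV1, hconjq, hΦneg, hsumT] at key
    unfold classInner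
    rw [card_SL2_cast]
    have h8 : ∑ g : Matrix.SpecialLinearGroup (Fin 2) F, V g * conj (V g) =
        (Fintype.card F : ℂ) * ((Fintype.card F : ℂ) ^ 2 - 1) := by
      linear_combination (1 / 2 : ℂ) * key
    rw [h8]
    have h9 : (Fintype.card F : ℂ) ^ 2 - 1 ≠ 0 := by
      have : (Fintype.card F : ℂ) ^ 2 - 1 = ((Fintype.card F : ℂ) - 1) * ((Fintype.card F : ℂ) + 1) := by
        ring
      rw [this]
      exact mul_ne_zero hq1 hq2
    field_simp
  obtain ⟨μ, hμ, hVμ⟩ := Cfsg.Agent.Lib.Helper26.GenChar.eq_irr_or_neg_of_norm_one hgen hnormV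
  have hVirr : IsIrrCharacter (Matrix.SpecialLinearGroup (Fin 2) F) V := by
    rcases hVμ with h | h
    · rw [h]
      exact hμ
    · exfalso
      obtain ⟨n, hn0, hn⟩ := irr_exists_apply_one_pos hμ
      have h3 := congrFun h 1
      rw [hV1, Pi.neg_apply, hn] at h3
      have h4 : ((Fintype.card F + n : ℕ) : ℂ) = ((1 : ℕ) : ℂ) := by
        push_cast
        linear_combination h3
      have h5 : Fintype.card F + n = 1 := by exact_mod_cast h4
      have hq : 1 < Fintype.card F := Fintype.one_lt_card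
      omega
  refine ⟨V, hVirr, hV1, ?_, ?_, hVs, hVu⟩
  · intro c hc1 hcneg
    rw [hVT c hc1 hcneg, hθ'a, hθ'a]
  · intro g
    rw [hVneg, hε, hz]

end exist2

end Cfsg.Agent.H41
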