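import Mathlib
import Cfsg.Agent.H41.SL2Cusp
import Cfsg.Agent.H41.AbRestr
import Cfsg.Agent.H41.SL2ConjTorus

set_option autoImplicit false
set_option linter.unusedSimpArgs false
set_option linter.unusedSectionVars false
set_option linter.unusedVariables false
set_option linter.style.haveILetI false

namespace Cfsg.Agent.H41

open Matrix Cfsg Cfsg.Agent.Lib.CT Cfsg.Agent.Lib.CT.Wedderburn Cfsg.Agent.Lib.CT.FrobRec
  Cfsg.Agent.Lib.Helper39.GL2Inst Cfsg.Agent.Lib.Helper39.PSInst Cfsg.Agent.Lib.Helper39.SL2PS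
  Cfsg.Agent.Lib.Helper39.SL2T1 Cfsg.Agent.Lib.Helper39.SL2Tri Cfsg.Agent.Lib.Helper39.UMult
  Cfsg.Agent.Lib.Helper39.UBorel Cfsg.Agent.Lib.Helper39.GL2T1 Cfsg.Agent.Lib.Helper39.SL2Half
  Cfsg.Agent.Lib.Helper39.SL2Odd
open scoped ComplexConjugate

section helpers

variable {F : Type*} [Field F]

theorem eq_one_of_conj {G : Type*} [Group G] (h g : G) (e : h * g * h⁻¹ = 1) : g = 1 := by
  have e2 : g = h⁻¹ * (h * g * h⁻¹) * h := by group
  rw [e2, e]
  group

theorem conj_negOne' (h : Matrix.SpecialLinearGroup (Fin 2) F) : h * negOne * h⁻¹ = negOne := by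
  have := conj_negOne (h⁻¹ : Matrix.SpecialLinearGroup (Fin 2) F)
  rwa [inv_inv] at this

theorem eq_negOne_of_conj (h g : Matrix.SpecialLinearGroup (Fin 2) F)
    (e : h * g * h⁻¹ = negOne) : g = negOne := by
  have e2 : g = h⁻¹ * (h * g * h⁻¹) * h := by group
  rw [e2, e]
  exact conj_negOne h

end helpers

/-- The values of a cuspidal irreducible character of degree `q - 1` on a cyclic subgroup of
order `q + 1`. -/
theorem cusp_full_value {F : Type*} [Field F] [Fintype F] [DecidableEq F]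
    (hodd : Odd (Fintype.card F))
    (C : Subgroup (Matrix.SpecialLinearGroup (Fin 2) F)) (hC : IsCyclic C)
    (hcard : Nat.card C = Fintype.card F + 1)
    (χ : Matrix.SpecialLinearGroup (Fin 2) F → ℂ)
    (hχ : IsIrrCharacter (Matrix.SpecialLinearGroup (Fin 2) F) χ)
    (hdeg : χ 1 = (Fintype.card F : ℂ) - 1)
    (ha : (Fintype.card F : ℂ)⁻¹ * ∑ x : F, χ (uSL x) = 0) :
    ∃ θ : C →* ℂˣ, (∃ c : C, θ c ^ 2 ≠ 1) ∧
      ∀ c : C, (c : Matrix.SpecialLinearGroup (Fin 2) F) ∉
        Subgroup.center (Matrix.SpecialLinearGroup (Fin 2) F) →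
        χ c = -((θ c).val + (θ c)⁻¹.val) := by
  classical
  have h2F : (2 : F) ≠ 0 := two_ne_zero_of_odd_card hodd
  have hodd' := hodd
  obtain ⟨k, hk⟩ := hodd
  have hq2 : 2 ≤ Fintype.card F := Fintype.one_lt_card
  have hk1 : 1 ≤ k := by omega
  obtain ⟨p, hp⟩ := CharP.exists F
  haveI : Fact p.Prime := ⟨CharP.char_is_prime F p⟩
  haveI : NeZero (2 : ℕ) := ⟨by norm_num⟩
  have h2 : Module.finrank F (FiniteField.Extension F p 2) = 2 :=
    FiniteField.finrank_extension F p 2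
  let b : Module.Basis (Fin 2) F (FiniteField.Extension F p 2) :=
    Module.finBasisOfFinrankEq F _ h2
  haveI : Fintype (torus h2 b) := Fintype.ofFinite _
  haveI : Finite C := Nat.finite_of_card_ne_zero (by rw [hcard]; omega)
  haveI : Fintype C := Fintype.ofFinite _
  obtain ⟨h, hconj⟩ := exists_conj_eq_torus h2 b p C hC hcard
  obtain ⟨ω, hω, hωg⟩ := central_char χ hχ
  have hcl := char_isClassFunction (isCharacter_of_irr hχ)
  have hcl2 : IsClassFunction (Matrix.SpecialLinearGroup (Fin 2) F)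
      (fun g => χ g * conj (χ g)) := by
    intro g h
    simp only
    rw [hcl g h]
  have hN1 := cusp_torus_norm h2 b hodd' p χ hχ ha
  have hN2 := cusp_torus_sum h2 b hodd' p χ hχ ha ω hωg
  have hS1 : ∑ c : C, χ c * conj (χ c) = ∑ t : torus h2 b, χ t * conj (χ t) :=
    sum_conj_subgroup C (torus h2 b) h hconj (fun g => χ g * conj (χ g)) hcl2
  have hS2 : ∑ c : C, χ c = ∑ t : torus h2 b, χ t :=
    sum_conj_subgroup C (torus h2 b) h hconj χ hcl
  rw [← hS1] at hN1
  rw [← hS2] at hN2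
  have hzC : (negOne : Matrix.SpecialLinearGroup (Fin 2) F) ∈ C :=
    (hconj negOne).2 (by rw [conj_negOne']; exact negOne_mem_torus h2 b)
  haveI := hC
  obtain ⟨g₀, hg₀⟩ := IsCyclic.exists_monoid_generator (α := C)
  have hgen : ∀ a : C, ∃ i : ℕ, a = g₀ ^ i := by
    intro a
    obtain ⟨i, hi⟩ := (Submonoid.mem_powers_iff a g₀).1 (hg₀ a)
    exact ⟨i, hi.symm⟩
  have hab : ∀ a b' : C, a * b' = b' * a := by
    intro a b'
    apply Subtype.ext
    have e := torus_comm h2 b _ _ ((hconj a).1 a.2) ((hconj b').1 b'.2)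
    have e1 : (a : Matrix.SpecialLinearGroup (Fin 2) F) * b' =
        h⁻¹ * ((h * a * h⁻¹) * (h * b' * h⁻¹)) * h := by group
    have e2 : (b' : Matrix.SpecialLinearGroup (Fin 2) F) * a =
        h⁻¹ * ((h * b' * h⁻¹) * (h * a * h⁻¹)) * h := by group
    show (a : Matrix.SpecialLinearGroup (Fin 2) F) * b' = b' * a
    rw [e1, e2, e]
  let z : C := ⟨negOne, hzC⟩
  have hz2 : z * z = 1 := Subtype.ext negOne_mul_self
  have hz1 : z ≠ 1 := fun h => negOne_ne_one h2F (congrArg Subtype.val h)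
  let X : C → ℂ := fun c => χ c
  have hX : IsCharacter C X := Ops.isCharacter_restrict C (isCharacter_of_irr hχ)
  have hXz : ∀ a, X (z * a) = ω * X a := fun a => hωg a
  have hXinv : ∀ a : C, X a⁻¹ = X a := by
    intro c
    have e : h * (c : Matrix.SpecialLinearGroup (Fin 2) F)⁻¹ * h⁻¹ = (h * c * h⁻¹)⁻¹ := by group
    show χ (c : Matrix.SpecialLinearGroup (Fin 2) F)⁻¹ = χ c
    calc χ (c : Matrix.SpecialLinearGroup (Fin 2) F)⁻¹
        = χ (h * (c : Matrix.SpecialLinearGroup (Fin 2) F)⁻¹ * h⁻¹) := (hcl _ h).symm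
      _ = χ (h * c * h⁻¹)⁻¹ := by rw [e]
      _ = χ (h * c * h⁻¹) := torus_inv_eq h2 b χ hcl _ ((hconj c).1 c.2)
      _ = χ c := hcl c h
  have hq1 : (Fintype.card F : ℂ) = 2 * k + 1 := by
    rw [hk]
    push_cast
    ring
  have hk0 : (k : ℂ) ≠ 0 := by exact_mod_cast (by omega : k ≠ 0)
  have hk1' : (k : ℂ) + 1 ≠ 0 := by exact_mod_cast (by omega : k + 1 ≠ 0)
  have hk2' : 2 * (k : ℂ) + 1 + 1 ≠ 0 := by
    have : 2 * (k : ℂ) + 1 + 1 = 2 * ((k : ℂ) + 1) := by ring
    rw [this]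
    exact mul_ne_zero two_ne_zero hk1'
  have hXX : classInner X X = 4 * ((k + 1 : ℕ) : ℂ) - 6 := by
    unfold classInner
    rw [hcard]
    rw [hdeg, hq1] at hN1
    have hS : ∑ c : C, χ c * conj (χ c) = 2 * (2 * (k : ℂ) + 1 + 1) * (2 * k - 1) := by
      have h3 : (2 * (k : ℂ)) * (∑ c : C, χ c * conj (χ c) -
          2 * (2 * (k : ℂ) + 1 + 1) * (2 * k - 1)) = 0 := by
        linear_combination hN1
      rcases mul_eq_zero.1 h3 with h | h
      · exact absurd h (mul_ne_zero two_ne_zero hk0)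
      · linear_combination h
    show ((Fintype.card F + 1 : ℕ) : ℂ)⁻¹ * ∑ c : C, χ c * conj (χ c) = _
    rw [hS]
    push_cast
    rw [hq1]
    field_simp
    ring
  have hX0 : classInner X (fun _ => 1) = 1 + ω := by
    unfold classInner
    rw [hcard]
    simp only [map_one, mul_one]
    rw [hdeg, hq1] at hN2
    have hS : ∑ c : C, χ c = (2 * (k : ℂ) + 1 + 1) * (1 + ω) := by
      have h3 : (2 * (k : ℂ)) * (∑ c : C, χ c - (2 * (k : ℂ) + 1 + 1) * (1 + ω)) = 0 := by
        linear_combination hN2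
      rcases mul_eq_zero.1 h3 with h | h
      · exact absurd h (mul_ne_zero two_ne_zero hk0)
      · linear_combination h
    show ((Fintype.card F + 1 : ℕ) : ℂ)⁻¹ * ∑ c : C, χ c = _
    rw [hS]
    push_cast
    rw [hq1]
    field_simp
  have hX1 : X 1 = 2 * ((k + 1 : ℕ) : ℂ) - 2 := by
    show χ 1 = _
    rw [hdeg, hq1]
    push_cast
    ring
  obtain ⟨ψ, hψ, hψ1, ⟨a₀, ha₀⟩, hval⟩ := ab_restr_full (A := C) hab g₀ hgen z hz2 hz1 X hX ω hω
    hXz hXinv (k + 1) (by rw [hcard]; omega) hX1 hXX hX0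
  obtain ⟨θ, hθ⟩ := LinChar.exists_hom_of_isCharacter ψ hψ hψ1
  refine ⟨θ, ⟨a₀, ?_⟩, ?_⟩
  · intro h'
    apply ha₀
    rw [hθ a₀]
    have := congrArg Units.val h'
    simpa using this
  · intro c hc
    have hc1 : c ≠ 1 := fun h' => hc (by rw [h']; exact Subgroup.one_mem _)
    have hcz : c ≠ z := fun h' => hc (by rw [h']; exact negOne_mem_center)
    have h5 := hval c hc1 hcz
    rw [hθ c] at h5
    rw [Units.val_inv_eq_inv_val]
    exact h5

/-- A character vanishing at the elements without eigenvectors, on a cyclic subgroup of order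
`4` when `q = 3`. -/
theorem vanish_three_value {F : Type*} [Field F] [Fintype F] [DecidableEq F]
    (hodd : Odd (Fintype.card F)) (hq3 : Fintype.card F = 3)
    (C : Subgroup (Matrix.SpecialLinearGroup (Fin 2) F)) (hC : IsCyclic C)
    (hcard : Nat.card C = Fintype.card F + 1)
    (χ : Matrix.SpecialLinearGroup (Fin 2) F → ℂ)
    (hvan : ∀ g : Matrix.SpecialLinearGroup (Fin 2) F,
      (∀ (c : F) (v : Fin 2 → F), v ≠ 0 → (g : Matrix (Fin 2) (Fin 2) F).mulVec v ≠ c • v) →
      χ g = 0) :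
    ∃ θ : C →* ℂˣ, (∃ c : C, θ c ^ 2 ≠ 1) ∧
      ∀ c : C, (c : Matrix.SpecialLinearGroup (Fin 2) F) ∉
        Subgroup.center (Matrix.SpecialLinearGroup (Fin 2) F) →
        χ c = -((θ c).val + (θ c)⁻¹.val) := by
  classical
  have h2F : (2 : F) ≠ 0 := two_ne_zero_of_odd_card hodd
  obtain ⟨p, hp⟩ := CharP.exists F
  haveI : Fact p.Prime := ⟨CharP.char_is_prime F p⟩
  haveI : NeZero (2 : ℕ) := ⟨by norm_num⟩
  have h2 : Module.finrank F (FiniteField.Extension F p 2) = 2 :=
    FiniteField.finrank_extension F p 2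
  let b : Module.Basis (Fin 2) F (FiniteField.Extension F p 2) :=
    Module.finBasisOfFinrankEq F _ h2
  haveI : Finite C := Nat.finite_of_card_ne_zero (by rw [hcard]; omega)
  obtain ⟨h, hconj⟩ := exists_conj_eq_torus h2 b p C hC hcard
  have hzC : (negOne : Matrix.SpecialLinearGroup (Fin 2) F) ∈ C :=
    (hconj negOne).2 (by rw [conj_negOne']; exact negOne_mem_torus h2 b)
  let z : C := ⟨negOne, hzC⟩
  have hz2 : z * z = 1 := Subtype.ext negOne_mul_self
  have hz1 : z ≠ 1 := fun h => negOne_ne_one h2F (congrArg Subtype.val h)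
  have hcen : ∀ c : C, (c : Matrix.SpecialLinearGroup (Fin 2) F) ∉
      Subgroup.center (Matrix.SpecialLinearGroup (Fin 2) F) →
      (c : Matrix.SpecialLinearGroup (Fin 2) F) ≠ 1 ∧
      (c : Matrix.SpecialLinearGroup (Fin 2) F) ≠ negOne := by
    intro c hc
    constructor
    · intro h'
      exact hc (by rw [h']; exact Subgroup.one_mem _)
    · intro h'
      exact hc (by rw [h']; exact negOne_mem_center)
  have hsq : ∀ g : Matrix.SpecialLinearGroup (Fin 2) F, g ∈ C → g * g = 1 →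
      g = 1 ∨ g = negOne := by
    intro g hg hgg
    have h3 : (h * g * h⁻¹) * (h * g * h⁻¹) = 1 := by
      have : (h * g * h⁻¹) * (h * g * h⁻¹) = h * (g * g) * h⁻¹ := by group
      rw [this, hgg]
      group
    rcases torus_sq_eq_one h2 b _ ((hconj g).1 hg) h3 with h4 | h4
    · left; exact eq_one_of_conj h g h4
    · right; exact eq_negOne_of_conj h g h4
  have hcc : ∀ c : C, (c : Matrix.SpecialLinearGroup (Fin 2) F) ∉
      Subgroup.center (Matrix.SpecialLinearGroup (Fin 2) F) → c * c = z := by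
    intro c hc
    obtain ⟨hc1, hcneg⟩ := hcen c hc
    have h4 : c ^ 4 = 1 := by
      have := pow_card_eq_one' (G := C) (x := c)
      rw [hcard, hq3] at this
      exact this
    have h5 : ((c : Matrix.SpecialLinearGroup (Fin 2) F) * c) * (c * c) = 1 := by
      have h6 : ((c ^ 4 : C) : Matrix.SpecialLinearGroup (Fin 2) F) = 1 := by rw [h4]; rfl
      rw [← h6]
      simp only [Subgroup.coe_pow]
      rw [show (4 : ℕ) = 2 + 2 from rfl, pow_add, pow_two]
    rcases hsq _ (C.mul_mem c.2 c.2) h5 with h6 | h6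
    · exfalso
      rcases hsq _ c.2 h6 with h7 | h7
      · exact hc1 h7
      · exact hcneg h7
    · exact Subtype.ext h6
  letI : CommGroup C := IsCyclic.commGroup
  obtain ⟨θ, hθz⟩ := CommGroup.exists_apply_ne_one_of_hasEnoughRootsOfUnity C ℂ (a := z) hz1
  have hθz2 : ((θ z : ℂˣ) : ℂ) * ((θ z : ℂˣ) : ℂ) = 1 := by
    rw [← Units.val_mul, ← map_mul, hz2, map_one]
    rfl
  have hθz' : ((θ z : ℂˣ) : ℂ) = -1 := by
    have h3 : (((θ z : ℂˣ) : ℂ) - 1) * (((θ z : ℂˣ) : ℂ) + 1) = 0 := by linear_combination hθz2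
    rcases mul_eq_zero.1 h3 with h4 | h4
    · exfalso
      apply hθz
      apply Units.ext
      rw [Units.val_one]
      linear_combination h4
    · linear_combination h4
  obtain ⟨g₀, hg₀⟩ := IsCyclic.exists_ofOrder_eq_natCard (α := C)
  have hg₀c : (g₀ : Matrix.SpecialLinearGroup (Fin 2) F) ∉
      Subgroup.center (Matrix.SpecialLinearGroup (Fin 2) F) := by
    intro hcen'
    rw [mem_center_iff_one_or_negOne] at hcen'
    have h3 : g₀ ^ 2 = 1 := by
      apply Subtype.ext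
      simp only [Subgroup.coe_pow, Subgroup.coe_one]
      rcases hcen' with h4 | h4
      · rw [h4, one_pow]
      · rw [h4, pow_two, negOne_mul_self]
    have h5 := orderOf_dvd_of_pow_eq_one h3
    rw [hg₀, hcard, hq3] at h5
    omega
  refine ⟨θ, ⟨g₀, ?_⟩, ?_⟩
  · rw [sq, ← map_mul, hcc g₀ hg₀c]
    intro h'
    have h3 := congrArg Units.val h'
    rw [hθz'] at h3
    norm_num at h3
  · intro c hc
    obtain ⟨hc1, hcneg⟩ := hcen c hc
    have hno : ∀ (l : F) (v : Fin 2 → F), v ≠ 0 →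
        ((c : Matrix.SpecialLinearGroup (Fin 2) F) : Matrix (Fin 2) (Fin 2) F).mulVec v ≠ l • v := by
      intro l v hv hlv
      obtain ⟨w, hw0, hw⟩ := eigenvector_conj (c : Matrix.SpecialLinearGroup (Fin 2) F) h⁻¹ l v hv hlv
      rw [inv_inv] at hw
      refine torus_no_eigenvector h2 b _ ((hconj c).1 c.2) ?_ ?_ l w hw0 hw
      · intro h'
        exact hc1 (eq_one_of_conj h _ h')
      · intro h'
        exact hcneg (eq_negOne_of_conj h _ h')
    rw [hvan c hno]
    have h5 : ((θ c : ℂˣ) : ℂ) * ((θ c : ℂˣ) : ℂ) = -1 := by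
      rw [← Units.val_mul, ← map_mul, hcc c hc, hθz']
    have hne : ((θ c : ℂˣ) : ℂ) ≠ 0 := (θ c).ne_zero
    rw [Units.val_inv_eq_inv_val]
    field_simp
    linear_combination h5

end Cfsg.Agent.H41
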