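import Mathlib
import Cfsg.Agent.H41.SL2Cusp
import Cfsg.Agent.H41.AbRestr

set_option autoImplicit false
set_option linter.unusedSimpArgs false
set_option linter.unusedSectionVars false
set_option linter.unusedVariables false
set_option linter.style.haveILetI false

namespace Cfsg.Agent.H41

open Matrix Cfsg Cfsg.Agent.Lib.CT Cfsg.Agent.Lib.CT.Wedderburn Cfsg.Agent.Lib.CT.FrobRec
  Cfsg.Agent.Lib.Helper39.GL2Inst Cfsg.Agent.Lib.Helper39.PSInst Cfsg.Agent.Lib.Helper39.SL2PS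
  Cfsg.Agent.Lib.Helper39.SL2T1 Cfsg.Agent.Lib.Helper39.SL2Tri Cfsg.Agent.Lib.Helper39.UMult
  Cfsg.Agent.Lib.Helper39.UBorel Cfsg.Agent.Lib.Helper39.GL2T1 Cfsg.Agent.Lib.Helper39.SL2Half
  Cfsg.Agent.Lib.Helper39.SL2Odd
open scoped ComplexConjugate

/-- The values of an irreducible character of degree `(q - 1) / 2` at the elements without
eigenvectors. -/
theorem cusp_half_value {F : Type*} [Field F] [Fintype F] [DecidableEq F]
    (hodd : Odd (Fintype.card F)) (hq : 5 ≤ Fintype.card F)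
    (χ : Matrix.SpecialLinearGroup (Fin 2) F → ℂ)
    (hχ : IsIrrCharacter (Matrix.SpecialLinearGroup (Fin 2) F) χ)
    (hdeg : χ 1 = (((Fintype.card F - 1) / 2 : ℕ) : ℂ))
    (g : Matrix.SpecialLinearGroup (Fin 2) F)
    (hno : ∀ (c : F) (v : Fin 2 → F), v ≠ 0 → (g : Matrix (Fin 2) (Fin 2) F).mulVec v ≠ c • v) :
    (g ^ ((Fintype.card F + 1) / 2) = 1 → χ g = -1) ∧
      (g ^ ((Fintype.card F + 1) / 2) ≠ 1 → χ g = 1) := by
  classical
  have hF := ringChar_ne_two_of_odd hodd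
  have h2F : (2 : F) ≠ 0 := two_ne_zero_of_odd_card hodd
  have hodd' := hodd
  obtain ⟨ψ₀, hψ₀⟩ := exists_primitive (F := F)
  obtain ⟨ν, hν⟩ := FiniteField.exists_nonsquare hF
  obtain ⟨a, bp, bm, hbp, hbm, ha, -, -, hdeg', -, htriv, -⟩ := sl_type hodd ψ₀ hψ₀ hν χ hχ
  obtain ⟨k, hk⟩ := hodd
  have hk2 : 2 ≤ k := by omega
  have hkk : (Fintype.card F - 1) / 2 = k := by omega
  have hkk' : (Fintype.card F + 1) / 2 = k + 1 := by omega
  rw [hkk] at hdeg hdeg'
  rw [hkk']
  have ha0 : a = 0 := by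
    have h1 : k = a + (bp + bm) * k := by
      rw [hdeg] at hdeg'
      exact_mod_cast hdeg'
    have h3 : bp + bm = 0 → k = 1 := by
      intro h0
      have h4 := htriv h0
      rw [h4] at hdeg
      have h5 : ((1 : ℕ) : ℂ) = (k : ℂ) := by simpa using hdeg
      exact_mod_cast h5.symm
    interval_cases bp <;> interval_cases bm <;> simp at h1 h3 <;> omega
  rw [ha0, Nat.cast_zero] at ha
  obtain ⟨p, hp⟩ := CharP.exists F
  haveI : Fact p.Prime := ⟨CharP.char_is_prime F p⟩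
  haveI : NeZero (2 : ℕ) := ⟨by norm_num⟩
  have h2 : Module.finrank F (FiniteField.Extension F p 2) = 2 :=
    FiniteField.finrank_extension F p 2
  let b : Module.Basis (Fin 2) F (FiniteField.Extension F p 2) :=
    Module.finBasisOfFinrankEq F _ h2
  haveI : Fintype (torus h2 b) := Fintype.ofFinite _
  have hcardT := card_torus h2 b
  obtain ⟨ω, hω, hωg⟩ := central_char χ hχ
  have hcl := char_isClassFunction (isCharacter_of_irr hχ)
  have hN1 := cusp_torus_norm h2 b hodd' p χ hχ ha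
  have hN2 := cusp_torus_sum h2 b hodd' p χ hχ ha ω hωg
  haveI := isCyclic_torus h2 b
  obtain ⟨g₀, hg₀⟩ := IsCyclic.exists_monoid_generator (α := torus h2 b)
  have hgen : ∀ a : torus h2 b, ∃ i : ℕ, a = g₀ ^ i := by
    intro a
    obtain ⟨i, hi⟩ := (Submonoid.mem_powers_iff a g₀).1 (hg₀ a)
    exact ⟨i, hi.symm⟩
  have hord : orderOf g₀ = Fintype.card F + 1 := by
    rw [← hcardT]
    apply orderOf_eq_card_of_forall_mem_zpowers
    intro x
    obtain ⟨i, hi⟩ := hgen x
    rw [hi]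
    exact Subgroup.npow_mem_zpowers g₀ i
  let z : torus h2 b := ⟨negOne, negOne_mem_torus h2 b⟩
  have hz2 : z * z = 1 := Subtype.ext negOne_mul_self
  have hz1 : z ≠ 1 := fun h => negOne_ne_one h2F (congrArg Subtype.val h)
  let X : torus h2 b → ℂ := fun c => χ c
  have hX : IsCharacter (torus h2 b) X :=
    Ops.isCharacter_restrict (torus h2 b) (isCharacter_of_irr hχ)
  have hXz : ∀ a, X (z * a) = ω * X a := fun a => hωg a
  have hXinv : ∀ a, X a⁻¹ = X a := fun a => torus_inv_eq h2 b χ hcl a a.2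
  have hq1 : (Fintype.card F : ℂ) = 2 * k + 1 := by
    rw [hk]
    push_cast
    ring
  have hk0 : (k : ℂ) ≠ 0 := by exact_mod_cast (by omega : k ≠ 0)
  have hk1 : (k : ℂ) + 1 ≠ 0 := by exact_mod_cast (by omega : k + 1 ≠ 0)
  have hk2' : 2 * (k : ℂ) + 1 + 1 ≠ 0 := by
    have : 2 * (k : ℂ) + 1 + 1 = 2 * ((k : ℂ) + 1) := by ring
    rw [this]
    exact mul_ne_zero two_ne_zero hk1
  have hXX : classInner X X = k := by
    unfold classInner
    rw [hcardT]
    rw [hdeg, hq1] at hN1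
    have hS : ∑ c : torus h2 b, χ c * conj (χ c) = 2 * ((k : ℂ) + 1) * k := by
      have h3 : (2 * (k : ℂ)) * (∑ c : torus h2 b, χ c * conj (χ c) - 2 * ((k : ℂ) + 1) * k) = 0 := by
        linear_combination hN1
      rcases mul_eq_zero.1 h3 with h | h
      · exact absurd h (mul_ne_zero two_ne_zero hk0)
      · linear_combination h
    show ((Fintype.card F + 1 : ℕ) : ℂ)⁻¹ * ∑ c : torus h2 b, χ c * conj (χ c) = k
    rw [hS]
    push_cast
    rw [hq1]
    field_simp
    ring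
  have hX0 : classInner X (fun _ => 1) = (1 + ω) / 2 := by
    unfold classInner
    rw [hcardT]
    simp only [map_one, mul_one]
    rw [hdeg, hq1] at hN2
    have hS : ∑ c : torus h2 b, χ c = ((k : ℂ) + 1) * (1 + ω) := by
      have h3 : (2 * (k : ℂ)) * (∑ c : torus h2 b, χ c - ((k : ℂ) + 1) * (1 + ω)) = 0 := by
        linear_combination hN2
      rcases mul_eq_zero.1 h3 with h | h
      · exact absurd h (mul_ne_zero two_ne_zero hk0)
      · linear_combination h
    show ((Fintype.card F + 1 : ℕ) : ℂ)⁻¹ * ∑ c : torus h2 b, χ c = (1 + ω) / 2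
    rw [hS]
    push_cast
    rw [hq1]
    field_simp
    ring
  have hab : ∀ a b' : torus h2 b, a * b' = b' * a := fun a b' =>
    Subtype.ext (torus_comm h2 b (a : Matrix.SpecialLinearGroup (Fin 2) F) b' a.2 b'.2)
  obtain ⟨ψ, hψ, hψ1, hψg, hval⟩ := ab_restr_half (A := torus h2 b)
    hab g₀ hgen z hz2 hz1 X hX ω hω hXz
    hXinv k (by rw [hcardT]; omega) hdeg hXX hX0
  obtain ⟨h, hh⟩ := exists_conj_mem_torus h2 b p g hno
  obtain ⟨hg1, hgneg⟩ := not_central_of_no_eigenvector g hno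
  have hgh : g = h⁻¹ * (h * g * h⁻¹) * h := by group
  have hc1 : (⟨h * g * h⁻¹, hh⟩ : torus h2 b) ≠ 1 := by
    intro h'
    have h'' : h * g * h⁻¹ = 1 := congrArg Subtype.val h'
    apply hg1
    rw [hgh, h'']
    group
  have hcz : (⟨h * g * h⁻¹, hh⟩ : torus h2 b) ≠ z := by
    intro h'
    have h'' : h * g * h⁻¹ = negOne := congrArg Subtype.val h'
    apply hgneg
    rw [hgh, h'']
    exact conj_negOne h
  have hχg : χ g = - ψ ⟨h * g * h⁻¹, hh⟩ := by
    rw [← hval _ hc1 hcz]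
    exact (hcl g h).symm
  obtain ⟨i, hi⟩ := hgen ⟨h * g * h⁻¹, hh⟩
  have hψc : ψ ⟨h * g * h⁻¹, hh⟩ = (-1) ^ i := by
    rw [hi, LinChar.linear_pow hψ hψ1, hψg]
  have hpow : g ^ (k + 1) = 1 ↔ Even i := by
    have e1 : g ^ (k + 1) = 1 ↔ (⟨h * g * h⁻¹, hh⟩ : torus h2 b) ^ (k + 1) = 1 := by
      constructor
      · intro hg
        apply Subtype.ext
        show (h * g * h⁻¹) ^ (k + 1) = 1
        rw [conj_pow, hg]
        group
      · intro hcpow
        have h3 : (h * g * h⁻¹) ^ (k + 1) = 1 := congrArg Subtype.val hcpow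
        rw [conj_pow] at h3
        have e : g ^ (k + 1) = h⁻¹ * (h * g ^ (k + 1) * h⁻¹) * h := by group
        rw [e, h3]
        group
    rw [e1, hi, ← pow_mul, ← orderOf_dvd_iff_pow_eq_one, hord, hk]
    have e2 : 2 * k + 1 + 1 = 2 * (k + 1) := by ring
    rw [e2, Nat.mul_dvd_mul_iff_right (by omega : 0 < k + 1)]
    exact even_iff_two_dvd.symm
  constructor
  · intro hg
    rw [hχg, hψc, (hpow.1 hg).neg_one_pow]
  · intro hg
    have hoddi : Odd i := Nat.not_even_iff_odd.1 (fun he => hg (hpow.2 he))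
    rw [hχg, hψc, hoddi.neg_one_pow]
    norm_num

end Cfsg.Agent.H41
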